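import Mathlib
import Cfsg.Agent.Lib.CharDegreesTheory.Unitary

/-!
Blichfeldt's abelian normal subgroup of a finite linear group, with the bound `12 ^ n` on the
index of its trace on an arbitrary abelian subgroup.
-/

set_option autoImplicit false
set_option linter.unusedSectionVars false

namespace CfsgLib.CharDegreesTheory

open scoped InnerProductSpace
open ContinuousLinearMap (opNorm_le_bound le_opNorm)

section

variable {G : Type*} [Group G] [Finite G]
  {E : Type*} [NormedAddCommGroup E] [InnerProductSpace ℂ E] [FiniteDimensional ℂ E]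
  (π : G →* (E →L[ℂ] E))

theorem isometry_opNorm_le (hiso : ∀ g v, ‖π g v‖ = ‖v‖) (g : G) : ‖π g‖ ≤ 1 :=
  opNorm_le_bound _ zero_le_one fun v => by simp [hiso]

/-- The commutator estimate. -/
theorem norm_commutator_sub_one_le (hiso : ∀ g v, ‖π g v‖ = ‖v‖) (x y : G) (a b : ℂ) :
    ‖π (x * y * x⁻¹ * y⁻¹) - 1‖ ≤ 2 * ‖π x - a • 1‖ * ‖π y - b • 1‖ := by
  set A := π x - a • (1 : E →L[ℂ] E)
  set B := π y - b • (1 : E →L[ℂ] E)
  have hAB : π x * π y - π y * π x = A * B - B * A := by
    simp only [A, B, mul_sub, sub_mul, mul_smul_comm, smul_mul_assoc, one_mul, mul_one, smul_sub,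
      smul_smul, mul_comm b a]
    abel
  have h : π (x * y * x⁻¹ * y⁻¹) - 1 = (A * B - B * A) * π ((y * x)⁻¹) := by
    rw [← hAB, sub_mul, ← map_mul, ← map_mul, ← map_mul, ← map_mul, mul_inv_cancel, map_one]
    congr 2
    group
  rw [h]
  calc ‖(A * B - B * A) * π ((y * x)⁻¹)‖ ≤ ‖A * B - B * A‖ * ‖π ((y * x)⁻¹)‖ := norm_mul_le _ _
    _ ≤ ‖A * B - B * A‖ * 1 :=
        mul_le_mul_of_nonneg_left (isometry_opNorm_le π hiso _) (norm_nonneg _)
    _ ≤ ‖A‖ * ‖B‖ + ‖B‖ * ‖A‖ := by
        rw [mul_one]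
        exact (norm_sub_le _ _).trans (add_le_add (norm_mul_le _ _) (norm_mul_le _ _))
    _ = _ := by ring

/-- An element is positive if its numerical range avoids the imaginary axis on the right. -/
theorem re_inner_pos_of_norm_sub_lt (hiso : ∀ g v, ‖π g v‖ = ‖v‖) (y : G) (a : ℝ) (ha : 0 < a)
    (h : ‖π y - (a : ℂ) • 1‖ ^ 2 < 1 + a ^ 2) (v : E) (hv : v ≠ 0) :
    0 < RCLike.re ⟪π y v, v⟫_ℂ := by
  have h1 : ‖π y v - (a : ℂ) • v‖ ≤ ‖π y - (a : ℂ) • 1‖ * ‖v‖ := by
    have := le_opNorm (π y - (a : ℂ) • 1) v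
    rwa [sub_apply, smul_apply,
      one_apply_eq_self] at this
  have h2 := norm_sub_sq (𝕜 := ℂ) (π y v) ((a : ℂ) • v)
  rw [inner_smul_right, hiso, norm_smul, Complex.norm_real, Real.norm_eq_abs,
    abs_of_pos ha] at h2
  have h3 : RCLike.re ((a : ℂ) * ⟪π y v, v⟫_ℂ) = a * RCLike.re ⟪π y v, v⟫_ℂ := by simp
  rw [h3] at h2
  have hvp : 0 < ‖v‖ := norm_pos_iff.mpr hv
  have h4 : ‖π y v - (a : ℂ) • v‖ ^ 2 < (1 + a ^ 2) * ‖v‖ ^ 2 :=
    calc _ ≤ (‖π y - (a : ℂ) • 1‖ * ‖v‖) ^ 2 := pow_le_pow_left₀ (norm_nonneg _) h1 2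
      _ < _ := by rw [mul_pow]; exact mul_lt_mul_of_pos_right h (by positivity)
  nlinarith

/-- Frobenius: if `x` commutes with `[x, y]` and the eigenvalues of `y` lie in a half plane,
then `x` commutes with `y`. -/
theorem frobenius_commute (hiso : ∀ g v, ‖π g v‖ = ‖v‖) (hinj : Function.Injective π)
    (x y : G) (hc : Commute x (x * y * x⁻¹ * y⁻¹))
    (hy : ∀ v : E, v ≠ 0 → 0 < RCLike.re ⟪π y v, v⟫_ℂ) : Commute x y := by
  let z := y * x⁻¹ * y⁻¹
  have hxz : x * z = z * x := by
    have : x * (x * z) = (x * z) * x := by simpa [z, mul_assoc] using hc.eq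
    rw [mul_assoc] at this
    exact mul_left_cancel this
  by_contra hne
  have hzx : π z ≠ π x⁻¹ := fun h => hne (by
    have h' : y * x⁻¹ * y⁻¹ = x⁻¹ := hinj h
    have h'' : y * x⁻¹ = x⁻¹ * y := mul_inv_eq_iff_eq_mul.mp h'
    have : Commute y x⁻¹ := h''
    exact (Commute.inv_right_iff.mp this).symm)
  let H := Subgroup.closure ({x, z} : Set G)
  have hH : ∀ a b : H, a * b = b * a := by
    have := Subgroup.isMulCommutative_closure (k := ({x, z} : Set G)) (by
      rintro a (rfl | rfl) b (rfl | rfl) <;> first | rfl | exact hxz | exact hxz.symm)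
    exact fun a b => this.is_comm.comm a b
  let π' : H →* Module.End ℂ E :=
    { toFun := fun h => (π h : E →ₗ[ℂ] E), map_one' := by simp, map_mul' := fun a b => by
        simp }
  obtain ⟨b, l, hl⟩ := exists_eigenbasis hH π'
  have hx' : x⁻¹ ∈ H := inv_mem (Subgroup.subset_closure (Or.inl rfl))
  have hz : z ∈ H := Subgroup.subset_closure (Or.inr rfl)
  obtain ⟨i, hi⟩ : ∃ i, l i ⟨z, hz⟩ ≠ l i ⟨x⁻¹, hx'⟩ := by
    by_contra hall
    push Not at hall
    refine hzx (ContinuousLinearMap.coe_injective (b.ext fun i => ?_))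
    have h1 := hl i ⟨z, hz⟩
    rw [hall i] at h1
    exact h1.trans (hl i ⟨x⁻¹, hx'⟩).symm
  have hxv : π x⁻¹ (b i) = l i ⟨x⁻¹, hx'⟩ • b i := hl i ⟨x⁻¹, hx'⟩
  have hzv : π z (b i) = l i ⟨z, hz⟩ • b i := hl i ⟨z, hz⟩
  have hyv : π x⁻¹ (π y⁻¹ (b i)) = l i ⟨z, hz⟩ • π y⁻¹ (b i) := by
    have e1 : π x⁻¹ (π y⁻¹ (b i)) = π (y⁻¹ * z) (b i) := by
      rw [← mul_apply_eq_comp, ← map_mul]
      congr 2
      simp [z, mul_assoc]
    rw [e1, map_mul, mul_apply_eq_comp, hzv, map_smul]
  have horth : ⟪b i, π y⁻¹ (b i)⟫_ℂ = 0 :=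
    inner_eq_zero_of_eigen (π x⁻¹) (hiso _) hxv hyv (Ne.symm hi)
  have hyy : π y (π y⁻¹ (b i)) = b i := by
    rw [← mul_apply_eq_comp, ← map_mul]; simp
  have hpos := hy (π y⁻¹ (b i)) (fun h => b.ne_zero i (by rw [← hyy, h, map_zero]))
  rw [hyy, horth] at hpos
  simp at hpos

/-- Two elements close to a common scalar commute. -/
theorem commute_of_near (hiso : ∀ g v, ‖π g v‖ = ‖v‖) (hinj : Function.Injective π)
    (a : ℝ) (ha : 0 < a) (x y : G) (hx : ‖π x - (a : ℂ) • 1‖ < 1 / 2)
    (hy : ‖π y - (a : ℂ) • 1‖ < 1 / 2) : Commute x y := by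
  classical
  let c : ℕ → G := fun k => (fun w => x * w * x⁻¹ * w⁻¹)^[k] y
  have hc : ∀ k, c (k + 1) = x * c k * x⁻¹ * (c k)⁻¹ := fun k =>
    Function.iterate_succ_apply' _ _ _
  let d : ℕ → ℝ := fun k => ‖π (c (k + 1)) - 1‖
  set r := ‖π x - (a : ℂ) • 1‖
  have hd : ∀ k, d (k + 1) ≤ 2 * r * d k := fun k => by
    show ‖π (c (k + 1 + 1)) - 1‖ ≤ _
    rw [hc (k + 1)]
    simpa [d, r] using norm_commutator_sub_one_le π hiso x (c (k + 1)) (a : ℂ) 1
  have hd0 : d 0 < 1 := by
    have := norm_commutator_sub_one_le π hiso x y (a : ℂ) (a : ℂ)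
    have hxy : d 0 = ‖π (x * y * x⁻¹ * y⁻¹) - 1‖ := rfl
    nlinarith [norm_nonneg (π x - (a : ℂ) • 1), norm_nonneg (π y - (a : ℂ) • 1)]
  have hr : 2 * r < 1 := by linarith
  have hr0 : 0 ≤ 2 * r := mul_nonneg zero_le_two (norm_nonneg _)
  have hdn : ∀ k, d k < 1 := by
    intro k
    induction k with
    | zero => exact hd0
    | succ k ih =>
      have : 0 ≤ d k := norm_nonneg _
      nlinarith [hd k]
  have hex : ∃ k, c (k + 1) = 1 := by
    by_contra hno
    push Not at hno
    have hpos : ∀ k, 0 < d k := fun k => norm_pos_iff.mpr (sub_ne_zero.mpr fun h =>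
      hno k (hinj (by rw [h, map_one])))
    have hanti : StrictAnti d := strictAnti_nat_of_succ_lt fun k => by
      have := hpos k
      nlinarith [hd k]
    have : Function.Injective fun k => c (k + 1) := fun i j h =>
      hanti.injective (by show ‖π (c (i + 1)) - 1‖ = ‖π (c (j + 1)) - 1‖; rw [show c (i + 1) = c (j + 1) from h])
    exact not_injective_infinite_finite _ this
  have key : c 1 = 1 := by
    have hstep : ∀ k, c (k + 2) = 1 → c (k + 1) = 1 := by
      intro k hk
      have h2 : Commute x (c (k + 1)) := by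
        have := hk; rw [hc (k + 1)] at this
        exact commutatorElement_eq_one_iff_commute.mp this
      rw [hc k] at h2 ⊢
      have hpos : ∀ v : E, v ≠ 0 → 0 < RCLike.re ⟪π (c k) v, v⟫_ℂ := by
        intro v hv
        cases k with
        | zero =>
          refine re_inner_pos_of_norm_sub_lt π hiso y a ha ?_ v hv
          nlinarith [norm_nonneg (π y - (a : ℂ) • 1), sq_nonneg a]
        | succ j =>
          refine re_inner_pos_of_norm_sub_lt π hiso (c (j + 1)) 1 one_pos ?_ v hv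
          have := hdn j
          have hn : 0 ≤ d j := norm_nonneg _
          simp only [Complex.ofReal_one, one_smul]
          show (d j) ^ 2 < 1 + 1 ^ 2
          nlinarith
      exact commutatorElement_eq_one_iff_commute.mpr (frobenius_commute π hiso hinj x (c k) h2 hpos)
    obtain ⟨k, hk⟩ := hex
    induction k with
    | zero => exact hk
    | succ k ih => exact ih (hstep k hk)
  rw [hc 0] at key
  exact commutatorElement_eq_one_iff_commute.mp key

/-- Box of a root of unity: which of twelve arcs contains it. -/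
noncomputable def arcBox (z : ℂ) : Fin 12 :=
  ⟨min 11 ⌊(Real.pi - z.arg) / (Real.pi / 6)⌋₊, by omega⟩

theorem arcBox_spec {z w : ℂ} (hz : ‖z‖ = 1) (hw : ‖w‖ = 1) (h : arcBox z = arcBox w) :
    Real.cos (Real.pi / 6) < ((starRingEnd ℂ) z * w).re := by
  have hp := Real.pi_pos
  have hb : ∀ u : ℂ, 0 ≤ (Real.pi - u.arg) / (Real.pi / 6) ∧
      (Real.pi - u.arg) / (Real.pi / 6) < 12 := fun u => by
    have h1 := Complex.neg_pi_lt_arg u
    have h2 := Complex.arg_le_pi u
    refine ⟨by apply div_nonneg <;> linarith, ?_⟩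
    rw [div_lt_iff₀ (by linarith)]; linarith
  have hfl : ∀ u : ℂ, ⌊(Real.pi - u.arg) / (Real.pi / 6)⌋₊ ≤ 11 := fun u => by
    have := (Nat.floor_lt (hb u).1).mpr (by exact_mod_cast (hb u).2 : _ < ((12 : ℕ) : ℝ))
    omega
  have he : ⌊(Real.pi - z.arg) / (Real.pi / 6)⌋₊ = ⌊(Real.pi - w.arg) / (Real.pi / 6)⌋₊ := by
    have := congrArg Fin.val h
    simpa [arcBox, min_eq_right (hfl z), min_eq_right (hfl w)] using this
  have habs : |w.arg - z.arg| < Real.pi / 6 := by
    have a1 := Nat.floor_le (hb z).1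
    have a2 := Nat.lt_floor_add_one ((Real.pi - z.arg) / (Real.pi / 6))
    have b1 := Nat.floor_le (hb w).1
    have b2 := Nat.lt_floor_add_one ((Real.pi - w.arg) / (Real.pi / 6))
    rw [he] at a1 a2
    have hk : |(Real.pi - z.arg) / (Real.pi / 6) - (Real.pi - w.arg) / (Real.pi / 6)| < 1 := by
      rw [abs_lt]; constructor <;> linarith
    rw [← sub_div, abs_div, abs_of_pos (show 0 < Real.pi / 6 by linarith),
      div_lt_one (by linarith)] at hk
    simpa [sub_sub_sub_cancel_left] using hk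
  have hre : ((starRingEnd ℂ) z * w).re = Real.cos (w.arg - z.arg) := by
    have z0 : z ≠ 0 := fun h => by simp [h] at hz
    have w0 : w ≠ 0 := fun h => by simp [h] at hw
    rw [Real.cos_sub, Complex.cos_arg z0, Complex.cos_arg w0, Complex.sin_arg, Complex.sin_arg,
      hz, hw]
    simp; ring
  rw [hre, ← Real.cos_abs (w.arg - z.arg)]
  exact Real.cos_lt_cos_of_nonneg_of_le_pi_div_two (abs_nonneg _) (by linarith) habs

set_option maxHeartbeats 1000000 in
/-- An element all whose eigenvalues are near `1` is within `1/2` of the scalar `√3/2`. -/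
theorem near_of_eigen (hiso : ∀ g v, ‖π g v‖ = ‖v‖) (g : G) {ι : Type*} [Fintype ι]
    (b : Module.Basis ι ℂ E) (l : ι → ℂ) (hl : ∀ i, π g (b i) = l i • b i)
    (hcos : ∀ i, Real.cos (Real.pi / 6) < (l i).re) :
    ‖π g - (Real.cos (Real.pi / 6) : ℂ) • 1‖ < 1 / 2 := by
  classical
  set a := Real.cos (Real.pi / 6) with ha_def
  have ha2 : a ^ 2 = 3 / 4 := by rw [ha_def, Real.sq_cos_pi_div_six]
  have ha : 0 < a := Real.cos_pos_of_mem_Ioo ⟨by linarith [Real.pi_pos], by linarith [Real.pi_pos]⟩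
  let μ : ι → ℂ := fun i => l i - a
  have hμ : ∀ i, ‖μ i‖ < 1 / 2 := by
    intro i
    have hn : ‖l i‖ = 1 := by
      have := hiso g (b i)
      rw [hl, norm_smul] at this
      exact (mul_left_eq_self₀.mp this).resolve_right (norm_ne_zero_iff.mpr (b.ne_zero i))
    have : ‖μ i‖ ^ 2 = 1 + a ^ 2 - 2 * a * (l i).re := by
      rw [← Complex.normSq_eq_norm_sq]
      have h1 : Complex.normSq (l i) = 1 := by rw [Complex.normSq_eq_norm_sq, hn]; norm_num
      rw [Complex.normSq_apply] at h1 ⊢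
      simp [μ]; linear_combination h1
    nlinarith [hcos i, norm_nonneg (μ i)]
  -- a uniform bound
  let s : Finset ℝ := insert 0 (Finset.univ.image fun i => ‖μ i‖)
  have hs : s.Nonempty := Finset.insert_nonempty _ _
  let r := s.max' hs
  have hr : r < 1 / 2 := by
    rw [Finset.max'_lt_iff]
    intro x hx
    rcases Finset.mem_insert.mp hx with rfl | hx
    · norm_num
    · obtain ⟨i, _, rfl⟩ := Finset.mem_image.mp hx; exact hμ i
  have hr0 : 0 ≤ r := Finset.le_max' _ _ (Finset.mem_insert_self _ _)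
  have hrμ : ∀ i, ‖μ i‖ ≤ r := fun i =>
    Finset.le_max' s _ (Finset.mem_insert_of_mem (Finset.mem_image.mpr ⟨i, Finset.mem_univ i, rfl⟩))
  refine lt_of_le_of_lt (opNorm_le_bound _ hr0 fun v => ?_) hr
  -- group the basis expansion by eigenvalue
  let L : Finset ℂ := Finset.univ.image l
  let f : ℂ → E := fun z => ∑ i with l i = z, b.repr v i • b i
  have hv : ∑ z ∈ L, f z = v := by
    rw [Finset.sum_fiberwise_of_maps_to (fun i _ => Finset.mem_image_of_mem l (Finset.mem_univ i))]
    exact b.sum_repr v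
  have hTv : (π g - (a : ℂ) • 1) v = ∑ z ∈ L, (z - a) • f z := by
    conv_lhs => rw [← hv]
    rw [map_sum]
    refine Finset.sum_congr rfl fun z _ => ?_
    simp only [f, map_sum, Finset.smul_sum]
    refine Finset.sum_congr rfl fun i hi => ?_
    obtain rfl := (Finset.mem_filter.mp hi).2
    rw [map_smul, sub_apply, smul_apply,
      one_apply_eq_self, hl, ← sub_smul, smul_smul, smul_smul, mul_comm]
  have horth : ∀ z w : ℂ, z ≠ w → ∀ c d : ℂ, ⟪c • f z, d • f w⟫_ℂ = 0 := by
    intro z w hzw c d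
    simp only [f, Finset.smul_sum, smul_smul, sum_inner, inner_sum, inner_smul_left,
      inner_smul_right]
    refine Finset.sum_eq_zero fun j hj => mul_eq_zero.mpr (Or.inr (Finset.sum_eq_zero fun i hi => ?_))
    have hne : l i ≠ l j := by
      obtain rfl := (Finset.mem_filter.mp hi).2
      obtain rfl := (Finset.mem_filter.mp hj).2
      exact hzw
    rw [inner_eq_zero_of_eigen (π g) (hiso g) (hl i) (hl j) hne]
    simp
  have hsq : ∀ c : ℂ → ℂ, ‖∑ z ∈ L, c z • f z‖ ^ 2 = ∑ z ∈ L, ‖c z • f z‖ ^ 2 := by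
    intro c
    rw [← inner_self_eq_norm_sq (𝕜 := ℂ), sum_inner, map_sum]
    refine Finset.sum_congr rfl fun z hz => ?_
    rw [inner_sum, Finset.sum_eq_single z (fun w _ hw => horth z w (Ne.symm hw) _ _)
      (fun h => absurd hz h), inner_self_eq_norm_sq]
  refine le_of_pow_le_pow_left₀ two_ne_zero (by positivity) ?_
  rw [hTv, hsq, mul_pow]
  have := hsq (fun _ => 1)
  simp only [one_smul] at this
  rw [hv] at this
  rw [this, Finset.mul_sum]
  refine Finset.sum_le_sum fun z hz => ?_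
  obtain ⟨i, _, rfl⟩ := Finset.mem_image.mp hz
  rw [norm_smul, mul_pow]
  exact mul_le_mul_of_nonneg_right (pow_le_pow_left₀ (norm_nonneg _) (hrμ i) 2) (sq_nonneg _)

/-- **Blichfeldt**: a finite group of isometries of an `n`-dimensional space has an abelian normal
subgroup `A` meeting every abelian subgroup in index at most `12 ^ n`. -/
theorem exists_blichfeldt_subgroup (hiso : ∀ g v, ‖π g v‖ = ‖v‖) (hinj : Function.Injective π) :
    ∃ A : Subgroup G, A.Normal ∧ (∀ x ∈ A, ∀ y ∈ A, x * y = y * x) ∧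
      ∀ H : Subgroup G, (∀ x ∈ H, ∀ y ∈ H, x * y = y * x) →
        (A.subgroupOf H).index ≤ 12 ^ Module.finrank ℂ E := by
  classical
  set a := Real.cos (Real.pi / 6)
  have ha : 0 < a := Real.cos_pos_of_mem_Ioo ⟨by linarith [Real.pi_pos], by linarith [Real.pi_pos]⟩
  let S : Set G := {g | ‖π g - (a : ℂ) • 1‖ < 1 / 2}
  refine ⟨Subgroup.closure S, ?_, ?_, ?_⟩
  · apply Subgroup.Normal.mk
    intro n hn g
    induction hn using Subgroup.closure_induction with
    | mem z hz =>
      refine Subgroup.subset_closure ?_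
      have he : π (g * z * g⁻¹) - (a : ℂ) • 1 = π g * (π z - (a : ℂ) • 1) * π g⁻¹ := by
        rw [mul_sub, sub_mul, ← map_mul, ← map_mul]
        congr 1
        rw [mul_smul_comm, smul_mul_assoc, mul_one, ← map_mul, mul_inv_cancel, map_one]
      show ‖π (g * z * g⁻¹) - (a : ℂ) • 1‖ < 1 / 2
      rw [he]
      calc ‖π g * (π z - (a : ℂ) • 1) * π g⁻¹‖
          ≤ ‖π g‖ * ‖π z - (a : ℂ) • 1‖ * ‖π g⁻¹‖ :=
            (norm_mul_le _ _).trans (mul_le_mul_of_nonneg_right (norm_mul_le _ _) (norm_nonneg _))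
        _ ≤ 1 * ‖π z - (a : ℂ) • 1‖ * 1 := by
            gcongr <;> exact isometry_opNorm_le π hiso _
        _ < 1 / 2 := by rw [one_mul, mul_one]; exact hz
    | one => simp
    | mul u v _ _ h1 h2 => simpa [mul_assoc] using mul_mem h1 h2
    | inv u _ h1 => simpa [mul_assoc] using inv_mem h1
  · intro x hx y hy
    have := (Subgroup.isMulCommutative_closure (k := S)
      fun u hu v hv => (commute_of_near π hiso hinj a ha u v hu hv).eq).is_comm.comm ⟨x, hx⟩ ⟨y, hy⟩
    exact congrArg Subtype.val this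
  · intro H hH
    let π' : H →* Module.End ℂ E :=
      { toFun := fun h => (π h : E →ₗ[ℂ] E), map_one' := by simp
        map_mul' := fun a b => by simp }
    obtain ⟨b, l, hl⟩ := exists_eigenbasis (fun x y => Subtype.ext (hH x x.2 y y.2)) π'
    have hnorm : ∀ i (h : H), ‖l i h‖ = 1 := fun i h => by
      have := hiso h (b i)
      rw [show π (h : G) (b i) = l i h • b i from hl i h, norm_smul] at this
      exact (mul_left_eq_self₀.mp this).resolve_right (norm_ne_zero_iff.mpr (b.ne_zero i))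
    let K := (Subgroup.closure S).subgroupOf H
    let f : H ⧸ K → (Fin (Module.finrank ℂ E) → Fin 12) := fun q i => arcBox (l i q.out)
    have hf : Function.Injective f := by
      intro q₁ q₂ h
      rw [← QuotientGroup.out_eq' q₁, ← QuotientGroup.out_eq' q₂, QuotientGroup.eq]
      refine Subgroup.mem_subgroupOf.mpr (Subgroup.subset_closure ?_)
      refine near_of_eigen π hiso _ b (fun i => l i (q₁.out⁻¹ * q₂.out)) (fun i => hl i _) fun i => ?_
      have hinv : l i q₁.out⁻¹ = (starRingEnd ℂ) (l i q₁.out) := by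
        have h1 : l i q₁.out⁻¹ * l i q₁.out = 1 := by rw [← map_mul, inv_mul_cancel, map_one]
        rw [← Complex.inv_eq_conj (hnorm i _), eq_inv_of_mul_eq_one_left h1]
      rw [map_mul, hinv]
      exact arcBox_spec (hnorm i _) (hnorm i _) (congrFun h i)
    have := Nat.card_le_card_of_injective f hf
    simpa [Subgroup.index, K] using this

end

/-- Blichfeldt's theorem for a faithful representation on `ℂⁿ`. -/
theorem exists_blichfeldt_subgroup_of_rep {G : Type*} [Group G] [Finite G] {n : ℕ}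
    (ρ : Representation ℂ G (Fin n → ℂ)) (hinj : Function.Injective ρ) :
    ∃ A : Subgroup G, A.Normal ∧ (∀ x ∈ A, ∀ y ∈ A, x * y = y * x) ∧
      ∀ H : Subgroup G, (∀ x ∈ H, ∀ y ∈ H, x * y = y * x) →
        (A.subgroupOf H).index ≤ 12 ^ n := by
  obtain ⟨π, e, hiso, he⟩ := exists_unitary_model ρ
  have hπ : Function.Injective π := fun g h hgh => hinj (LinearMap.ext fun v =>
    e.injective (by rw [← he, ← he, hgh]))
  simpa using exists_blichfeldt_subgroup π hiso hπ

end CfsgLib.CharDegreesTheory
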