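import Mathlib
import Cfsg.Agent.Lib.CharTheory.Decomp
import Cfsg.Agent.Lib.CharDegreesTheory.Galois
import Cfsg.Agent.Lib.CharDegreesTheory.AbelianHall

/-!
Blichfeldt: a linear group of degree `n` has commuting elements of any two prime orders greater
than `n + 1` that divide its order; hence an abelian Hall subgroup for those primes.
-/

set_option autoImplicit false
set_option linter.style.haveILetI false

namespace CfsgLib.CharDegreesTheory

open Cfsg

universe u

variable {G : Type u} [Group G]

/-- A constituent fixed by all Galois automorphisms moving only `q`-th roots, of degree less than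
`q - 1`, kills every element of order `q`. -/
theorem eq_one_of_rational [Finite G] {n : ℕ} (ρ : Representation ℂ G (Fin n → ℂ)) {q : ℕ}
    (hq : q.Prime) (hn : n + 1 < q) {x : G} (hx : x ^ q = 1)
    (hfix : ∀ j : ℕ, 1 ≤ j → j < q → ρ.character (x ^ j) = ρ.character x) : ρ x = 1 := by
  classical
  obtain ⟨ι, _, b, μ, hcard, -, hpow, hchar⟩ := CfsgLib.CharTheory.exists_eigenbasis ρ x
  have hμ : ∀ i, μ i ^ q = 1 := fun i => by
    have := hpow q i
    rw [hx, map_one, Module.End.one_apply] at this
    exact (smul_left_injective ℂ (b.ne_zero i) (((one_smul ℂ (b i)).trans this))).symm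
  set c₀ := (Finset.univ.filter fun i => μ i = 1).card
  have hcardn : Fintype.card ι = n := by rw [hcard, Module.finrank_fin_fun]
  have hc₀ : c₀ ≤ n := hcardn ▸ Finset.card_le_univ _
  have hgeom : ∀ i, ∑ j ∈ Finset.range q, μ i ^ j = if μ i = 1 then (q : ℂ) else 0 := fun i => by
    split_ifs with h
    · simp [h]
    · rw [geom_sum_eq h, hμ, sub_self, zero_div]
  have hsum : (n : ℂ) + ((q : ℂ) - 1) * ρ.character x = (q : ℂ) * c₀ := by
    have h1 : ∑ j ∈ Finset.range q, ρ.character (x ^ j) = (q : ℂ) * c₀ := by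
      simp only [hchar]
      rw [Finset.sum_comm]
      simp only [hgeom, Finset.sum_ite, Finset.sum_const, nsmul_eq_mul, c₀]
      ring
    rw [← h1, Finset.range_eq_Ico, Finset.sum_eq_sum_Ico_succ_bot hq.pos,
      Finset.sum_congr rfl fun j hj => hfix j (Finset.mem_Ico.mp hj).1 (Finset.mem_Ico.mp hj).2,
      Finset.sum_const, Nat.card_Ico, nsmul_eq_mul, Nat.cast_sub hq.one_le, pow_zero]
    simp
  have hq1 : ((q : ℚ) - 1) ≠ 0 := by
    have : (1 : ℚ) < q := by exact_mod_cast hq.one_lt
    linarith
  set s : ℚ := ((q : ℚ) * c₀ - n) / ((q : ℚ) - 1) with hs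
  have hxs : ρ.character x = (s : ℂ) := by
    have : ((q : ℂ) - 1) ≠ 0 := by exact_mod_cast hq1
    simp only [hs]
    push_cast
    rw [eq_div_iff this]
    linear_combination hsum
  have hint : IsIntegral ℤ s := by
    have h := CfsgLib.CharTheory.isIntegral_character ρ x
    rw [hxs] at h
    exact (isIntegral_algHom_iff ((algebraMap ℚ ℂ).toIntAlgHom) (algebraMap ℚ ℂ).injective).mp
      (by simpa using h)
  obtain ⟨z, hz⟩ := IsIntegrallyClosed.isIntegral_iff.mp hint
  have hz' : (z : ℚ) * ((q : ℚ) - 1) = (q : ℚ) * c₀ - n := by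
    rw [show (z : ℚ) = s from hz, hs, div_mul_cancel₀ _ hq1]
  have hz'' : z * ((q : ℤ) - 1) = (q : ℤ) * c₀ - n := by exact_mod_cast hz'
  have hdvd : ((q : ℤ) - 1) ∣ (n : ℤ) - c₀ := ⟨(c₀ : ℤ) - z, by linear_combination hz''⟩
  have heq : (n : ℤ) - c₀ = 0 :=
    Int.eq_zero_of_dvd_of_nonneg_of_lt (by omega) (by omega) hdvd
  have hall : ∀ i, μ i = 1 := by
    intro i
    have hu : (Finset.univ.filter fun i => μ i = 1) = Finset.univ :=
      Finset.eq_univ_of_card _ (by omega)
    have h := Finset.mem_univ i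
    rw [← hu] at h
    exact (Finset.mem_filter.mp h).2
  refine b.ext fun i => ?_
  simpa [hall] using hpow 1 i

/-- Exponents realising the Galois automorphisms that move only `q`-power roots of unity. -/
theorem exists_exponent {m q : ℕ} (hm : m ≠ 0) (hq : q.Prime) (j : ℕ) (hj : ¬ q ∣ j) :
    ∃ k : ℕ, k.Coprime m ∧ k ≡ j [MOD q ^ m.factorization q] ∧
      ∀ d : ℕ, d ∣ m → ¬ q ∣ d → k ≡ 1 [MOD d] := by
  have hco : (q ^ m.factorization q).Coprime (m / q ^ m.factorization q) :=
    (Nat.coprime_ordCompl hq hm).pow_left _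
  obtain ⟨k, hk1, hk2⟩ := Nat.chineseRemainder hco j 1
  refine ⟨k, ?_, hk1, fun d hd hqd => ?_⟩
  · rw [← Nat.ordProj_mul_ordCompl_eq_self m q]
    refine Nat.Coprime.mul_right ?_ ?_
    · have h : j.Coprime (q ^ m.factorization q) :=
        (((hq.coprime_iff_not_dvd).mpr hj).symm).pow_right _
      rw [Nat.Coprime, Nat.ModEq.gcd_eq hk1]
      exact h
    · rw [Nat.Coprime, Nat.ModEq.gcd_eq hk2]
      simp
  · refine Nat.ModEq.of_dvd ?_ hk2
    exact (Nat.Coprime.pow_right _ ((hq.coprime_iff_not_dvd).mpr hqd).symm).dvd_of_dvd_mul_left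
      ((Nat.ordProj_mul_ordCompl_eq_self m q).symm ▸ hd)

/-- Any two big primes dividing the order of a linear group of degree `n` occur as orders of
commuting elements. -/
theorem hasCommutingPairs (n : ℕ) : HasCommutingPairs.{u} n := by
  intro G _ _ ρ hinj q r hq hr hqr hnq hnr hqG hrG
  classical
  haveI := Fintype.ofFinite G
  haveI : Fact q.Prime := ⟨hq⟩
  haveI : Fact r.Prime := ⟨hr⟩
  obtain ⟨y, hy⟩ := exists_prime_orderOf_dvd_card' (G := G) q hqG
  obtain ⟨x, hx⟩ := exists_prime_orderOf_dvd_card' (G := G) r hrG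
  by_contra hno
  push Not at hno
  have hsplit : ∀ g : G, ¬ q ∣ orderOf g ∨ ¬ r ∣ orderOf g := by
    intro g
    by_contra h
    push Not at h
    obtain ⟨⟨a, ha⟩, b, hb⟩ := h
    have hg := orderOf_pos g
    refine hno (g ^ b) (g ^ a) ?_ ?_ ((Commute.refl g).pow_pow b a)
    · rw [orderOf_pow, hb, Nat.gcd_mul_left_left, Nat.mul_div_cancel _ (by
        rcases Nat.eq_zero_or_pos b with rfl | h0
        · simp [hb] at hg
        · exact h0)]
    · rw [orderOf_pow, ha, Nat.gcd_mul_left_left, Nat.mul_div_cancel _ (by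
        rcases Nat.eq_zero_or_pos a with rfl | h0
        · simp [ha] at hg
        · exact h0)]
  set m := Nat.card G with hmdef
  have hm : m ≠ 0 := Nat.card_pos.ne'
  haveI : NeZero m := ⟨hm⟩
  -- every irreducible constituent kills all elements of order `q` or all of order `r`
  have hkill : ∀ (d : ℕ) (σ : Representation ℂ G (Fin d → ℂ)), σ.IsIrreducible → d ≤ n →
      σ y = 1 ∨ σ x = 1 := by
    intro d σ hσ hd
    set ψ := σ.character
    have hψ : IsIrrCharacter G ψ := ⟨d, σ, hσ, rfl⟩
    have hψc : IsCharacter G ψ := ⟨d, σ, rfl⟩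
    have hdich : ∀ i j : ℕ, ¬ q ∣ i → ¬ r ∣ j → ∀ k l : ℕ, k.Coprime m → l.Coprime m →
        (∀ g : G, ¬ q ∣ orderOf g → g ^ k = g) → (∀ g : G, ¬ r ∣ orderOf g → g ^ l = g) →
        (∀ g : G, ψ (g ^ k) = ψ g) ∨ (∀ g : G, ψ (g ^ l) = ψ g) := by
      intro _ _ _ _ k l hk hl hkfix hlfix
      obtain ⟨s, hs⟩ := exists_ringAut_complex m k hk
      obtain ⟨t, ht⟩ := exists_ringAut_complex m l hl
      have hsψ : ∀ g, s (ψ g) = ψ (g ^ k) := fun g =>
        ringAut_apply_character s hs hψc (orderOf_dvd_natCard g)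
      have htψ : ∀ g, t (ψ g) = ψ (g ^ l) := fun g =>
        ringAut_apply_character t ht hψc (orderOf_dvd_natCard g)
      have hstψ : ∀ g, (s.trans t) (ψ g) = ψ ((g ^ k) ^ l) := fun g => by
        rw [RingEquiv.trans_apply, hsψ, htψ]
      have hid : ψ + (fun g => (s.trans t) (ψ g)) = (fun g => s (ψ g)) + fun g => t (ψ g) := by
        funext g
        simp only [Pi.add_apply, hsψ, htψ, hstψ]
        rcases hsplit g with h | h
        · rw [hkfix g h]
        · have hgl := hlfix g h
          have : (g ^ k) ^ l = g ^ k := by rw [← pow_mul, mul_comm, pow_mul, hgl]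
          rw [this, hgl]; ring
      have h1 := congrArg (fun f => classInner f ψ) hid
      simp only [CfsgLib.CharTheory.classInner_add_left,
        CfsgLib.CharTheory.classInner_self_of_isIrr hψ] at h1
      rw [CfsgLib.CharTheory.classInner_irr (isIrrCharacter_ringAut _ hψ) hψ,
        CfsgLib.CharTheory.classInner_irr (isIrrCharacter_ringAut _ hψ) hψ,
        CfsgLib.CharTheory.classInner_irr (isIrrCharacter_ringAut _ hψ) hψ] at h1
      by_cases hs' : (fun g => s (ψ g)) = ψ
      · exact Or.inl fun g => (hsψ g).symm.trans (congrFun hs' g)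
      · by_cases ht' : (fun g => t (ψ g)) = ψ
        · exact Or.inr fun g => (htψ g).symm.trans (congrFun ht' g)
        · rw [if_neg hs', if_neg ht'] at h1
          split_ifs at h1 <;> norm_num at h1
    have hexp : ∀ (p : ℕ), p.Prime → ∀ j : ℕ, ¬ p ∣ j → ∃ k : ℕ, k.Coprime m ∧
        (∀ g : G, ¬ p ∣ orderOf g → g ^ k = g) ∧ (∀ z : G, orderOf z = p → z ^ k = z ^ j) := by
      intro p hp j hj
      obtain ⟨k, hk, hkj, hkd⟩ := exists_exponent hm hp j hj
      refine ⟨k, hk, fun g hg => ?_, fun z hz => ?_⟩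
      · conv_rhs => rw [← pow_one g]
        exact (pow_eq_pow_iff_modEq).mpr (hkd _ (orderOf_dvd_natCard g) hg)
      · refine (pow_eq_pow_iff_modEq).mpr (Nat.ModEq.of_dvd ?_ hkj)
        rw [hz]
        refine dvd_pow_self p (hp.factorization_pos_of_dvd hm ?_).ne'
        exact hz ▸ orderOf_dvd_natCard z
    by_cases hall : ∀ j, 1 ≤ j → j < q → ψ (y ^ j) = ψ y
    · exact Or.inl (eq_one_of_rational σ hq (by omega) (by rw [← hy, pow_orderOf_eq_one]) hall)
    · push Not at hall
      obtain ⟨j, hj1, hjq, hne⟩ := hall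
      have hjq' : ¬ q ∣ j := Nat.not_dvd_of_pos_of_lt hj1 hjq
      refine Or.inr (eq_one_of_rational σ hr (by omega) (by rw [← hx, pow_orderOf_eq_one]) ?_)
      intro i hi1 hir
      have hir' : ¬ r ∣ i := Nat.not_dvd_of_pos_of_lt hi1 hir
      obtain ⟨k, hk, hkfix, hky⟩ := hexp q hq j hjq'
      obtain ⟨l, hl, hlfix, hlx⟩ := hexp r hr i hir'
      rcases hdich j i hjq' hir' k l hk hl hkfix hlfix with h | h
      · exact absurd (hky y hy ▸ h y) hne
      · exact hlx x hx ▸ h x
  -- so the commutator of `x` and `y` is killed by every constituent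
  obtain ⟨ms, hms⟩ := CfsgLib.CharTheory.IsCharacter.exists_multiset
    (⟨n, ρ, rfl⟩ : IsCharacter G ρ.character)
  have hone : ∀ ψ ∈ ms, (ψ : G → ℂ) (x * y * x⁻¹ * y⁻¹) = (ψ : G → ℂ) 1 := by
    intro ψ hψ
    obtain ⟨d, σ, hσ, hσψ⟩ := ψ.2
    have hdn : d ≤ n := by
      have h1 := congrArg (fun f : G → ℂ => (f 1).re) hms
      simp only [Representation.char_one, Module.finrank_fin_fun, Complex.natCast_re] at h1
      rw [← Multiset.cons_erase hψ, Multiset.map_cons, Multiset.sum_cons, Pi.add_apply,
        Complex.add_re] at h1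
      have hnn : 0 ≤ ((((ms.erase ψ).map fun φ : IrrCharacter G => (φ : G → ℂ))).sum 1).re := by
        generalize ms.erase ψ = t
        induction t using Multiset.induction_on with
        | empty => simp
        | cons a t ih =>
          rw [Multiset.map_cons, Multiset.sum_cons, Pi.add_apply, Complex.add_re]
          obtain ⟨e, -, he⟩ := CfsgLib.CharTheory.exists_degree_of_isIrr a.2
          rw [he]
          simpa using add_nonneg (Nat.cast_nonneg e) ih
      rw [← hσψ, Representation.char_one, Module.finrank_fin_fun, Complex.natCast_re] at h1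
      exact_mod_cast show (d : ℝ) ≤ n by linarith
    rw [← hσψ]
    have : σ (x * y * x⁻¹ * y⁻¹) = 1 := by
      rcases hkill d σ hσ hdn with h | h
      · have h' : σ y⁻¹ = 1 := by
          have := map_mul σ y⁻¹ y
          rw [inv_mul_cancel, map_one, h, mul_one] at this
          exact this.symm
        rw [map_mul, map_mul, map_mul, h, h', mul_one, mul_one, ← map_mul, mul_inv_cancel, map_one]
      · have h' : σ x⁻¹ = 1 := by
          have := map_mul σ x⁻¹ x
          rw [inv_mul_cancel, map_one, h, mul_one] at this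
          exact this.symm
        rw [map_mul, map_mul, map_mul, h, h', one_mul, mul_one, ← map_mul, mul_inv_cancel, map_one]
    simp [Representation.character, this]
  have hχ : ρ.character (x * y * x⁻¹ * y⁻¹) = (Module.finrank ℂ (Fin n → ℂ) : ℂ) := by
    rw [← Representation.char_one ρ, hms]
    have hev : ∀ g : G, ((ms.map fun φ : IrrCharacter G => (φ : G → ℂ))).sum g =
        (ms.map fun φ : IrrCharacter G => (φ : G → ℂ) g).sum := fun g => by
      have := map_multiset_sum (Pi.evalAddMonoidHom (fun _ : G => ℂ) g)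
        (ms.map fun φ : IrrCharacter G => (φ : G → ℂ))
      simpa [Multiset.map_map, Function.comp_def] using this
    rw [hev, hev]
    exact congrArg Multiset.sum (Multiset.map_congr rfl hone)
  have hc := (CfsgLib.CharTheory.character_eq_finrank_iff ρ _).mp hχ
  have h1 : x * y * x⁻¹ * y⁻¹ = 1 := hinj (by rw [map_one]; exact hc)
  exact hno x y hx hy (commutatorElement_eq_one_iff_commute.mp h1)

/-- **Blichfeldt**: a linear group of degree `n` has an abelian Hall subgroup for the primes
greater than `n + 1`. -/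
theorem exists_abelianHall [Finite G] {n : ℕ} (ρ : Representation ℂ G (Fin n → ℂ))
    (hinj : Function.Injective ρ) : ∃ H : Subgroup G, IsAbelianHall (fun q => n + 1 < q) H :=
  exists_abelianHall_aux (hasCommutingPairs n) _ G ρ hinj le_rfl

end CfsgLib.CharDegreesTheory
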