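import Cfsg.Agent.Lib.Clifford.Extension
import Cfsg.Agent.Lib.CharTheory.Monomial
import Cfsg.Agent.Lib.CharTheory.Inflation
import Cfsg.Agent.Lib.Coherence.Constituent
import Cfsg.Agent.Lib.CharDegreesTheory.SmallDegrees

/-!
# Degrees of characters invariant under a coprime automorphism of prime power order

If an automorphism `α` of `p`-power order of a solvable group `M` of order prime to `p` fixes the
irreducible character `θ` and is not trivial modulo its kernel, then `θ(1)` is divisible by a prime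
power congruent to `1` or `-1` modulo `p`. The same holds for the index of an invariant subgroup
whose cosets are not all fixed.
-/

set_option autoImplicit false
set_option linter.style.haveILetI false
set_option linter.unusedSectionVars false

namespace CfsgLib.CharDegreesTheory.CoprimeWinter

open Cfsg CfsgLib.CharTheory CfsgLib.Clifford CfsgLib.CharDegreesTheory.SmallDegrees
open scoped ComplexConjugate commutatorElement

universe u

/-- Divisible by a prime power congruent to `±1` modulo `p`. -/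
def Good (p d : ℕ) : Prop :=
  ∃ q : ℕ, IsPrimePow q ∧ q ∣ d ∧ ((p : ℤ) ∣ (q : ℤ) + 1 ∨ (p : ℤ) ∣ (q : ℤ) - 1)

theorem Good.mono {p d e : ℕ} (h : Good p d) (hd : d ∣ e) : Good p e := by
  obtain ⟨q, hq, hqd, hc⟩ := h
  exact ⟨q, hq, hqd.trans hd, hc⟩

variable {M : Type u} [Group M]

/-- Invariance of a subgroup under an automorphism. -/
def Inv (α : MulAut M) (U : Subgroup M) : Prop := ∀ m ∈ U, α m ∈ U

section restrict

variable [Finite M] (α : MulAut M) (N : Subgroup M) (hN : Inv α N)

/-- The restriction to an invariant subgroup. -/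
noncomputable def restrictAut : MulAut N :=
  MulEquiv.ofBijective
    ({ toFun := fun n => ⟨α n, hN n n.2⟩
       map_one' := Subtype.ext (map_one α)
       map_mul' := fun a b => Subtype.ext (map_mul α (a : M) b) } : N →* N)
    ((Finite.injective_iff_bijective).1 fun _ _ h =>
      Subtype.ext (α.injective (congrArg Subtype.val h)))

theorem coe_restrictAut (n : N) : (restrictAut α N hN n : M) = α n := rfl

theorem coe_restrictAut_pow (k : ℕ) (n : N) :
    (((restrictAut α N hN) ^ k) n : M) = (α ^ k) n := by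
  induction k generalizing n with
  | zero => simp
  | succ k ih => rw [pow_succ, pow_succ, MulAut.mul_apply, MulAut.mul_apply, ih, coe_restrictAut]

theorem restrictAut_pow {k : ℕ} (h : α ^ k = 1) : (restrictAut α N hN) ^ k = 1 :=
  MulEquiv.ext fun n => Subtype.ext (by rw [coe_restrictAut_pow, h]; rfl)

end restrict

theorem pow_succ_apply (α : MulAut M) (k : ℕ) (m : M) : (α ^ (k + 1)) m = α ((α ^ k) m) := by
  rw [pow_succ', MulAut.mul_apply]

/-- An automorphism trivial on `M/N` and on `N` modulo `K` is trivial on `M` modulo `K`. -/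
theorem disp_mem_of_trivial [Finite M] {p : ℕ} [hp : Fact p.Prime] {α : MulAut M} {i : ℕ}
    (hα : α ^ p ^ i = 1) (hcop : ¬ p ∣ Nat.card M) (N : Subgroup M) (hN : Inv α N)
    (K : Subgroup N) [K.Normal] (hK : ∀ n : N, n⁻¹ * restrictAut α N hN n ∈ K)
    (m : M) (hm : m⁻¹ * α m ∈ N) : (⟨m⁻¹ * α m, hm⟩ : N) ∈ K := by
  set n₀ : N := ⟨m⁻¹ * α m, hm⟩ with hn₀
  have h : ∀ k : ℕ, ∃ c : N, (α ^ k) m = m * c ∧
      QuotientGroup.mk' K c = QuotientGroup.mk' K n₀ ^ k := by
    intro k
    induction k with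
    | zero => exact ⟨1, by simp, by simp⟩
    | succ k ih =>
      obtain ⟨c, hc, hck⟩ := ih
      refine ⟨n₀ * restrictAut α N hN c, ?_, ?_⟩
      · rw [pow_succ_apply, hc, map_mul, Subgroup.coe_mul, coe_restrictAut, hn₀]
        simp [mul_assoc]
      · have e : QuotientGroup.mk' K (restrictAut α N hN c) = QuotientGroup.mk' K c := by
          refine (inv_mul_eq_one.1 ?_).symm
          rw [← map_inv, ← map_mul]
          exact (QuotientGroup.eq_one_iff _).2 (hK c)
        rw [map_mul, e, hck, pow_succ']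
  obtain ⟨c, hc, hck⟩ := h (p ^ i)
  rw [hα, MulAut.one_apply, left_eq_mul, OneMemClass.coe_eq_one] at hc
  rw [hc, map_one] at hck
  refine (QuotientGroup.eq_one_iff n₀).1 ?_
  show QuotientGroup.mk' K n₀ = 1
  have h1 : orderOf (QuotientGroup.mk' K n₀) ∣ p ^ i := orderOf_dvd_of_pow_eq_one hck.symm
  have h2 : orderOf (QuotientGroup.mk' K n₀) ∣ Nat.card M :=
    (orderOf_map_dvd _ _).trans ((orderOf_dvd_natCard n₀).trans N.card_subgroup_dvd_card)
  rw [← orderOf_eq_one_iff]
  exact Nat.eq_one_of_dvd_coprimes ((hp.out.coprime_iff_not_dvd.2 hcop).pow_left i) h1 h2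

/-- A permutation of `p`-power order of a set of size prime to `p` fixes a point. -/
theorem exists_fixed {X : Type*} [Finite X] {p : ℕ} [Fact p.Prime] {i : ℕ} (σ : Equiv.Perm X)
    (hσ : σ ^ p ^ i = 1) (hX : ¬ p ∣ Nat.card X) : ∃ x, σ x = x := by
  classical
  haveI := Fintype.ofFinite X
  by_contra hne
  push Not at hne
  have h := Equiv.Perm.card_compl_support_modEq hσ
  rw [show σ.supportᶜ = ∅ from Finset.eq_empty_of_forall_notMem fun x hx =>
      (Finset.mem_compl.1 hx) (Equiv.Perm.mem_support.2 (hne x)), Finset.card_empty,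
    ← Nat.card_eq_fintype_card] at h
  exact hX (Nat.modEq_zero_iff_dvd.1 h.symm)

/-- The subgroup generated by the displacements. -/
def dispGroup (α : MulAut M) : Subgroup M := Subgroup.closure (Set.range fun m => m⁻¹ * α m)

theorem disp_mem (α : MulAut M) (m : M) : m⁻¹ * α m ∈ dispGroup α :=
  Subgroup.subset_closure ⟨m, rfl⟩

theorem dispGroup_normal (α : MulAut M) : (dispGroup α).Normal := by
  refine ⟨fun x hx h => ?_⟩
  have hle : dispGroup α ≤ (dispGroup α).comap (MulAut.conj h).toMonoidHom := by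
    refine (Subgroup.closure_le _).2 ?_
    rintro _ ⟨m, rfl⟩
    show h * (m⁻¹ * α m) * h⁻¹ ∈ dispGroup α
    rw [show h * (m⁻¹ * α m) * h⁻¹ = (m * h⁻¹)⁻¹ * α (m * h⁻¹) * (h⁻¹⁻¹ * α h⁻¹)⁻¹ by
      rw [map_mul]; simp [mul_assoc]]
    exact Subgroup.mul_mem _ (disp_mem α _) (Subgroup.inv_mem _ (disp_mem α _))
  exact hle hx

theorem dispGroup_inv (α : MulAut M) : Inv α (dispGroup α) := by
  intro x hx
  have hle : dispGroup α ≤ (dispGroup α).comap α.toMonoidHom := by
    refine (Subgroup.closure_le _).2 ?_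
    rintro _ ⟨m, rfl⟩
    show α (m⁻¹ * α m) ∈ dispGroup α
    rw [map_mul, map_inv]
    exact disp_mem α _
  exact hle hx

/-- A maximal invariant normal proper subgroup. -/
structure MaxData (α : MulAut M) (N : Subgroup M) : Prop where
  normal : N.Normal
  ne_top : N ≠ ⊤
  inv : Inv α N
  comm : commutator M ≤ N
  max : ∀ U : Subgroup M, U.Normal → Inv α U → N ≤ U → U = N ∨ U = ⊤

theorem inv_sup {α : MulAut M} {U V : Subgroup M} (hU : Inv α U) (hV : Inv α V) :
    Inv α (U ⊔ V) := by
  intro x hx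
  have hle : U ⊔ V ≤ (U ⊔ V).comap α.toMonoidHom :=
    sup_le (fun m hm => Subgroup.mem_sup_left (hU m hm)) fun m hm => Subgroup.mem_sup_right (hV m hm)
  exact hle hx

theorem exists_maxData [Finite M] [Group.IsSolvable M] (α : MulAut M) {A : Subgroup M}
    (hA : A.Normal) (hAi : Inv α A) (hA1 : A ≠ ⊤) : ∃ N, A ≤ N ∧ MaxData α N := by
  obtain ⟨N, hAN, ⟨⟨hNn, hN1, hNi⟩, hmax⟩⟩ := Finite.exists_le_maximal
    (p := fun U : Subgroup M => U.Normal ∧ U ≠ ⊤ ∧ Inv α U) ⟨hA, hA1, hAi⟩
  have hmax' : ∀ U : Subgroup M, U.Normal → Inv α U → N ≤ U → U = N ∨ U = ⊤ := fun U hU hUi hle => by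
    by_cases hU1 : U = ⊤
    · exact Or.inr hU1
    · exact Or.inl (le_antisymm (hmax ⟨hU, hU1, hUi⟩ hle) hle)
  refine ⟨N, hAN, hNn, hN1, hNi, ?_, hmax'⟩
  haveI := hNn
  have hci : Inv α (commutator M) := fun x hx => by
    have h : (commutator M).map α.toMonoidHom ≤ commutator M := by
      rw [commutator_def, Subgroup.map_commutator]
      exact Subgroup.commutator_mono le_top le_top
    exact h ⟨x, hx, rfl⟩
  rcases hmax' (N ⊔ commutator M) inferInstance (inv_sup hNi hci) le_sup_left with e | e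
  · exact le_sup_right.trans e.le
  · exfalso
    haveI : Nontrivial (M ⧸ N) := QuotientGroup.nontrivial_iff.2 hN1
    refine (Group.IsSolvable.commutator_lt_top_of_nontrivial (G := M ⧸ N)).ne ?_
    have h := congrArg (Subgroup.map (QuotientGroup.mk' N)) e
    rw [Subgroup.map_sup, QuotientGroup.map_mk'_self, bot_sup_eq, commutator_def,
      Subgroup.map_commutator, Subgroup.map_top_of_surjective _ (QuotientGroup.mk'_surjective N),
      ← commutator_def] at h
    exact h

namespace MaxData

variable [Finite M] {α : MulAut M} {N : Subgroup M} (h : MaxData α N)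
include h

theorem mk_comm (a b : M) :
    haveI := h.normal
    (a : M ⧸ N) * b = b * a := by
  haveI := h.normal
  rw [← QuotientGroup.mk_mul, ← QuotientGroup.mk_mul, QuotientGroup.eq]
  have : ⁅b⁻¹, a⁻¹⁆ ∈ N := h.comm (by
    rw [commutator_def]
    exact Subgroup.commutator_mem_commutator (Subgroup.mem_top _) (Subgroup.mem_top _))
  rw [show (a * b)⁻¹ * (b * a) = ⁅b⁻¹, a⁻¹⁆ by rw [commutatorElement_def]; group]
  exact this

/-- The automorphism is trivial on `M/N` or has no fixed point there. -/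
theorem dichotomy : (∀ m, m⁻¹ * α m ∈ N) ∨ ∀ m, m⁻¹ * α m ∈ N → m ∈ N := by
  haveI := h.normal
  let U : Subgroup M := ((QuotientGroup.mk' N).comp α.toMonoidHom).eqLocus (QuotientGroup.mk' N)
  have hU : ∀ m, m ∈ U ↔ m⁻¹ * α m ∈ N := fun m =>
    ⟨fun hm => QuotientGroup.eq.1 (Eq.symm hm), fun hm => (QuotientGroup.eq.2 hm).symm⟩
  have hNU : N ≤ U := fun m hm => (hU m).2 (N.mul_mem (N.inv_mem hm) (h.inv m hm))
  have hUi : Inv α U := fun m hm => by
    rw [hU] at hm ⊢
    have := h.inv _ hm
    rwa [map_mul, map_inv] at this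
  rcases h.max U (Subgroup.Normal.of_commutator_le M (h.comm.trans hNU)) hUi hNU with e | e
  · exact Or.inr fun m hm => e ▸ (hU m).2 hm
  · exact Or.inl fun m => (hU m).1 (e ▸ Subgroup.mem_top m)

/-- The index is a prime power. -/
theorem index_primePow : IsPrimePow N.index := by
  haveI := h.normal
  have hne : N.index ≠ 1 := fun e => h.ne_top (Subgroup.index_eq_one.1 e)
  obtain ⟨q, hq, hqd⟩ := Nat.exists_prime_and_dvd hne
  haveI := Fact.mk hq
  letI : CommGroup (M ⧸ N) :=
    { mul_comm := fun x y => by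
        obtain ⟨a, rfl⟩ := QuotientGroup.mk'_surjective N x
        obtain ⟨b, rfl⟩ := QuotientGroup.mk'_surjective N y
        exact h.mk_comm a b }
  let U : Subgroup M := (powMonoidHom (q ^ N.index) : (M ⧸ N) →* M ⧸ N).ker.comap (QuotientGroup.mk' N)
  have hU : ∀ m, m ∈ U ↔ m ^ (q ^ N.index) ∈ N := fun m => by
    show ((m : M ⧸ N)) ^ (q ^ N.index) = 1 ↔ _
    rw [← QuotientGroup.mk_pow, QuotientGroup.eq_one_iff]
  have hNU : N ≤ U := fun m hm => (hU m).2 (N.pow_mem hm _)
  have hUi : Inv α U := fun m hm => by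
    rw [hU] at hm ⊢
    rw [← map_pow]
    exact h.inv _ hm
  rcases h.max U (Subgroup.Normal.of_commutator_le M (h.comm.trans hNU)) hUi hNU with e | e
  · exfalso
    obtain ⟨x, hx⟩ := exists_prime_orderOf_dvd_card' (G := M ⧸ N) q (by rwa [← Subgroup.index_eq_card])
    obtain ⟨m, rfl⟩ := QuotientGroup.mk'_surjective N x
    have hm : m ∈ U := by
      show (QuotientGroup.mk' N m) ^ (q ^ N.index) = 1
      rw [← orderOf_dvd_iff_pow_eq_one, hx]
      exact dvd_pow_self q Subgroup.index_ne_zero_of_finite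
    rw [e] at hm
    rw [show QuotientGroup.mk' N m = 1 from (QuotientGroup.eq_one_iff m).2 hm, orderOf_one] at hx
    exact hq.ne_one hx.symm
  · have hP : IsPGroup q (M ⧸ N) := fun x => by
      obtain ⟨m, rfl⟩ := QuotientGroup.mk'_surjective N x
      exact ⟨N.index, (e ▸ Subgroup.mem_top m : m ∈ U)⟩
    obtain ⟨j, hj⟩ := IsPGroup.iff_card.1 hP
    rw [← Subgroup.index_eq_card] at hj
    exact ⟨q, j, hq.prime, Nat.pos_of_ne_zero fun e0 => hne (by rw [hj, e0, pow_zero]), hj.symm⟩

/-- A fixed point free action gives index congruent to one. -/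
theorem index_modEq {p : ℕ} [Fact p.Prime] {i : ℕ} (hα : α ^ p ^ i = 1)
    (hfree : ∀ m, m⁻¹ * α m ∈ N → m ∈ N) : (p : ℤ) ∣ (N.index : ℤ) - 1 := by
  classical
  haveI := h.normal
  haveI := Fintype.ofFinite (M ⧸ N)
  have hmap : N.map α.toMonoidHom = N := by
    refine Subgroup.eq_of_le_of_card_ge ?_ ?_
    · rintro _ ⟨x, hx, rfl⟩
      exact h.inv x hx
    · exact (Nat.card_congr (Subgroup.equivMapOfInjective N α.toMonoidHom α.injective).toEquiv).le
  let σ : Equiv.Perm (M ⧸ N) := (QuotientGroup.congr N N α hmap).toEquiv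
  have hσ : ∀ (k : ℕ) (m : M), (σ ^ k) (m : M ⧸ N) = ((α ^ k) m : M ⧸ N) := by
    intro k
    induction k with
    | zero => intro m; simp
    | succ k ih =>
      intro m
      rw [pow_succ_apply, pow_succ', Equiv.Perm.mul_apply, ih]
      rfl
  have hσ1 : σ ^ p ^ i = 1 := Equiv.ext fun x => by
    obtain ⟨m, rfl⟩ := QuotientGroup.mk'_surjective N x
    show (σ ^ p ^ i) (m : M ⧸ N) = m
    rw [hσ, hα]
    rfl
  have hc := Equiv.Perm.card_compl_support_modEq hσ1
  rw [show σ.supportᶜ = {1} from Finset.ext fun x => by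
    obtain ⟨m, rfl⟩ := QuotientGroup.mk'_surjective N x
    rw [Finset.mem_compl, Equiv.Perm.notMem_support, Finset.mem_singleton]
    show (α m : M ⧸ N) = (m : M ⧸ N) ↔ (m : M ⧸ N) = 1
    rw [eq_comm, QuotientGroup.eq, QuotientGroup.eq_one_iff]
    exact ⟨hfree m, fun hm => N.mul_mem (N.inv_mem hm) (h.inv m hm)⟩,
    Finset.card_singleton, ← Nat.card_eq_fintype_card, ← Subgroup.index_eq_card] at hc
  have h2 := Int.natCast_modEq_iff.2 hc
  rw [Nat.cast_one] at h2
  exact Int.modEq_iff_dvd.1 h2

end MaxData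

/-- The index of an invariant subgroup with a moved coset. -/
theorem good_index {p : ℕ} [hp : Fact p.Prime] {i : ℕ} : ∀ (c : ℕ) (M : Type u) [Group M] [Finite M]
    [Group.IsSolvable M], Nat.card M = c → ¬ p ∣ Nat.card M → ∀ α : MulAut M, α ^ p ^ i = 1 →
    ∀ S : Subgroup M, Inv α S → (∃ m, m⁻¹ * α m ∉ S) → Good p S.index := by
  intro c
  induction c using Nat.strong_induction_on with
  | _ c ih =>
    intro M _ _ _ hc hcop α hα S hS ⟨m₀, hm₀⟩
    haveI : Nontrivial M := ⟨⟨m₀⁻¹ * α m₀, 1, fun e => hm₀ (e ▸ S.one_mem)⟩⟩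
    obtain ⟨N, -, hN⟩ := exists_maxData α (A := ⊥) inferInstance
      (fun x hx => by rw [Subgroup.mem_bot.1 hx, map_one]; exact Subgroup.one_mem _) bot_ne_top
    haveI := hN.normal
    haveI : Group.IsSolvable N := Group.isSolvable_of_isSolvable_injective (f := N.subtype) N.subtype_injective
    have hlt : Nat.card N < c := hc ▸ lt_of_le_of_ne (Subgroup.card_le_card_group N)
      fun e => hN.ne_top ((Subgroup.card_eq_iff_eq_top N).mp e)
    set β := restrictAut α N hN.inv with hβ
    have hrec : (∃ n : N, n⁻¹ * β n ∉ S.subgroupOf N) → Good p (S.relIndex N) := fun hex =>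
      ih _ hlt N rfl (fun hd => hcop (hd.trans N.card_subgroup_dvd_card)) β
        (restrictAut_pow α N hN.inv hα) (S.subgroupOf N) (fun n hn => hS n hn) hex
    rcases hN.max (N ⊔ S) (Subgroup.Normal.of_commutator_le M (hN.comm.trans le_sup_left))
      (inv_sup hN.inv hS) le_sup_left with e | e
    · have hSN : S ≤ N := le_sup_right.trans e.le
      rcases hN.dichotomy with ht | hf
      · refine (hrec ?_).mono (Dvd.intro _ (Subgroup.relIndex_mul_index hSN))
        by_contra hall
        push Not at hall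
        have hKc : ∀ n : N, n⁻¹ * β n ∈ (S.subgroupOf N).normalCore := by
          intro n h
          rw [show h * (n⁻¹ * β n) * h⁻¹ =
            ((n * h⁻¹)⁻¹ * β (n * h⁻¹)) * (h⁻¹⁻¹ * β h⁻¹)⁻¹ by rw [map_mul]; simp [mul_assoc]]
          exact Subgroup.mul_mem _ (hall _) (Subgroup.inv_mem _ (hall _))
        exact hm₀ (Subgroup.mem_subgroupOf.1 (Subgroup.normalCore_le (S.subgroupOf N)
          (disp_mem_of_trivial hα hcop N hN.inv (S.subgroupOf N).normalCore hKc m₀ (ht m₀))))
      · refine ⟨N.index, hN.index_primePow, Subgroup.index_dvd_of_le hSN,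
          Or.inr (hN.index_modEq hα hf)⟩
    · have hidx : S.index = S.relIndex N := by
        have hk : Nat.card (N.subgroupOf S) = Nat.card (S.subgroupOf N) := by
          rw [← Subgroup.inf_subgroupOf_right N S, ← Subgroup.inf_subgroupOf_right S N,
            Nat.card_congr (Subgroup.subgroupOfEquivOfLe (inf_le_right : N ⊓ S ≤ S)).toEquiv,
            Nat.card_congr (Subgroup.subgroupOfEquivOfLe (inf_le_right : S ⊓ N ≤ N)).toEquiv, inf_comm]
        have e1 : (N.subgroupOf S).index = N.index := by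
          show N.relIndex S = N.index
          rw [← Subgroup.relIndex_sup_left S N, e, Subgroup.relIndex_top_right]
        have h1 : Nat.card (N.subgroupOf S) * (N.subgroupOf S).index = Nat.card S :=
          Subgroup.card_mul_index _
        have h2 : Nat.card (S.subgroupOf N) * S.relIndex N = Nat.card N := Subgroup.card_mul_index _
        have h3 := S.card_mul_index
        have h4 := N.card_mul_index
        rw [e1, hk] at h1
        rw [← h4, ← h2, ← h1] at h3
        have hpos : 0 < Nat.card (S.subgroupOf N) * N.index :=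
          Nat.mul_pos Nat.card_pos (Nat.pos_of_ne_zero Subgroup.index_ne_zero_of_finite)
        refine Nat.eq_of_mul_eq_mul_left hpos ?_
        rw [h3]; ring
      rw [hidx]
      refine hrec ?_
      by_contra hall
      push Not at hall
      refine hm₀ ?_
      obtain ⟨n, hn, s, hs, rfl⟩ :=
        Subgroup.mem_sup_of_normal_left.1 (e ▸ Subgroup.mem_top m₀ : m₀ ∈ N ⊔ S)
      rw [map_mul, show (n * s)⁻¹ * (α n * α s) = s⁻¹ * (n⁻¹ * α n) * α s by group]
      exact S.mul_mem (S.mul_mem (S.inv_mem hs) (hall ⟨n, hn⟩)) (hS s hs)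

/-- The degree of an invariant character with nontrivial displacement modulo its kernel. -/
theorem good_degree {p : ℕ} [hp : Fact p.Prime] {i : ℕ} : ∀ (c : ℕ) (M : Type u) [Group M] [Finite M]
    [Group.IsSolvable M], Nat.card M = c → ¬ p ∣ Nat.card M → ∀ α : MulAut M, α ^ p ^ i = 1 →
    ∀ θ : IrrCharacter M, (∀ m, (θ : M → ℂ) (α m) = (θ : M → ℂ) m) →
    (∃ m, (θ : M → ℂ) (m⁻¹ * α m) ≠ (θ : M → ℂ) 1) → Good p (charDegree (θ : M → ℂ)) := by
  intro c
  induction c using Nat.strong_induction_on with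
  | _ c ih =>
    intro M _ _ _ hc hcop α hα θ hinv ⟨m₀, hm₀⟩
    classical
    haveI := Fintype.ofFinite M
    haveI : Nontrivial M := ⟨⟨m₀⁻¹ * α m₀, 1, fun e => hm₀ (by rw [e])⟩⟩
    have hθc := IsIrrCharacter.isCharacter θ.2
    obtain ⟨Kθ, hKn, hKmem, hKmul⟩ := exists_kernel hθc
    haveI := hKn
    -- choose a maximal invariant normal subgroup, above the displacements if possible
    obtain ⟨N, hN, hcase⟩ : ∃ N, MaxData α N ∧
        ((∀ m, m⁻¹ * α m ∈ N) ∨ ((∀ m, m⁻¹ * α m ∈ N → m ∈ N) ∧ dispGroup α = ⊤)) := by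
      by_cases hD : dispGroup α = ⊤
      · obtain ⟨N, -, hN⟩ := exists_maxData α (A := ⊥) inferInstance
          (fun x hx => by rw [Subgroup.mem_bot.1 hx, map_one]; exact Subgroup.one_mem _) bot_ne_top
        refine ⟨N, hN, hN.dichotomy.imp id fun hf => ⟨hf, hD⟩⟩
      · obtain ⟨N, hle, hN⟩ := exists_maxData α (dispGroup_normal α) (dispGroup_inv α) hD
        exact ⟨N, hN, Or.inl fun m => hle (disp_mem α m)⟩
    haveI := hN.normal
    haveI := Fintype.ofFinite N
    haveI : Group.IsSolvable N := Group.isSolvable_of_isSolvable_injective (f := N.subtype) N.subtype_injective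
    have hcopN : ¬ p ∣ Nat.card N := fun hd => hcop (hd.trans N.card_subgroup_dvd_card)
    set β := restrictAut α N hN.inv with hβ
    have hlt : Nat.card N < c := hc ▸ lt_of_le_of_ne (Subgroup.card_le_card_group N)
      fun e => hN.ne_top ((Subgroup.card_eq_iff_eq_top N).mp e)
    haveI := Fintype.ofFinite (IrrCharacter N)
    set θN : N → ℂ := fun n => (θ : M → ℂ) n with hθN
    set C := Finset.univ.filter fun φ : IrrCharacter N => classInner θN (φ : N → ℂ) ≠ 0 with hC
    obtain ⟨φ₁, hφ₁⟩ : ∃ φ, φ ∈ C := by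
      obtain ⟨η, hη, hηne⟩ := CfsgLib.Coherence.exists_constituent (CfsgLib.Coherence.isCharacter_comp hθc N.subtype)
        (by show (θ : M → ℂ) ((1 : N) : M) ≠ 0
            rw [OneMemClass.coe_one, charDegree_one]
            exact Nat.cast_ne_zero.2 (CfsgLib.BrauerCharacters.charDegree_spec θ).2.1.ne')
      exact ⟨⟨η, hη⟩, Finset.mem_filter.2 ⟨Finset.mem_univ _, hηne⟩⟩
    have hCorb : ∀ φ ∈ C, C.image (fun ψ : IrrCharacter N => (ψ : N → ℂ)) =
        conjOrbit N (φ : N → ℂ) := by
      intro φ hφ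
      have hφ' := (Finset.mem_filter.1 hφ).2
      ext η
      rw [Finset.mem_image, mem_conjOrbit]
      constructor
      · rintro ⟨ψ, hψ, rfl⟩
        obtain ⟨g, hg⟩ := exists_conj_of_constituents N θ.2 φ.2 ψ.2 hφ' (Finset.mem_filter.1 hψ).2
        exact ⟨g, hg.symm⟩
      · rintro ⟨g, rfl⟩
        refine ⟨⟨_, isIrrCharacter_conjChar N φ.2 g⟩, Finset.mem_filter.2 ⟨Finset.mem_univ _, ?_⟩, rfl⟩
        show classInner θN (conjChar N (φ : N → ℂ) g) ≠ 0
        rw [hθN, classInner_conjChar N (IsIrrCharacter.isClassFunction θ.2)]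
        exact hφ'
    have hcardC : ∀ φ ∈ C, C.card = (conjOrbit N (φ : N → ℂ)).card := fun φ hφ => by
      rw [← hCorb φ hφ, Finset.card_image_of_injective _ fun _ _ e => Subtype.ext e]
    have hprod : ∀ φ ∈ C, ∃ e : ℕ, classInner θN (φ : N → ℂ) = e ∧
        charDegree (θ : M → ℂ) = e * C.card * charDegree (φ : N → ℂ) := by
      intro φ hφ
      obtain ⟨e, he⟩ := IsCharacter.exists_classInner_eq_nat (G := N)
        (CfsgLib.Coherence.isCharacter_comp hθc N.subtype) φ
      refine ⟨e, he, ?_⟩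
      have h1 := Clifford.apply_one_eq N θ.2 φ.2 (Finset.mem_filter.1 hφ).2
      erw [he] at h1
      rw [charDegree_one, charDegree_one, ← hcardC φ hφ] at h1
      exact_mod_cast h1
    have hdvd : C.card ∣ charDegree (θ : M → ℂ) := by
      obtain ⟨e, -, he⟩ := hprod φ₁ hφ₁
      exact ⟨e * charDegree (φ₁ : N → ℂ), by rw [he]; ring⟩
    -- a fixed constituent
    have hpow : ∀ (k : ℕ) (n : N), (β ^ (k + 1)) n = (β ^ k) (β n) := fun k n => by
      rw [pow_succ, MulAut.mul_apply]
    let tw : IrrCharacter N → IrrCharacter N := fun φ =>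
      ⟨fun n => (φ : N → ℂ) (β n), isIrrCharacter_comp_mulEquiv φ.2 β⟩
    have htwC : ∀ φ ∈ C, tw φ ∈ C := fun φ hφ => by
      refine Finset.mem_filter.2 ⟨Finset.mem_univ _, ?_⟩
      show classInner θN (fun n => (φ : N → ℂ) (β n)) ≠ 0
      rw [show θN = fun n => θN (β n) from funext fun n => (hinv (n : M)).symm,
        Clifford.classInner_comp_mulEquiv β θN (φ : N → ℂ)]
      exact (Finset.mem_filter.1 hφ).2
    have htwinj : Function.Injective (fun φ : C => (⟨tw φ, htwC φ φ.2⟩ : C)) := fun φ φ' e => by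
      refine Subtype.ext (Subtype.ext (funext fun n => ?_))
      have := congrFun (congrArg (fun ψ : C => ((ψ : IrrCharacter N) : N → ℂ)) e) (β.symm n)
      simpa [tw] using this
    let σ : Equiv.Perm C := Equiv.ofBijective _ (Finite.injective_iff_bijective.1 htwinj)
    have hσk : ∀ (k : ℕ) (φ : C) (n : N),
        (((σ ^ k) φ : IrrCharacter N) : N → ℂ) n = ((φ : IrrCharacter N) : N → ℂ) ((β ^ k) n) := by
      intro k
      induction k with
      | zero => intro φ n; simp
      | succ k ihk =>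
        intro φ n
        rw [pow_succ', Equiv.Perm.mul_apply]
        show (((σ ^ k) φ : IrrCharacter N) : N → ℂ) (β n) = _
        rw [ihk, hpow]
    obtain ⟨⟨φ, hφ⟩, hfix⟩ := exists_fixed σ (p := p) (i := i) (Equiv.ext fun φ => Subtype.ext
      (Subtype.ext (funext fun n => by
        rw [hσk, restrictAut_pow α N hN.inv hα]; rfl))) (by
      rw [Nat.card_eq_finsetCard]
      exact fun hd => hcop (hd.trans (hdvd.trans (CfsgLib.BrauerCharacters.charDegree_spec θ).2.2)))
    have hφinv : ∀ n : N, (φ : N → ℂ) (β n) = (φ : N → ℂ) n :=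
      congrFun (congrArg (fun ψ : C => ((ψ : IrrCharacter N) : N → ℂ)) hfix)
    obtain ⟨e, he, hdeg⟩ := hprod φ hφ
    have hφ0 := (Finset.mem_filter.1 hφ).2
    rcases hcase with ht | ⟨hf, hD⟩
    · -- trivial on the quotient
      have hall : ∀ ψ ∈ C, ∀ n : N, (ψ : N → ℂ) (β n) = (ψ : N → ℂ) n := by
        intro ψ hψ n
        obtain ⟨g, hg⟩ := exists_conj_of_constituents N θ.2 φ.2 ψ.2 hφ0 (Finset.mem_filter.1 hψ).2
        have h1 : (ψ : N → ℂ) (⟨g⁻¹ * α g, ht g⟩ * β n * (⟨g⁻¹ * α g, ht g⟩ : N)⁻¹) =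
            (ψ : N → ℂ) n := by
          rw [hg, conjChar_apply, conjChar_apply,
            show (⟨g * ((⟨g⁻¹ * α g, ht g⟩ * β n * (⟨g⁻¹ * α g, ht g⟩ : N)⁻¹ : N) : M) * g⁻¹,
              hN.normal.conj_mem _ (Subtype.prop _) g⟩ : N)
              = β ⟨g * n * g⁻¹, hN.normal.conj_mem (n : M) n.2 g⟩ from Subtype.ext (by
                simp [hβ, coe_restrictAut, mul_assoc]), hφinv]
        rwa [IsIrrCharacter.isClassFunction ψ.2] at h1
      by_cases hex : ∃ ψ ∈ C, ∃ n : N, (ψ : N → ℂ) (n⁻¹ * β n) ≠ (ψ : N → ℂ) 1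
      · obtain ⟨ψ, hψ, hne⟩ := hex
        obtain ⟨e', -, hdeg'⟩ := hprod ψ hψ
        exact (ih _ hlt N rfl hcopN β (restrictAut_pow α N hN.inv hα) ψ (hall ψ hψ) hne).mono
          (hdeg' ▸ dvd_mul_left _ _)
      · exfalso
        push Not at hex
        refine hm₀ ?_
        have hK : ∀ n : N, n⁻¹ * β n ∈ Kθ.subgroupOf N := by
          intro n
          rw [Subgroup.mem_subgroupOf, hKmem]
          have hres := res_eq N θ.2 φ.2 hφ0
          have e1 := congrFun hres (n⁻¹ * β n)
          have e2 := congrFun hres 1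
          simp only [Pi.smul_apply, Finset.sum_apply] at e1 e2
          rw [OneMemClass.coe_one] at e2
          rw [e1, e2]
          congr 1
          refine Finset.sum_congr rfl fun η hη => ?_
          rw [← hCorb φ hφ, Finset.mem_image] at hη
          obtain ⟨ψ, hψ, rfl⟩ := hη
          exact hex ψ hψ n
        have := disp_mem_of_trivial hα hcop N hN.inv (Kθ.subgroupOf N) hK m₀ (ht m₀)
        rw [Subgroup.mem_subgroupOf, hKmem] at this
        exact this
    -- no fixed points on the quotient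
    have hmod := hN.index_modEq hα hf
    obtain ⟨q, j, hq, hj, hqj⟩ := hN.index_primePow
    by_cases ht1 : C.card = 1
    swap
    · -- the inertia group is `N`
      let T : Subgroup M :=
        { carrier := {g | conjChar N (φ : N → ℂ) g = (φ : N → ℂ)}
          one_mem' := conjChar_one N _
          mul_mem' := fun {a b} ha hb => by
            show conjChar N (φ : N → ℂ) (a * b) = (φ : N → ℂ)
            rw [← conjChar_conjChar]
            exact (congrArg (fun f => conjChar N f b) ha).trans hb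
          inv_mem' := fun {a} ha => by
            show conjChar N (φ : N → ℂ) a⁻¹ = (φ : N → ℂ)
            conv_lhs => rw [← ha]
            rw [conjChar_conjChar, mul_inv_cancel, conjChar_one] }
      have hTmem : ∀ g, g ∈ T ↔ conjChar N (φ : N → ℂ) g = (φ : N → ℂ) := fun g => Iff.rfl
      have hNT : N ≤ T := fun g hg => funext fun n => by
        rw [conjChar_apply]
        exact IsIrrCharacter.isClassFunction φ.2 n ⟨g, hg⟩
      have hTi : Inv α T := fun g hg => funext fun n => by
        obtain ⟨n', rfl⟩ := β.surjective n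
        rw [conjChar_apply, hφinv]
        refine Eq.trans ?_ (congrFun ((hTmem g).1 hg) n')
        rw [conjChar_apply, ← hφinv ⟨g * n' * g⁻¹, _⟩]
        exact congrArg _ (Subtype.ext (by simp [hβ, coe_restrictAut]))
      have hidx := (card_conjOrbit N (φ : N → ℂ) T hTmem).symm
      rw [← hcardC φ hφ] at hidx
      rcases hN.max T (Subgroup.Normal.of_commutator_le M (hN.comm.trans hNT)) hTi hNT with e' | e'
      · rw [e'] at hidx
        exact ⟨N.index, hN.index_primePow, hidx ▸ hdvd, Or.inr hmod⟩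
      · exact absurd (hidx.symm.trans (by rw [e', Subgroup.index_top])) ht1
    -- the restriction is a multiple of `φ`
    rw [ht1, mul_one] at hdeg
    have hres : θN = (e : ℂ) • (φ : N → ℂ) := by
      rw [← he]
      refine res_eq_of_invariant N θ.2 φ.2 (fun g => ?_) hφ0
      have hone : conjOrbit N (φ : N → ℂ) = {(φ : N → ℂ)} := by
        refine (Finset.eq_of_subset_of_card_le (Finset.singleton_subset_iff.2
          ((mem_conjOrbit N).2 ⟨1, conjChar_one N _⟩)) ?_).symm
        rw [← hcardC φ hφ, ht1, Finset.card_singleton]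
      exact Finset.mem_singleton.1 (hone ▸ (mem_conjOrbit N).2 ⟨g, rfl⟩)
    have hnorm : ∑ n : N, θN n * conj (θN n) = (e : ℂ) ^ 2 * Nat.card N := by
      have h : classInner θN θN = (e : ℂ) ^ 2 := by
        rw [hres, classInner_smul_left, classInner_conj_symm, classInner_smul_left,
          classInner_self_of_isIrr φ.2, mul_one, Complex.conj_natCast, sq]
      rw [classInner, inv_mul_eq_iff_eq_mul₀ (Nat.cast_ne_zero.2 Nat.card_pos.ne')] at h
      rw [h, mul_comm]
    letI : CommGroup (M ⧸ N) :=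
      { mul_comm := fun x y => by
          obtain ⟨a, rfl⟩ := QuotientGroup.mk'_surjective N x
          obtain ⟨b, rfl⟩ := QuotientGroup.mk'_surjective N y
          exact hN.mk_comm a b }
    let Z : Subgroup M :=
      { carrier := {m | ∀ μ : M ⧸ N →* ℂˣ, (∀ x : M, (θ : M → ℂ) x * (μ x : ℂ) = (θ : M → ℂ) x) →
          μ m = 1}
        one_mem' := fun μ _ => map_one μ
        mul_mem' := fun {a b} ha hb μ hμ => by
          rw [QuotientGroup.mk_mul, map_mul, ha μ hμ, hb μ hμ, one_mul]
        inv_mem' := fun {a} ha μ hμ => by rw [QuotientGroup.mk_inv, map_inv, ha μ hμ, inv_one] }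
    have hNZ : N ≤ Z := fun m hm μ _ => by
      rw [(QuotientGroup.eq_one_iff m).2 hm, map_one]
    have hZi : Inv α Z := fun m hm μ hμ => by
      have hmap : N.map α.toMonoidHom = N := by
        refine Subgroup.eq_of_le_of_card_ge ?_ ?_
        · rintro _ ⟨x, hx, rfl⟩
          exact hN.inv x hx
        · exact (Nat.card_congr (Subgroup.equivMapOfInjective N α.toMonoidHom α.injective).toEquiv).le
      exact hm (μ.comp (QuotientGroup.congr N N α hmap).toMonoidHom) fun x => by
        rw [← hinv x]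
        exact hμ (α x)
    rcases hN.max Z (Subgroup.Normal.of_commutator_le M (hN.comm.trans hNZ)) hZi hNZ with hZ | hZ
    · -- `θ` vanishes off `N`
      have hvan : ∀ m, m ∉ N → (θ : M → ℂ) m = 0 := by
        intro m hm
        rw [← hZ] at hm
        have hm' : ¬ ∀ μ : M ⧸ N →* ℂˣ,
            (∀ x : M, (θ : M → ℂ) x * (μ x : ℂ) = (θ : M → ℂ) x) → μ m = 1 := hm
        push Not at hm'
        obtain ⟨μ, hμ, hne⟩ := hm'
        by_contra h0
        exact hne (Units.ext (mul_left_cancel₀ h0 ((hμ m).trans (mul_one _).symm)))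
      have hself := classInner_self_of_isIrr θ.2
      rw [classInner, inv_mul_eq_iff_eq_mul₀ (Nat.cast_ne_zero.2 Nat.card_pos.ne'), mul_one,
        ← Finset.sum_subset (Finset.subset_univ (Finset.univ.filter fun m : M => m ∈ N))
          (fun m _ hm => by
            rw [hvan m fun h => hm (Finset.mem_filter.2 ⟨Finset.mem_univ _, h⟩), zero_mul]),
        Finset.sum_subtype (p := fun m => m ∈ N) _ (fun m => by simp)
          (fun m => (θ : M → ℂ) m * conj ((θ : M → ℂ) m))] at hself
      have he2 : e ^ 2 = N.index := by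
        have h := hnorm.symm.trans hself
        rw [← N.card_mul_index, Nat.cast_mul, mul_comm] at h
        exact_mod_cast mul_left_cancel₀ (Nat.cast_ne_zero.2 (Nat.card_pos (α := N)).ne') h
      obtain ⟨k, -, hk⟩ := (Nat.dvd_prime_pow hq.nat_prime).1 (show e ∣ q ^ j by
        rw [hqj, ← he2]; exact dvd_pow_self e two_ne_zero)
      refine ⟨e, ⟨q, k, hq, Nat.pos_of_ne_zero fun h0 => ?_, hk.symm⟩, Dvd.intro _ hdeg.symm, ?_⟩
      · rw [h0, pow_zero] at hk
        rw [hk, one_pow, ← hqj] at he2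
        exact hj.ne' ((Nat.pow_eq_one.1 he2.symm).resolve_left hq.nat_prime.ne_one)
      · rw [← he2, show ((e ^ 2 : ℕ) : ℤ) - 1 = ((e : ℤ) + 1) * ((e : ℤ) - 1) by push_cast; ring] at hmod
        exact (Int.Prime.dvd_mul' hp.out hmod).imp id id
    -- the restriction is irreducible
    haveI : Fintype (M ⧸ N →* ℂˣ) := Fintype.ofFinite _
    have hdual : Fintype.card (M ⧸ N →* ℂˣ) = N.index := by
      rw [← Nat.card_eq_fintype_card, CommGroup.card_monoidHom_of_hasEnoughRootsOfUnity,
        Subgroup.index_eq_card]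
    have he1 : e = 1 := by
      have hsum : ∑ μ : M ⧸ N →* ℂˣ, ∑ m : M, (θ : M → ℂ) m * (μ m : ℂ) * conj ((θ : M → ℂ) m) =
          (Nat.card M : ℂ) := by
        rw [Finset.sum_eq_single (1 : M ⧸ N →* ℂˣ)]
        · have hself := classInner_self_of_isIrr θ.2
          rw [classInner, inv_mul_eq_iff_eq_mul₀ (Nat.cast_ne_zero.2 Nat.card_pos.ne'), mul_one] at hself
          rw [← hself]
          simp
        · intro μ _ hμ
          have hirr := isIrrCharacter_linFun_mul (μ.comp (QuotientGroup.mk' N)) θ.2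
          have hne : linFun (μ.comp (QuotientGroup.mk' N)) * (θ : M → ℂ) ≠ (θ : M → ℂ) := by
            intro heq
            refine hμ (MonoidHom.ext fun x => ?_)
            obtain ⟨m, rfl⟩ := QuotientGroup.mk'_surjective N x
            refine (hZ ▸ Subgroup.mem_top m : m ∈ Z) μ fun y => ?_
            rw [mul_comm]
            exact congrFun heq y
          have h0 := classInner_eq_zero_of_ne hirr θ.2 hne
          rw [classInner, inv_mul_eq_iff_eq_mul₀ (Nat.cast_ne_zero.2 Nat.card_pos.ne'), mul_zero] at h0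
          rw [← h0]
          refine Finset.sum_congr rfl fun m _ => ?_
          rw [Pi.mul_apply, linFun_apply, mul_comm ((θ : M → ℂ) m)]
          rfl
        · exact fun h => absurd (Finset.mem_univ _) h
      rw [Finset.sum_comm, ← Finset.sum_subset
        (Finset.subset_univ (Finset.univ.filter fun m : M => m ∈ N)) (fun m _ hm => by
          have hm' : (m : M ⧸ N) ≠ 1 := fun h => hm (Finset.mem_filter.2
            ⟨Finset.mem_univ _, (QuotientGroup.eq_one_iff m).1 h⟩)
          obtain ⟨μ₀, hμ₀⟩ := CommGroup.exists_apply_ne_one_of_hasEnoughRootsOfUnity (M ⧸ N) ℂ hm'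
          have hz : ∑ μ : M ⧸ N →* ℂˣ, (μ (m : M ⧸ N) : ℂ) = 0 := by
            have h := Fintype.sum_equiv (Equiv.mulLeft μ₀) (fun μ => ((μ₀ * μ) (m : M ⧸ N) : ℂ))
              (fun μ => (μ (m : M ⧸ N) : ℂ)) fun μ => rfl
            simp only [MonoidHom.mul_apply, Units.val_mul, ← Finset.mul_sum] at h
            exact ((mul_left_eq_self₀ (M₀ := ℂ)).1 h).resolve_left fun e1 => hμ₀ (Units.ext e1)
          simp only [← Finset.sum_mul, ← Finset.mul_sum]
          rw [hz, mul_zero, zero_mul]),
        Finset.sum_subtype (p := fun m => m ∈ N) _ (fun m => by simp)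
          (fun m => ∑ μ : M ⧸ N →* ℂˣ, (θ : M → ℂ) m * (μ m : ℂ) * conj ((θ : M → ℂ) m)),
        Finset.sum_congr rfl (g := fun n : N => (N.index : ℂ) * (θN n * conj (θN n))) (fun n _ => by
          rw [Finset.sum_congr rfl (g := fun _ => θN n * conj (θN n)) (fun μ _ => by
            rw [(QuotientGroup.eq_one_iff (n : M)).2 n.2, map_one, Units.val_one, mul_one]),
            Finset.sum_const, Finset.card_univ, hdual, nsmul_eq_mul]),
        ← Finset.mul_sum, hnorm, ← N.card_mul_index, Nat.cast_mul] at hsum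
      have h : ((e ^ 2 : ℕ) : ℂ) = ((1 : ℕ) : ℂ) := by
        refine mul_left_cancel₀ (a := (Nat.card N : ℂ) * (N.index : ℂ)) (mul_ne_zero
          (Nat.cast_ne_zero.2 Nat.card_pos.ne')
          (Nat.cast_ne_zero.2 Subgroup.index_ne_zero_of_finite)) ?_
        push_cast
        linear_combination hsum
      exact (Nat.pow_eq_one.1 (Nat.cast_injective h)).resolve_right two_ne_zero
    rw [he1, Nat.cast_one, one_smul] at hres
    rw [he1, one_mul] at hdeg
    by_cases hex : ∃ n : N, (φ : N → ℂ) (n⁻¹ * β n) ≠ (φ : N → ℂ) 1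
    · exact (ih _ hlt N rfl hcopN β (restrictAut_pow α N hN.inv hα) φ hφinv hex).mono (dvd_of_eq hdeg.symm)
    exfalso
    push Not at hex
    -- `N` is central modulo the kernel
    have hKN : ∀ n : N, QuotientGroup.mk' Kθ (α n) = QuotientGroup.mk' Kθ (n : M) := by
      intro n
      refine (inv_mul_eq_one.1 ?_).symm
      rw [← map_inv, ← map_mul]
      refine (QuotientGroup.eq_one_iff _).2 ((hKmem _).2 ?_)
      have h := hex n
      rw [← hres] at h
      exact h
    let U : Subgroup M := (Subgroup.centralizer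
      (((N.map (QuotientGroup.mk' Kθ) : Subgroup (M ⧸ Kθ))) : Set (M ⧸ Kθ))).comap (QuotientGroup.mk' Kθ)
    have hU : dispGroup α ≤ U := by
      refine (Subgroup.closure_le _).2 ?_
      rintro _ ⟨m, rfl⟩
      show QuotientGroup.mk' Kθ (m⁻¹ * α m) ∈ Subgroup.centralizer _
      refine Subgroup.mem_centralizer_iff.2 ?_
      rintro _ ⟨n, hn, rfl⟩
      have h1 := hKN ⟨m * n * m⁻¹, hN.normal.conj_mem n hn m⟩
      have h2 := hKN ⟨n, hn⟩
      simp only [map_mul, map_inv] at h1 h2 ⊢
      rw [h2] at h1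
      set a := QuotientGroup.mk' Kθ (α m)
      set b := QuotientGroup.mk' Kθ m
      set x := QuotientGroup.mk' Kθ n
      calc x * (b⁻¹ * a) = b⁻¹ * (b * x * b⁻¹) * a := by group
        _ = b⁻¹ * (a * x * a⁻¹) * a := by rw [h1]
        _ = b⁻¹ * a * x := by group
    rw [hD] at hU
    have hcomm : ∀ a ∈ N, ∀ b ∈ N, (θ : M → ℂ) ⁅a, b⁆ = (θ : M → ℂ) 1 := by
      intro a ha b hb
      refine (hKmem _).1 ((QuotientGroup.eq_one_iff _).1 ?_)
      show QuotientGroup.mk' Kθ ⁅a, b⁆ = 1
      rw [map_commutatorElement, commutatorElement_eq_one_iff_mul_comm]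
      exact (Subgroup.mem_centralizer_iff.1 (hU (Subgroup.mem_top a)) _ ⟨b, hb, rfl⟩).symm
    have hlin := constituent_degree_one hθc φ.2 hφ0 hcomm
    rw [charDegree_one, ← Nat.cast_one, Nat.cast_inj] at hlin
    have hθ1 : (θ : M → ℂ) 1 = 1 := by rw [charDegree_one, hdeg, hlin, Nat.cast_one]
    obtain ⟨μ, hμ⟩ := exists_hom_of_degree_one θ.2 hθ1
    apply hm₀
    rw [hθ1, hμ]
    show (μ (m₀⁻¹ * α m₀) : ℂ) = 1
    have h := hinv m₀
    rw [hμ] at h
    simp only at h
    rw [map_mul, map_inv, Units.val_mul, h, Units.inv_mul]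

end CfsgLib.CharDegreesTheory.CoprimeWinter
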