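import Cfsg.Agent.Lib.CharDegreesTheory.CoveringFaithful
import Cfsg.Agent.Lib.BlockLocal.BlockCover
import Mathlib.LinearAlgebra.Matrix.ToLin
import Mathlib.LinearAlgebra.Matrix.NonsingularInverse

/-!
# Every character of a covered block lies under the covering block
-/

set_option autoImplicit false
set_option linter.style.haveILetI false
set_option linter.unusedSectionVars false

noncomputable section

namespace CfsgLib.CharDegreesTheory

open MonoidAlgebra Cfsg CfsgLib.BrauerPairs

theorem coeff_mul_mapG {k : Type*} [Field k] {G : Type*} [Group G] (N : Subgroup G) [Fintype N]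
    (z : MonoidAlgebra k G) (y : MonoidAlgebra k N) (g : G) :
    (z * mapG N.subtype y).coeff g = ∑ n : N, z.coeff (g * (n : G)⁻¹) * y.coeff n := by
  classical
  induction y using MonoidAlgebra.induction_linear with
  | zero => simp
  | add a b ha hb =>
    simp only [map_add, mul_add, coeff_add, Finsupp.add_apply, ha, hb, Finset.sum_add_distrib]
  | single m r =>
    rw [Finset.sum_eq_single m]
    · simp [mapG, coeff_mul_single_apply]
    · intro n _ hn
      simp [Ne.symm hn]
    · simp

variable {G : Type*} [Group G] [Fintype G] {M : Ideal AlgInt} [hMp : M.IsPrime]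

/-- A block covering `b` lies over every member of `b`. -/
theorem exists_over_of_covers (N : Subgroup G) [hN : N.Normal] [Fintype N]
    {B : Set (IrrCharacter G)} (hB : IsPBlock M B) {b : Set (IrrCharacter N)} (hb : IsPBlock M b)
    (hcov : ∃ χ ∈ B, ∃ θ ∈ b, classInner (fun n : N => (χ : G → ℂ) n) (θ : N → ℂ) ≠ 0)
    {θ : IrrCharacter N} (hθ : θ ∈ b) :
    ∃ χ ∈ B, classInner (fun n : N => (χ : G → ℂ) n) (θ : N → ℂ) ≠ 0 := by
  classical
  have := Fintype.ofFinite (IrrCharacter N)
  by_contra hcon
  push Not at hcon
  set y := Blocks.blockIdem ({θ} : Set (IrrCharacter N)) with hy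
  -- the identities in characteristic zero
  set S := BlockLocal.orbitSet (G := G) N ({θ} : Set (IrrCharacter N)) with hSdef
  have hS : ∀ g : G, ∀ η ∈ S, BlockLocal.conjIrr N g η ∈ S := fun g η =>
    BlockLocal.conjIrr_mem_orbitSet N g
  set z := mapG N.subtype (Blocks.blockIdem (S : Set (IrrCharacter N))) with hz
  have hzext : z = Blocks.ofFun (extendByZero N (BlockLocal.coeffSet S)) := by
    ext g
    rw [Blocks.coeff_ofFun]
    by_cases hg : g ∈ N
    · obtain ⟨n, rfl⟩ : ∃ n : N, N.subtype n = g := ⟨⟨g, hg⟩, rfl⟩
      rw [hz, coeff_mapG_apply N.subtype_injective, Blocks.coeff_blockIdem,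
        BlockLocal.blockCoeff_eq_coeffSet]
      exact (Frobenius.extendByZero_coe _ _ n).symm
    · rw [hz, coeff_mapG_of_not_mem _ (by rwa [Subgroup.range_subtype]),
        Frobenius.extendByZero_of_not_mem _ _ hg]
  have hzc : Blocks.IsClassElem z := by
    rw [hzext]
    exact Blocks.isClassElem_ofFun fun c x =>
      BlockLocal.isClassFunction_extend_coeffSet N S hS x c
  have hEz : Blocks.blockIdem B * z = 0 := by
    refine Blocks.eq_of_omega_eq ((Blocks.isClassElem_blockIdem B).mul hzc)
      Blocks.isClassElem_zero fun χ => ?_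
    rw [Blocks.omega_mul χ.2 (Blocks.isClassElem_blockIdem B), Blocks.omega_zero]
    by_cases hχ : χ ∈ B
    · obtain ⟨η, hη⟩ := BlockLocal.exists_constituent N χ
      have hηS : η ∉ S := fun h => by
        obtain ⟨g, η', hη', rfl⟩ := (BlockLocal.mem_orbitSet N).1 h
        rw [BlockLocal.classInner_res_conjIrr, Set.mem_singleton_iff.1 hη'] at hη
        exact hη (hcon χ hχ)
      have h1 := BlockLocal.sum_extend_coeffSet_div (G := G) N S hS hη
      rw [if_neg hηS] at h1
      have h2 : Blocks.omega (χ : G → ℂ) z = 0 := by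
        rw [Blocks.omega_eq_sum, hzext]
        refine Eq.trans ?_ h1
        congr 1
      rw [h2, mul_zero]
    · rw [Blocks.omega_blockIdem_of_notMem hχ, zero_mul]
  have hSy : Blocks.blockIdem (S : Set (IrrCharacter N)) * y = y := by
    refine Blocks.eq_of_omega_eq
      ((Blocks.isClassElem_blockIdem _).mul (Blocks.isClassElem_blockIdem _))
      (Blocks.isClassElem_blockIdem _) fun η => ?_
    rw [Blocks.omega_mul η.2 (Blocks.isClassElem_blockIdem _)]
    by_cases h : η ∈ ({θ} : Set (IrrCharacter N))
    · rw [Blocks.omega_blockIdem_of_mem h, Blocks.omega_blockIdem_of_mem (Finset.mem_coe.2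
        (BlockLocal.mem_orbitSet_self N h)), one_mul]
    · rw [Blocks.omega_blockIdem_of_notMem h, mul_zero]
  have hEy : Blocks.blockIdem B * mapG N.subtype y = 0 := by
    rw [← hSy, map_mul, ← mul_assoc, ← hz, hEz, zero_mul]
  have hby : Blocks.blockIdem b * y = y := by
    refine Blocks.eq_of_omega_eq
      ((Blocks.isClassElem_blockIdem _).mul (Blocks.isClassElem_blockIdem _))
      (Blocks.isClassElem_blockIdem _) fun η => ?_
    rw [Blocks.omega_mul η.2 (Blocks.isClassElem_blockIdem _)]
    by_cases h : η ∈ ({θ} : Set (IrrCharacter N))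
    · rw [Blocks.omega_blockIdem_of_mem h, Blocks.omega_blockIdem_of_mem
        (Set.mem_singleton_iff.1 h ▸ hθ), one_mul]
    · rw [Blocks.omega_blockIdem_of_notMem h, mul_zero]
  -- the reduced map is injective
  let A : Matrix (G ⊕ N) N (Blocks.locRing M) := Matrix.of fun i n => match i with
    | Sum.inl g => ⟨blockCoeff B (g * (n : G)⁻¹), Blocks.memLocalRing_blockCoeff hB _⟩
    | Sum.inr m => (if m = n then 1 else 0) -
        ⟨blockCoeff b (m * n⁻¹), Blocks.memLocalRing_blockCoeff hb _⟩
  set e := redElem M (blockCoeff B) with he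
  set eb := redElem M (blockCoeff b) with heb
  have hcov' : e * mapG N.subtype eb ≠ 0 := by
    rw [← redElem_subgroupBlockCoeff]
    exact (covers_iff N hB hb).1 hcov
  have hinj : LinearMap.ker ((A.map (Blocks.red M)).mulVecLin) = ⊥ := by
    rw [LinearMap.ker_eq_bot']
    intro v hv
    have hB' := isBlockIdem_redElem_blockCoeff (M := M) hB
    have h := eq_zero_of_covering N hB'.mem hB'.mul_self (isBlockIdem_redElem_blockCoeff hb)
      hcov' (x := Blocks.ofFun v) ?_ ?_
    · funext n
      exact congrArg (fun w => w.coeff n) h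
    · ext g
      have h1 := congrFun hv (Sum.inl g)
      rw [coeff_mul_mapG]
      simpa [Matrix.mulVec, dotProduct, A, redC_of_mem (Blocks.memLocalRing_blockCoeff hB _)]
        using h1
    · ext m
      have h1 := congrFun hv (Sum.inr m)
      simp only [Matrix.mulVecLin_apply, Matrix.mulVec, dotProduct, A, Matrix.map_apply,
        Matrix.of_apply, map_sub, sub_mul, Finset.sum_sub_distrib, Pi.zero_apply,
        sub_eq_zero] at h1
      rw [Blocks.coeff_mul_eq_sum]
      rw [Finset.sum_eq_single m (fun n _ hn => by simp [Ne.symm hn]) (by simp)] at h1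
      simp only [if_true, map_one, one_mul] at h1
      rw [Blocks.coeff_ofFun, h1]
      refine Fintype.sum_equiv ((Equiv.inv N).trans (Equiv.mulLeft m)).symm _ _ fun n => ?_
      simp [redC_of_mem (Blocks.memLocalRing_blockCoeff hb _)]
  obtain ⟨L, hL⟩ := ((A.map (Blocks.red M)).mulVecLin).exists_leftInverse_of_injective hinj
  have hL' : LinearMap.toMatrix' L * A.map (Blocks.red M) = 1 := by
    rw [← LinearMap.toMatrix'_id (R := Blocks.Res M) (n := N), ← hL, LinearMap.toMatrix'_comp,
      ← Matrix.toLin'_apply', LinearMap.toMatrix'_toLin']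
  choose L₁ hL₁ using fun (n : N) (i : G ⊕ N) =>
    IsLocalRing.residue_surjective (R := Blocks.locRing M) (LinearMap.toMatrix' L n i)
  let A₁ : Matrix N N (Blocks.locRing M) := Matrix.of L₁ * A
  have hdet : A₁.det ≠ 0 := by
    intro h0
    have h1 : A₁.map (Blocks.red M) = 1 := by
      rw [Matrix.map_mul, ← hL']
      congr 1
      ext n i
      exact hL₁ n i
    have h2 := (Blocks.red M).map_det A₁
    rw [h0, map_zero, RingHom.mapMatrix_apply, h1, Matrix.det_one] at h2
    exact zero_ne_one h2
  have hzero : (A₁.map (Blocks.locRing M).subtype).mulVec (fun n => y.coeff n) = 0 := by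
    rw [Matrix.map_mul, ← Matrix.mulVec_mulVec]
    have hA : (A.map (Blocks.locRing M).subtype).mulVec (fun n => y.coeff n) = 0 := by
      funext i
      cases i with
      | inl g =>
        have h1 := congrArg (fun w => w.coeff g) hEy
        simp only [coeff_mul_mapG, Blocks.coeff_blockIdem] at h1
        simpa [Matrix.mulVec, dotProduct, A] using h1
      | inr m =>
        have h1 := congrArg (fun w => w.coeff m) hby
        simp only [Blocks.coeff_mul_eq_sum, Blocks.coeff_blockIdem] at h1
        simp only [Matrix.mulVec, dotProduct, A, Matrix.map_apply, Matrix.of_apply, map_sub,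
          sub_mul, Finset.sum_sub_distrib, Pi.zero_apply]
        rw [Finset.sum_eq_single m (fun n _ hn => by simp [Ne.symm hn]) (by simp), sub_eq_zero]
        simp only [if_true, map_one, one_mul]
        refine h1.symm.trans ?_
        refine Fintype.sum_equiv ((Equiv.inv N).trans (Equiv.mulRight m)) _ _ fun n => ?_
        simp
    rw [hA, Matrix.mulVec_zero]
  have hdetC : (A₁.map (Blocks.locRing M).subtype).det ≠ 0 := by
    rw [← RingHom.mapMatrix_apply, ← RingHom.map_det]
    exact fun h => hdet (Subtype.ext h)
  have hy0 : y = 0 := by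
    ext n
    exact congrFun (Matrix.eq_zero_of_mulVec_eq_zero hdetC hzero) n
  have hom := Blocks.omega_blockIdem_of_mem (G := N) (B := ({θ} : Set (IrrCharacter N)))
    (Set.mem_singleton θ)
  rw [← hy, hy0, Blocks.omega_zero] at hom
  exact zero_ne_one hom

end CfsgLib.CharDegreesTheory
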