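import Cfsg.Agent.Lib.BrauerPairs.CoverBridge
import Mathlib.RingTheory.Artinian.Ring
import Mathlib.RingTheory.Jacobson.Semiprimary
import Mathlib.RingTheory.Idempotents
import Mathlib.RingTheory.TwoSidedIdeal.Basic

/-!
# A block idempotent of a group acts faithfully on each covered block of a normal subgroup

Over any field: if `e` is a central idempotent of the group algebra of `G` and `eb` is a block
idempotent of the normal subgroup `N` with `e * eb ≠ 0`, then left multiplication by `e` is
injective on the block algebra of `eb`.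
-/

set_option autoImplicit false
set_option linter.style.haveILetI false

noncomputable section

namespace CfsgLib.CharDegreesTheory

open MonoidAlgebra CfsgLib.BrauerPairs

section Semisimple

variable {Q : Type*} [Ring Q] [IsSemisimpleRing Q]

/-- A two-sided ideal of a semisimple ring is generated by a central idempotent. -/
theorem exists_central_generator (T : Set Q) (h0 : (0 : Q) ∈ T)
    (hadd : ∀ x ∈ T, ∀ y ∈ T, x + y ∈ T) (hl : ∀ q, ∀ x ∈ T, q * x ∈ T)
    (hr : ∀ q, ∀ x ∈ T, x * q ∈ T) :
    ∃ u ∈ T, u * u = u ∧ (∀ q, u * q = q * u) ∧ ∀ z ∈ T, z * u = z := by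
  let T' : Submodule Q Q :=
    { carrier := T
      zero_mem' := h0
      add_mem' := fun {x y} hx hy => hadd x hx y hy
      smul_mem' := fun q x hx => hl q x hx }
  obtain ⟨L, hL⟩ := exists_isCompl T'
  obtain ⟨u, hu, w, hw, huw⟩ :=
    Submodule.mem_sup.1 (hL.sup_eq_top ▸ Submodule.mem_top : (1 : Q) ∈ T' ⊔ L)
  have hzu : ∀ z ∈ T, z * u = z := by
    intro z hz
    have h1 : z * w ∈ T' ⊓ L := ⟨hr w z hz, L.smul_mem z hw⟩
    rw [hL.inf_eq_bot, Submodule.mem_bot] at h1
    calc z * u = z * u + z * w := by rw [h1, add_zero]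
      _ = z := by rw [← mul_add, huw, mul_one]
  have huz : ∀ z ∈ T, u * z = z := by
    intro z hz
    set n := z - u * z with hn
    have hnT : n ∈ T := by
      rw [hn, sub_eq_add_neg, ← neg_one_mul (u * z)]
      exact hadd z hz _ (hl _ _ (hl u z hz))
    have hnil : ∀ q, n * q * n = 0 := by
      intro q
      have h1 : n * q * u = n * q := hzu _ (hr q n hnT)
      rw [hn]
      rw [hn] at h1
      calc (z - u * z) * q * (z - u * z)
          = (z - u * z) * q * z - (z - u * z) * q * u * z := by rw [mul_sub, ← mul_assoc (_ * q) u z]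
        _ = 0 := by rw [h1, sub_self]
    obtain ⟨L', hL'⟩ := exists_isCompl (Submodule.span Q ({n} : Set Q))
    obtain ⟨f, hf, g, hg, hfg⟩ := Submodule.mem_sup.1
      (hL'.sup_eq_top ▸ Submodule.mem_top : (1 : Q) ∈ Submodule.span Q ({n} : Set Q) ⊔ L')
    obtain ⟨c, rfl⟩ := Submodule.mem_span_singleton.1 hf
    have hng : n * g = 0 := by
      have h1 : n * g ∈ Submodule.span Q ({n} : Set Q) ⊓ L' := by
        refine ⟨?_, L'.smul_mem n hg⟩
        rw [show g = 1 - c • n from eq_sub_of_add_eq' hfg, mul_sub, mul_one, smul_eq_mul,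
          ← mul_assoc, hnil, sub_zero]
        exact Submodule.mem_span_singleton_self n
      rwa [hL'.inf_eq_bot, Submodule.mem_bot] at h1
    have : n = 0 := by
      calc n = n * (c • n + g) := by rw [hfg, mul_one]
        _ = 0 := by rw [mul_add, hng, add_zero, smul_eq_mul, ← mul_assoc, hnil]
    rw [hn, sub_eq_zero] at this
    exact this.symm
  refine ⟨u, hu, hzu u hu, fun q => ?_, hzu⟩
  calc u * q = u * q * u := (hzu _ (hr q u hu)).symm
    _ = q * u := by rw [mul_assoc]; exact huz _ (hl q u hu)

end Semisimple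

variable {k : Type*} [Field k] {G : Type*} [Group G] [Finite G]
variable (N : Subgroup G) [hN : N.Normal]

/-- The component on the trivial coset. -/
def resN : MonoidAlgebra k G →ₗ[k] MonoidAlgebra k N where
  toFun z := Blocks.ofFun fun n => z.coeff n
  map_add' z z' := by ext n; simp
  map_smul' c z := by ext n; simp

omit hN in
@[simp] theorem coeff_resN (z : MonoidAlgebra k G) (n : N) : (resN N z).coeff n = z.coeff n := rfl

omit hN in
theorem resN_mul_mapG (z : MonoidAlgebra k G) (y : MonoidAlgebra k N) :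
    resN N (z * mapG N.subtype y) = resN N z * y := by
  induction y using MonoidAlgebra.induction_linear with
  | zero => simp
  | add a b ha hb => simp only [map_add, mul_add, ha, hb]
  | single n r =>
    ext m
    rw [coeff_resN, coeff_mul_single_apply]
    simp [mapG, coeff_mul_single_apply]

omit hN in
theorem resN_mapG_mul (z : MonoidAlgebra k G) (y : MonoidAlgebra k N) :
    resN N (mapG N.subtype y * z) = y * resN N z := by
  induction y using MonoidAlgebra.induction_linear with
  | zero => simp
  | add a b ha hb => simp only [map_add, add_mul, ha, hb]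
  | single n r =>
    ext m
    rw [coeff_resN, coeff_single_mul_apply]
    simp [mapG, coeff_single_mul_apply]

omit hN in
theorem eq_sum_coset_resN [Fintype (G ⧸ N)] (z : MonoidAlgebra k G) :
    z = ∑ q : G ⧸ N,
      single q.out (1 : k) * mapG N.subtype (resN N (single q.out⁻¹ (1 : k) * z)) := by
  classical
  ext g
  rw [Blocks.coeff_finsetSum_apply, Finset.sum_eq_single (QuotientGroup.mk g : G ⧸ N)]
  · have hmem : (QuotientGroup.mk g : G ⧸ N).out⁻¹ * g ∈ N :=
      QuotientGroup.eq.1 (QuotientGroup.out_eq' _)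
    rw [coeff_single_mul_apply, one_mul,
      show (QuotientGroup.mk g : G ⧸ N).out⁻¹ * g =
        N.subtype ⟨_, hmem⟩ from rfl, coeff_mapG_apply N.subtype_injective, coeff_resN]
    simp [coeff_single_mul_apply]
  · intro q _ hq
    rw [coeff_single_mul_apply, one_mul, coeff_mapG_of_not_mem]
    rw [Subgroup.range_subtype]
    intro h
    apply hq
    rw [← QuotientGroup.out_eq' q, QuotientGroup.eq]
    exact h
  · simp

/-- Conjugation by `g` on the group algebra of the normal subgroup. -/
def conjN (g : G) : MonoidAlgebra k N ≃ₐ[k] MonoidAlgebra k N :=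
  MonoidAlgebra.domCongr k k (MulAut.conjNormal g)

omit [Finite G] in
theorem mapG_conjN (g : G) (x : MonoidAlgebra k N) :
    mapG N.subtype (conjN N g x) = conjA g (mapG N.subtype x) := by
  induction x using MonoidAlgebra.induction_linear with
  | zero => simp
  | add a b ha hb => simp only [map_add, ha, hb]
  | single n r => simp [conjN, mapG]

omit [Finite G] in
theorem single_mul_mapG_conj (g : G) (x : MonoidAlgebra k N) :
    mapG N.subtype x * single g (1 : k) =
      single g (1 : k) * mapG N.subtype (conjN N g⁻¹ x) := by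
  induction x using MonoidAlgebra.induction_linear with
  | zero => simp
  | add a b ha hb => simp only [map_add, add_mul, mul_add, ha, hb]
  | single n r =>
    simp [conjN, mapG, single_mul_single, mul_assoc]

/-- Faithfulness of a covering central idempotent on a block of a normal subgroup. -/
theorem eq_zero_of_covering {e : MonoidAlgebra k G} (he : e ∈ ctr k (⊤ : Subgroup G))
    (hee : e * e = e) {eb : MonoidAlgebra k N} (heb : IsBlockIdem (⊤ : Subgroup N) eb)
    (hcov : e * mapG N.subtype eb ≠ 0) {x : MonoidAlgebra k N}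
    (hx : e * mapG N.subtype x = 0) (hxb : eb * x = x) : x = 0 := by
  classical
  have := Fintype.ofFinite (G ⧸ N)
  set ι : MonoidAlgebra k N →ₐ[k] MonoidAlgebra k G := mapG N.subtype with hι
  have hec : ∀ w : MonoidAlgebra k G, e * w = w * e := fun w =>
    (commute_of_fixedBy_of_supp (H := (⊤ : Subgroup G)) (mem_ctr.1 he).2
      fun g hg => absurd (Subgroup.mem_top g) hg).eq
  have hebc : ∀ w : MonoidAlgebra k N, eb * w = w * eb := fun w =>
    (commute_of_fixedBy_of_supp (H := (⊤ : Subgroup N)) (mem_ctr.1 heb.mem).2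
      fun g hg => absurd (Subgroup.mem_top g) hg).eq
  -- the annihilator `I` of `e`
  let I : Set (MonoidAlgebra k N) := {y | e * ι y = 0}
  have hIl : ∀ q, ∀ y ∈ I, q * y ∈ I := by
    intro q y hy
    show e * ι (q * y) = 0
    rw [map_mul, ← mul_assoc, hec, mul_assoc, show e * ι y = 0 from hy, mul_zero]
  have hIr : ∀ q, ∀ y ∈ I, y * q ∈ I := by
    intro q y hy
    show e * ι (y * q) = 0
    rw [map_mul, ← mul_assoc, show e * ι y = 0 from hy, zero_mul]
  have hIc : ∀ g, ∀ y ∈ I, conjN N g y ∈ I := by
    intro g y hy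
    show e * ι (conjN N g y) = 0
    rw [hι, mapG_conjN, ← (mem_ctr.1 he).2 g (Subgroup.mem_top g), ← map_mul,
      show e * mapG N.subtype y = 0 from hy, map_zero]
  -- the coset components of `e`
  let c : G → MonoidAlgebra k N := fun g => resN N (single g⁻¹ (1 : k) * e)
  have hcr : ∀ g, ∀ y ∈ I, c g * y = 0 := by
    intro g y hy
    rw [← resN_mul_mapG, mul_assoc, show e * mapG N.subtype y = 0 from hy, mul_zero, map_zero]
  have hcl : ∀ g, ∀ y ∈ I, y * c g = 0 := by
    intro g y hy
    rw [← resN_mapG_mul, ← mul_assoc, single_mul_mapG_conj, mul_assoc, ← hec,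
      show e * mapG N.subtype (conjN N g⁻¹⁻¹ y) = 0 from hIc _ y hy, mul_zero, map_zero]
  -- the annihilator `J` of `I`
  let J : Set (MonoidAlgebra k N) := {z | ∀ y ∈ I, z * y = 0 ∧ y * z = 0}
  have hJ0 : (0 : MonoidAlgebra k N) ∈ J := fun y _ => ⟨zero_mul _, mul_zero _⟩
  have hJadd : ∀ a ∈ J, ∀ b ∈ J, a + b ∈ J := fun a ha b hb y hy =>
    ⟨by rw [add_mul, (ha y hy).1, (hb y hy).1, add_zero],
      by rw [mul_add, (ha y hy).2, (hb y hy).2, add_zero]⟩
  have hJl : ∀ q, ∀ z ∈ J, q * z ∈ J := fun q z hz y hy =>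
    ⟨by rw [mul_assoc, (hz y hy).1, mul_zero],
      by rw [← mul_assoc]; exact (hz _ (hIr q y hy)).2⟩
  have hJr : ∀ q, ∀ z ∈ J, z * q ∈ J := fun q z hz y hy =>
    ⟨by rw [mul_assoc]; exact (hz _ (hIl q y hy)).1,
      by rw [← mul_assoc, (hz y hy).2, zero_mul]⟩
  have hcJ : ∀ g, c g ∈ J := fun g y hy => ⟨hcr g y hy, hcl g y hy⟩
  -- the radical
  have hart : IsArtinianRing (MonoidAlgebra k N) := IsArtinianRing.of_finite k _
  set R := Ring.jacobson (MonoidAlgebra k N) with hR
  obtain ⟨m, hm⟩ : IsNilpotent R := IsSemiprimaryRing.isNilpotent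
  set R' : Submodule k (MonoidAlgebra k N) := R.restrictScalars k with hR'
  have hpow : ∀ i, R' ^ (i + 1) ≤ (R ^ (i + 1)).restrictScalars k := by
    intro i
    induction i with
    | zero => rw [zero_add, pow_one, Submodule.pow_one R]
    | succ i ih =>
      rw [pow_succ, Submodule.pow_succ R (n := i + 1)]
      exact Submodule.mul_le.2 fun a ha b hb => Ideal.mul_mem_mul (ih ha) hb
  have hR'nil : R' ^ (m + 1) = ⊥ := by
    refine le_bot_iff.1 ((hpow m).trans ?_)
    rw [Submodule.pow_succ R, hm]
    simp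
  set R'' : Submodule k (MonoidAlgebra k G) := R'.map ι.toLinearMap with hR''
  have hconjR : ∀ g, ∀ r ∈ R, conjN N g r ∈ R := by
    intro g r hr
    have h1 := Ideal.map_jacobson_of_bijective (I := (⊥ : Ideal (MonoidAlgebra k N)))
      (f := (conjN N g : MonoidAlgebra k N ≃ₐ[k] MonoidAlgebra k N).toRingEquiv.toRingHom)
      (conjN N g).bijective
    rw [Ideal.map_bot, Ideal.jacobson_bot] at h1
    rw [hR, ← h1]
    exact Ideal.mem_map_of_mem _ hr
  have hcomm : R'' * ⊤ ≤ ⊤ * R'' := by
    rw [Submodule.mul_le]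
    rintro _ ⟨r, hr, rfl⟩ w -
    induction w using MonoidAlgebra.induction_linear with
    | zero => rw [mul_zero]; exact Submodule.zero_mem _
    | add a b ha hb => rw [mul_add]; exact Submodule.add_mem _ ha hb
    | single g s =>
      rw [show single g s = s • single g (1 : k) by rw [smul_single', mul_one], mul_smul_comm]
      refine Submodule.smul_mem _ _ ?_
      show ι r * single g (1 : k) ∈ _
      rw [hι, single_mul_mapG_conj]
      exact Submodule.mul_mem_mul Submodule.mem_top ⟨_, hconjR _ r hr, rfl⟩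
  have hcommpow : ∀ i, R'' ^ i * ⊤ ≤ ⊤ * R'' ^ i := by
    intro i
    induction i with
    | zero => simp
    | succ i ih =>
      calc R'' ^ (i + 1) * ⊤ = R'' ^ i * (R'' * ⊤) := by rw [pow_succ, mul_assoc]
        _ ≤ R'' ^ i * (⊤ * R'') := mul_le_mul' le_rfl hcomm
        _ = (R'' ^ i * ⊤) * R'' := by rw [mul_assoc]
        _ ≤ (⊤ * R'' ^ i) * R'' := mul_le_mul' ih le_rfl
        _ = ⊤ * R'' ^ (i + 1) := by rw [pow_succ, mul_assoc]
  have hWpow : ∀ i, ((⊤ : Submodule k (MonoidAlgebra k G)) * R'') ^ (i + 1) ≤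
      ⊤ * R'' ^ (i + 1) := by
    intro i
    induction i with
    | zero => simp
    | succ i ih =>
      calc (⊤ * R'') ^ (i + 1 + 1) = (⊤ * R'') ^ (i + 1) * (⊤ * R'') := pow_succ _ _
        _ ≤ ⊤ * R'' ^ (i + 1) * (⊤ * R'') := mul_le_mul' ih le_rfl
        _ = ⊤ * (R'' ^ (i + 1) * ⊤) * R'' := by simp only [mul_assoc]
        _ ≤ ⊤ * (⊤ * R'' ^ (i + 1)) * R'' :=
          mul_le_mul' (mul_le_mul' le_rfl (hcommpow _)) le_rfl
        _ ≤ ⊤ * R'' ^ (i + 1) * R'' :=
          mul_le_mul' (by
            rw [← mul_assoc]; exact mul_le_mul' le_top le_rfl) le_rfl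
        _ = ⊤ * R'' ^ (i + 1 + 1) := by rw [pow_succ R'' (i + 1), mul_assoc]
  have hR''nil : R'' ^ (m + 1) = ⊥ := by
    rw [hR'', ← Submodule.map_pow, hR'nil, Submodule.map_bot]
  -- the semisimple quotient
  set mk := Ideal.Quotient.mk R with hmk
  have hmks : Function.Surjective mk := Ideal.Quotient.mk_surjective
  obtain ⟨u, ⟨j, hj, hju⟩, huu, huc, hTu⟩ := exists_central_generator (mk '' J)
    ⟨0, hJ0, map_zero _⟩
    (by rintro _ ⟨a, ha, rfl⟩ _ ⟨b, hb, rfl⟩; exact ⟨a + b, hJadd a ha b hb, map_add _ _ _⟩)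
    (fun q => by
      obtain ⟨q, rfl⟩ := hmks q
      rintro _ ⟨a, ha, rfl⟩
      exact ⟨q * a, hJl q a ha, map_mul _ _ _⟩)
    (fun q => by
      obtain ⟨q, rfl⟩ := hmks q
      rintro _ ⟨a, ha, rfl⟩
      exact ⟨a * q, hJr q a ha, map_mul _ _ _⟩)
  have hnilR : ∀ r ∈ R, IsNilpotent r := fun r hr => ⟨m + 1, by
    have := Submodule.pow_mem_pow R' (show r ∈ R' from hr) (m + 1)
    rwa [hR'nil, Submodule.mem_bot] at this⟩
  have hker : ∀ r ∈ RingHom.ker mk, IsNilpotent r := fun r hr =>
    hnilR r (Ideal.Quotient.eq_zero_iff_mem.1 hr)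
  obtain ⟨a, haa, hau⟩ := exists_isIdempotentElem_eq_of_ker_isNilpotent mk hker (1 - u)
    (hmks _) (IsIdempotentElem.one_sub huu)
  -- `a` is killed by `e`
  have haI : a ∈ I := by
    have hJa : ∀ z ∈ J, z * a ∈ R := fun z hz => by
      rw [← Ideal.Quotient.eq_zero_iff_mem, ← hmk, map_mul, hau, mul_sub, mul_one,
        hTu _ ⟨z, hz, rfl⟩, sub_self]
    set w := e * ι a with hw
    have hwW : w ∈ (⊤ : Submodule k (MonoidAlgebra k G)) * R'' := by
      rw [hw, eq_sum_coset_resN N e, Finset.sum_mul]
      refine Submodule.sum_mem _ fun q _ => ?_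
      rw [mul_assoc, hι, ← map_mul]
      exact Submodule.mul_mem_mul Submodule.mem_top ⟨_, hJa _ (hcJ q.out), rfl⟩
    have hww : w * w = w := by
      rw [hw, mul_assoc, ← mul_assoc (ι a) e, ← hec, mul_assoc e (ι a) (ι a), ← mul_assoc e e,
        hee, ← map_mul, haa.eq]
    have hwp : ∀ i, w ^ (i + 1) = w := fun i => by
      induction i with
      | zero => rw [zero_add, pow_one]
      | succ i ih => rw [pow_succ, ih, hww]
    have := hWpow m (Submodule.pow_mem_pow _ hwW (m + 1))
    rw [hR''nil, Submodule.mul_bot, Submodule.mem_bot, hwp] at this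
    exact this
  -- `a` is central
  have hu1 : mk (1 - a) = mk j := by rw [map_sub, map_one, hau, hju, sub_sub_cancel]
  set r := 1 - a - j with hr
  have hrR : r ∈ R := by
    rw [← Ideal.Quotient.eq_zero_iff_mem, ← hmk, hr, map_sub, hu1, sub_self]
  obtain ⟨l, hl⟩ := hnilR r hrR
  have h1a : (1 - a) * (1 - a) = 1 - a := haa.one_sub.eq
  have hright : ∀ q, a * q * (1 - a) = 0 := by
    have key : ∀ i, ∀ q, a * q * (1 - a) = a * (q * r ^ i) * (1 - a) := by
      intro i
      induction i with
      | zero => intro q; rw [pow_zero, mul_one]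
      | succ i ih =>
        intro q
        rw [ih q]
        conv_lhs => rw [← h1a, show (1 - a) * (1 - a) = (j + r) * (1 - a) by
          rw [hr, add_sub_cancel]]
        rw [add_mul, mul_add, ← mul_assoc (a * (q * r ^ i)) j,
          show a * (q * r ^ i) * j = 0 from (hj _ (hIr _ a haI)).2, zero_mul, zero_add,
          ← mul_assoc, pow_succ]
        simp only [mul_assoc]
    intro q
    rw [key l q, hl, mul_zero, mul_zero, zero_mul]
  have hleft : ∀ q, (1 - a) * q * a = 0 := by
    have key : ∀ i, ∀ q, (1 - a) * q * a = (1 - a) * (r ^ i * q) * a := by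
      intro i
      induction i with
      | zero => intro q; rw [pow_zero, one_mul]
      | succ i ih =>
        intro q
        rw [ih q]
        conv_lhs => rw [← h1a, show (1 - a) * (1 - a) = (1 - a) * (j + r) by
          rw [hr, add_sub_cancel]]
        rw [mul_add, add_mul, add_mul, mul_assoc (1 - a) j,
          mul_assoc (1 - a) (j * (r ^ i * q)),
          show j * (r ^ i * q) * a = 0 by rw [mul_assoc]; exact (hj _ (hIl _ a haI)).1,
          mul_zero, zero_add, pow_succ']
        simp only [mul_assoc]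
    intro q
    rw [key l q, hl, zero_mul, mul_zero, zero_mul]
  have hac : ∀ q, a * q = q * a := by
    intro q
    have h1 := hright q
    have h2 := hleft q
    rw [mul_sub, mul_one, sub_eq_zero] at h1
    rw [sub_mul, one_mul, sub_mul, sub_eq_zero] at h2
    rw [h1, h2]
  have haC : a ∈ ctr k (⊤ : Subgroup N) := by
    refine mem_ctr.2 ⟨fun g hg => absurd (Subgroup.mem_top g) hg, ?_⟩
    rw [mem_fixedBy_coeff]
    intro h _ g
    have := congrArg (fun w => w.coeff (h * g)) (hac (single h (1 : k)))
    simp only [coeff_mul_single_apply, coeff_single_mul_apply, mul_one, one_mul,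
      inv_mul_cancel_left] at this
    exact this
  have heba : eb * a = 0 := by
    rcases heb.2.2.2 a haC haa.eq with h | h
    · exact h
    · exfalso
      apply hcov
      rw [← h, map_mul, ← mul_assoc, hec, mul_assoc,
        show e * ι a = 0 from haI, mul_zero]
  have hxI : x ∈ I := hx
  have hxr : x = r * x := by
    conv_lhs => rw [← hxb, ← sub_zero eb, ← heba,
      show eb - eb * a = eb * (j + r) by rw [hr, add_sub_cancel, mul_sub, mul_one]]
    rw [mul_add, add_mul, mul_assoc, (hj x hxI).1, mul_zero, zero_add, hebc r, mul_assoc, hxb]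
  have hxl : ∀ i, x = r ^ i * x := fun i => by
    induction i with
    | zero => rw [pow_zero, one_mul]
    | succ i ih => rw [pow_succ, mul_assoc, ← hxr]; exact ih
  rw [hxl l, hl, zero_mul]

end CfsgLib.CharDegreesTheory
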