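import Cfsg.Agent.Lib.CharDegreesTheory.TwoDegrees
import Mathlib.GroupTheory.PGroup

/-!
# Groups with degrees `1` and `p`
-/

set_option autoImplicit false
set_option linter.style.haveILetI false
set_option linter.unusedSectionVars false

namespace CfsgLib.CharDegreesTheory.DegreesOneP

open Cfsg CfsgLib.CharTheory CfsgLib.Clifford CfsgLib.CharDegreesTheory.SmallDegrees Finset
open scoped commutatorElement

universe u

variable {G : Type u} [Group G] [Finite G]

/-- Linear characters separate points from subgroups of an abelian group. -/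
theorem exists_hom_apply_ne {A : Type u} [Group A] [Finite A] (hA : ∀ a b : A, a * b = b * a)
    (S : Subgroup A) {w : A} (hw : w ∉ S) :
    ∃ l : A →* ℂˣ, (∀ s ∈ S, l s = 1) ∧ l w ≠ 1 := by
  classical
  haveI : S.Normal := ⟨fun s hs g => by rw [hA g s, mul_inv_cancel_right]; exact hs⟩
  haveI := Fintype.ofFinite (A ⧸ S)
  obtain ⟨χ, hχ⟩ := exists_irr_apply_ne (g := (w : A ⧸ S))
    fun e => hw ((QuotientGroup.eq_one_iff w).1 e)
  have h1 : (χ : A ⧸ S → ℂ) 1 = 1 := apply_one_eq_one_of_comm (fun a b => by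
    obtain ⟨a, rfl⟩ := QuotientGroup.mk_surjective a
    obtain ⟨b, rfl⟩ := QuotientGroup.mk_surjective b
    rw [← QuotientGroup.mk_mul, hA, QuotientGroup.mk_mul]) χ.2
  obtain ⟨μ, hμ⟩ := exists_hom_of_degree_one χ.2 h1
  refine ⟨μ.comp (QuotientGroup.mk' S), fun s hs => ?_, fun e => hχ ?_⟩
  · rw [MonoidHom.comp_apply, QuotientGroup.mk'_apply, (QuotientGroup.eq_one_iff s).2 hs, map_one]
  · rw [MonoidHom.comp_apply, QuotientGroup.mk'_apply] at e
    rw [hμ]
    simp [e]

/-- A normal subgroup of prime index and an element outside generate. -/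
theorem exists_zpow_mul {p : ℕ} [Fact p.Prime] (T : Subgroup G) [T.Normal] (h : T.index = p) {z : G}
    (hz : z ∉ T) (g : G) : ∃ k : ℤ, (z ^ k)⁻¹ * g ∈ T := by
  obtain ⟨k, hk⟩ := mem_zpowers_of_prime_card (p := p) (G := G ⧸ T) h
    (g := (z : G ⧸ T)) (g' := (g : G ⧸ T)) fun e => hz ((QuotientGroup.eq_one_iff z).1 e)
  exact ⟨k, QuotientGroup.eq.1 (show ((z ^ k : G) : G ⧸ T) = g by rw [QuotientGroup.mk_zpow]; exact hk)⟩

theorem eq_top_of_le_of_not_mem {p : ℕ} [Fact p.Prime] (T S : Subgroup G) [T.Normal] (h : T.index = p)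
    (hTS : T ≤ S) {z : G} (hzS : z ∈ S) (hz : z ∉ T) (g : G) : g ∈ S := by
  obtain ⟨k, hk⟩ := exists_zpow_mul T h hz g
  have := mul_mem (zpow_mem hzS k) (hTS hk)
  rwa [mul_inv_cancel_left] at this

/-- A power outside the trivial group generates an element of prime order. -/
theorem zpow_eq_one_of_mem {M : Type*} [Group M] {p : ℕ} [hp : Fact p.Prime] (S : Subgroup M)
    {u : M} (hu : u ^ p = 1) (hS : u ∉ S) {k : ℤ} (hk : u ^ k ∈ S) : u ^ k = 1 := by
  by_cases h1 : u = 1
  · rw [h1, one_zpow]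
  rw [← orderOf_dvd_iff_zpow_eq_one, orderOf_eq_prime hu h1]
  by_contra hd
  have hcop : IsCoprime (p : ℤ) k :=
    (Prime.coprime_iff_not_dvd (Nat.prime_iff_prime_int.1 hp.out)).2 hd
  obtain ⟨a, b, hab⟩ := hcop
  apply hS
  rw [show u = (u ^ k) ^ b by
    conv_lhs => rw [← zpow_one u, ← hab, zpow_add, mul_comm a, zpow_mul, zpow_natCast, hu, one_zpow,
      one_mul, mul_comm b, zpow_mul]]
  exact zpow_mem hk b

/-- The setting: a self-centralising abelian subgroup containing the commutators. -/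
structure Setup (p : ℕ) (A : Subgroup G) : Prop where
  comm : ∀ a ∈ A, ∀ b ∈ A, a * b = b * a
  selfCent : ∀ g : G, (∀ a ∈ A, g * a = a * g) → g ∈ A
  derived : ∀ x y : G, ⁅x, y⁆ ∈ A
  deg : ∀ χ : IrrCharacter G, charDegree (χ : G → ℂ) = 1 ∨ charDegree (χ : G → ℂ) = p
  index_ne : A.index ≠ p

variable {p : ℕ} [hp : Fact p.Prime] {A : Subgroup G}

/-- Conjugation on `A`. -/
abbrev conjA [A.Normal] (g : G) (a : A) : A := MulAut.conjNormal g a

theorem Setup.conj_comm (S : Setup p A) [A.Normal] (g h : G) (a : A) :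
    conjA g (conjA h a) = conjA h (conjA g a) := by
  apply Subtype.ext
  simp only [conjA, MulAut.conjNormal_apply]
  have h1 : ⁅g, h⁆ * (h * (g * a * g⁻¹) * h⁻¹) = (h * (g * a * g⁻¹) * h⁻¹) * ⁅g, h⁆ :=
    S.comm _ (S.derived g h) _ (‹A.Normal›.conj_mem _ (‹A.Normal›.conj_mem _ a.2 g) h)
  calc g * (h * (a : G) * h⁻¹) * g⁻¹
      = ⁅g, h⁆ * (h * (g * (a : G) * g⁻¹) * h⁻¹) * ⁅g, h⁆⁻¹ := by rw [commutatorElement_def]; group
    _ = h * (g * (a : G) * g⁻¹) * h⁻¹ := by rw [h1, mul_inv_cancel_right]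

theorem Setup.commA (S : Setup p A) (a b : A) : a * b = b * a :=
  Subtype.ext (S.comm a a.2 b b.2)

theorem conjA_mul [A.Normal] (g h : G) (a : A) : conjA (g * h) a = conjA g (conjA h a) := by
  apply Subtype.ext
  simp [conjA, MulAut.conjNormal_apply, mul_assoc]

/-- The stabiliser of a linear character of `A`. -/
def stab (A : Subgroup G) [A.Normal] (l : A →* ℂˣ) : Subgroup G where
  carrier := {g | ∀ a : A, l (conjA g a) = l a}
  one_mem' := fun a => congrArg l (Subtype.ext (by simp [conjA]))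
  mul_mem' := fun {x y} hx hy a => by rw [conjA_mul, hx, hy]
  inv_mem' := fun {x} hx a => by
    conv_rhs => rw [show a = conjA x (conjA x⁻¹ a) from Subtype.ext (by
      simp [conjA])]
    rw [hx]

theorem mem_stab [A.Normal] {l : A →* ℂˣ} {g : G} : g ∈ stab A l ↔ ∀ a : A, l (conjA g a) = l a :=
  Iff.rfl

theorem Setup.le_stab (S : Setup p A) [A.Normal] (l : A →* ℂˣ) : A ≤ stab A l := fun g hg a =>
  congrArg l (Subtype.ext (by
    simp only [conjA, MulAut.conjNormal_apply]
    rw [S.comm g hg a a.2, mul_inv_cancel_right]))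

theorem Setup.stab_normal (S : Setup p A) [A.Normal] (l : A →* ℂˣ) : (stab A l).Normal :=
  ⟨fun n hn g => by
    have h1 := mul_mem (S.le_stab l (S.derived g n)) hn
    rwa [commutatorElement_def, inv_mul_cancel_right] at h1⟩

/-- The stabiliser is everything, or has index `p` and the character extends to it. -/
theorem Setup.stab_spec (S : Setup p A) [A.Normal] (l : A →* ℂˣ) :
    stab A l = ⊤ ∨ ((stab A l).index = p ∧
      ∀ x ∈ stab A l, ∀ y ∈ stab A l, l ⟨⁅x, y⁆, S.derived x y⟩ = 1) := by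
  classical
  haveI := Fintype.ofFinite G
  haveI := Fintype.ofFinite A
  set T := stab A l
  haveI := Fintype.ofFinite T
  by_cases hT : T = ⊤
  · exact Or.inl hT
  refine Or.inr ?_
  let θ : IrrCharacter A := ⟨fun a => (l a : ℂ), isIrrCharacter_linear l⟩
  obtain ⟨χ, hχ⟩ := exists_over A θ
  have hmem : ∀ g : G, g ∈ T ↔ conjChar A (θ : A → ℂ) g = θ := by
    intro g
    rw [conjChar_eq_self_iff]
    refine ⟨fun h a => ?_, fun h a => Units.ext ?_⟩
    · exact congrArg Units.val (h a)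
    · exact h a
  obtain ⟨ψ, hψ, hind, hmult⟩ := exists_indFun_inertia_eq θ.2 hmem (S.le_stab l) χ.2 hχ
  obtain ⟨d, hd0, hd⟩ := exists_degree_of_isIrr hψ
  have hdeg : charDegree (χ : G → ℂ) = T.index * d := by
    have := CfsgLib.Frobenius.indFun_one T ψ
    rw [hind, hd, charDegree_one] at this
    exact_mod_cast this
  have hidx : 1 < T.index := Subgroup.one_lt_index_of_ne_top hT
  have hp' : T.index * d = p := by
    rcases S.deg χ with e | e
    · exfalso
      have := Nat.le_mul_of_pos_right T.index hd0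
      omega
    · omega
  have hprime : d = 1 := by
    rcases (Nat.dvd_prime hp.out).1 ⟨d, hp'.symm⟩ with e | e
    · omega
    · rw [e] at hp'
      exact (Nat.mul_eq_left (by omega)).1 hp'
  refine ⟨by rw [hprime, mul_one] at hp'; exact hp', ?_⟩
  obtain ⟨μ, hμ⟩ := exists_hom_of_degree_one hψ (by rw [hd, hprime, Nat.cast_one])
  have hne : classInner (fun a : A => ψ ⟨(a : G), S.le_stab l a.2⟩) (θ : A → ℂ) ≠ 0 := hmult ▸ hχ
  have hres := res_eq_of_invariant_of_le (S.le_stab l) θ.2 (fun g hg => (hmem g).1 hg) hψ hne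
  have h1 : ∀ a : A, l a = μ ⟨(a : G), S.le_stab l a.2⟩ := by
    intro a
    have e1 := congrFun hres 1
    have e2 := congrFun hres a
    simp only [Pi.smul_apply, smul_eq_mul, hμ, θ, map_one, Units.val_one, mul_one] at e1 e2
    rw [show (⟨((1 : A) : G), S.le_stab l (1 : A).2⟩ : T) = 1 from rfl, map_one, Units.val_one] at e1
    rw [← e1, one_mul] at e2
    exact Units.ext e2.symm
  intro x hx y hy
  rw [h1]
  have e : (⟨⁅x, y⁆, S.le_stab l (S.derived x y)⟩ : T) = ⁅(⟨x, hx⟩ : T), ⟨y, hy⟩⁆ := rfl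
  exact (congrArg μ e).trans (by
    rw [map_commutatorElement, commutatorElement_eq_one_iff_mul_comm]; exact mul_comm _ _)

theorem Setup.index_stab (S : Setup p A) [A.Normal] {l : A →* ℂˣ} (h : stab A l ≠ ⊤) :
    (stab A l).index = p :=
  ((S.stab_spec l).resolve_left h).1

theorem Setup.ext_of_homs (S : Setup p A) {a b : A} (h : ∀ l : A →* ℂˣ, l a = l b) : a = b := by
  by_contra hne
  obtain ⟨l, -, hl⟩ := exists_hom_apply_ne S.commA ⊥ (w := a * b⁻¹) fun e =>
    hne (mul_inv_eq_one.1 (Subgroup.mem_bot.1 e))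
  exact hl (by rw [map_mul, map_inv, h, mul_inv_cancel])

theorem Setup.exists_other (S : Setup p A) [A.Normal] {l : A →* ℂˣ} (h : stab A l ≠ ⊤) :
    ∃ m : A →* ℂˣ, stab A m ≠ ⊤ ∧ stab A m ≠ stab A l := by
  by_contra hc
  push Not at hc
  refine S.index_ne ?_
  rw [← S.index_stab h]
  refine congrArg Subgroup.index (le_antisymm (S.le_stab l) fun t ht => S.selfCent t fun a ha => ?_)
  have e : conjA t ⟨a, ha⟩ = ⟨a, ha⟩ := S.ext_of_homs fun m => by
    by_cases hm : stab A m = ⊤
    · exact mem_stab.1 (hm ▸ Subgroup.mem_top t) _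
    · exact mem_stab.1 ((hc m hm).symm ▸ ht) _
  have e' : t * a * t⁻¹ = a := congrArg Subtype.val e
  exact mul_inv_eq_iff_eq_mul.1 e'

theorem Setup.exists_mem_not_mem (S : Setup p A) [A.Normal] {l m : A →* ℂˣ} (hl : stab A l ≠ ⊤)
    (hm : stab A m ≠ ⊤) (hne : stab A l ≠ stab A m) : ∃ x ∈ stab A l, x ∉ stab A m := by
  by_contra hc
  push Not at hc
  exact hne (Subgroup.eq_of_le_of_card_ge hc (le_of_eq (by
    have h1 := (stab A l).card_mul_index
    have h2 := (stab A m).card_mul_index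
    rw [S.index_stab hl, ← h2, S.index_stab hm] at h1
    exact (Nat.eq_of_mul_eq_mul_right hp.out.pos h1).symm)))

/-- `a ↦ l (g a g⁻¹) / l a`. -/
noncomputable def D [A.Normal] (l : A →* ℂˣ) (g : G) : A →* ℂˣ :=
  l.comp (MulAut.conjNormal g).toMonoidHom / l

theorem D_apply [A.Normal] (l : A →* ℂˣ) (g : G) (a : A) : D l g a = l (conjA g a) / l a := rfl

theorem D_of_mem [A.Normal] {l : A →* ℂˣ} {g : G} (h : g ∈ stab A l) (a : A) : D l g a = 1 := by
  rw [D_apply, h a, div_self']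

theorem mem_of_D [A.Normal] {l : A →* ℂˣ} {g : G} (h : ∀ a, D l g a = 1) : g ∈ stab A l :=
  fun a => div_eq_one.1 (h a)

theorem D_mul [A.Normal] (l : A →* ℂˣ) (g h : G) (a : A) :
    D l (g * h) a = D l g (conjA h a) * D l h a := by
  simp only [D_apply, conjA_mul]
  exact (div_mul_div_cancel _ _ _).symm

theorem Setup.D_mul_stab (S : Setup p A) [A.Normal] {l : A →* ℂˣ} {t : G} (ht : t ∈ stab A l) (g : G)
    (a : A) : D l (g * t) a = D l g a := by
  rw [D_apply, D_apply, conjA_mul, S.conj_comm, ht]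

theorem Setup.D_conj_stab (S : Setup p A) [A.Normal] {l : A →* ℂˣ} {t : G} (ht : t ∈ stab A l) (g : G)
    (a : A) : D l g (conjA t a) = D l g a := by
  rw [D_apply, D_apply, S.conj_comm, ht, ht]

/-- Two stabilisers tie the two characters together. -/
theorem Setup.key (S : Setup p A) [A.Normal] {l m : A →* ℂˣ} (_hl : stab A l ≠ ⊤) {x y : G}
    (hxl : x ∈ stab A l) (hxm : x ∉ stab A m) (hym : y ∈ stab A m) (hyl : y ∉ stab A l) :
    ∃ x' ∈ stab A l, x' ∉ stab A m ∧ ∀ a : A, D l y a * D m x' a = 1 := by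
  have hx : x ∉ stab A (l * m) := fun h => hxm fun a => by
    have := h a
    rwa [MonoidHom.mul_apply, MonoidHom.mul_apply, hxl, mul_right_inj] at this
  have hlm : stab A (l * m) ≠ ⊤ := fun e => hx (e ▸ Subgroup.mem_top x)
  haveI := S.stab_normal (l * m)
  obtain ⟨k, hk⟩ := exists_zpow_mul _ (S.index_stab hlm) hx y
  have hrel : ∀ a : A, D l y a * D m (x ^ k)⁻¹ a = 1 := by
    intro a
    have h1 := hk a
    have e1 : l (conjA ((x ^ k)⁻¹ * y) a) = l (conjA y a) := by
      rw [conjA_mul]; exact inv_mem (zpow_mem hxl k) _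
    have e2 : m (conjA ((x ^ k)⁻¹ * y) a) = m (conjA (x ^ k)⁻¹ a) := by
      rw [conjA_mul, S.conj_comm]; exact hym _
    rw [MonoidHom.mul_apply, MonoidHom.mul_apply, e1, e2] at h1
    rw [D_apply, D_apply, div_mul_div_comm, h1, div_self']
  refine ⟨(x ^ k)⁻¹, inv_mem (zpow_mem hxl k), fun h => hyl (mem_of_D fun a => ?_), hrel⟩
  have := hrel a
  rwa [D_of_mem h, mul_one] at this

theorem Setup.D_invariant (S : Setup p A) [A.Normal] (l : A →* ℂˣ) (g h : G) (a : A) :
    D l g (conjA h a) = D l g a := by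
  by_cases hl : stab A l = ⊤
  · rw [D_of_mem (hl ▸ Subgroup.mem_top g), D_of_mem (hl ▸ Subgroup.mem_top g)]
  by_cases hg : g ∈ stab A l
  · rw [D_of_mem hg, D_of_mem hg]
  obtain ⟨m, hm, hne⟩ := S.exists_other hl
  obtain ⟨z, hzm, hzl⟩ := S.exists_mem_not_mem hm hl hne
  obtain ⟨x, hxl, hxm⟩ := S.exists_mem_not_mem hl hm hne.symm
  haveI := S.stab_normal l
  obtain ⟨j, hj⟩ := exists_zpow_mul _ (S.index_stab hl) hzl g
  have hym : z ^ j ∈ stab A m := zpow_mem hzm j
  have hgy : ∀ a, D l g a = D l (z ^ j) a := fun a => by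
    conv_lhs => rw [← mul_inv_cancel_left (z ^ j) g]
    exact S.D_mul_stab hj _ a
  have hyl : z ^ j ∉ stab A l := fun e => hg (by simpa using mul_mem e hj)
  obtain ⟨x', -, -, hrel⟩ := S.key hl hxl hxm hym hyl
  have hy : z ^ j ∈ stab A (D l g) := fun a => by
    have e1 := hrel (conjA (z ^ j) a)
    have e2 := hrel a
    rw [S.D_conj_stab hym, ← hgy] at e1
    rw [← hgy] at e2
    exact mul_right_cancel (e1.trans e2.symm)
  exact eq_top_of_le_of_not_mem (stab A l) (stab A (D l g)) (S.index_stab hl)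
    (fun t ht a => S.D_conj_stab ht g a) hy hyl h a

theorem Setup.D_hom (S : Setup p A) [A.Normal] (l : A →* ℂˣ) (g h : G) (a : A) :
    D l (g * h) a = D l g a * D l h a := by
  rw [D_mul, S.D_invariant]

/-- `[G, A]` is central. -/
theorem Setup.comm_center (S : Setup p A) [A.Normal] (h : G) {a : G} (ha : a ∈ A) :
    ⁅h, a⁆ ∈ Subgroup.center G := by
  rw [Subgroup.mem_center_iff]
  intro g
  set z : A := conjA h ⟨a, ha⟩ * ⟨a, ha⟩⁻¹
  have hz : conjA g z = z := S.ext_of_homs fun l => by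
    have e : D l g (conjA h ⟨a, ha⟩) = D l g ⟨a, ha⟩ := S.D_invariant l g h _
    rw [D_apply, D_apply, div_eq_div_iff_mul_eq_mul] at e
    simp only [z, conjA, map_mul, map_inv] at *
    rw [← div_eq_mul_inv, ← div_eq_mul_inv, div_eq_div_iff_mul_eq_mul, e]
    exact mul_comm _ _
  have hz' : g * ⁅h, a⁆ * g⁻¹ = ⁅h, a⁆ := congrArg Subtype.val hz
  exact mul_inv_eq_iff_eq_mul.1 hz'

theorem Setup.kills_of_one (S : Setup p A) [A.Normal] {l : A →* ℂˣ} {g : G} (hg : g ∉ stab A l) {a : A}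
    (h : D l g a = 1) (g' : G) : D l g' a = 1 := by
  let K : Subgroup G :=
    { carrier := {x | D l x a = 1}
      one_mem' := D_of_mem (Subgroup.one_mem _) a
      mul_mem' := fun {x y} hx hy => by
        rw [Set.mem_ofPred_eq, S.D_hom, hx, hy, one_mul]
      inv_mem' := fun {x} hx => by
        have := S.D_hom l x⁻¹ x a
        rw [inv_mul_cancel, D_of_mem (Subgroup.one_mem _), hx, mul_one] at this
        exact this.symm }
  haveI := S.stab_normal l
  have hl : stab A l ≠ ⊤ := fun e => hg (e ▸ Subgroup.mem_top g)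
  exact eq_top_of_le_of_not_mem _ K (S.index_stab hl) (fun t ht => D_of_mem ht a) h hg g'

theorem Setup.kills_transfer (S : Setup p A) [A.Normal] {l m : A →* ℂˣ} (hl : stab A l ≠ ⊤)
    (hm : stab A m ≠ ⊤) {a : A} (h : ∀ g, D l g a = 1) (g : G) : D m g a = 1 := by
  have main : ∀ {l m : A →* ℂˣ}, stab A l ≠ ⊤ → stab A m ≠ ⊤ → stab A l ≠ stab A m →
      (∀ g, D l g a = 1) → ∀ g, D m g a = 1 := by
    intro l m hl hm hne h g
    obtain ⟨x, hxl, hxm⟩ := S.exists_mem_not_mem hl hm hne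
    obtain ⟨y, hym, hyl⟩ := S.exists_mem_not_mem hm hl hne.symm
    obtain ⟨x', -, hx'm, hrel⟩ := S.key hl hxl hxm hym hyl
    have := hrel a
    rw [h, one_mul] at this
    exact S.kills_of_one hx'm this g
  by_cases hne : stab A l = stab A m
  · obtain ⟨n, hn, hnl⟩ := S.exists_other hl
    exact main hn hm (hne ▸ hnl) (main hl hn (Ne.symm hnl) h) g
  · exact main hl hm hne h g

theorem Setup.center_le (S : Setup p A) : Subgroup.center G ≤ A := fun z hz =>
  S.selfCent z fun a _ => (Subgroup.mem_center_iff.1 hz a).symm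

theorem Setup.exists_moved (S : Setup p A) [A.Normal] {g : G} (hg : g ∉ A) :
    ∃ l : A →* ℂˣ, g ∉ stab A l := by
  by_contra hc
  push Not at hc
  refine hg (S.selfCent g fun a ha => ?_)
  have e : g * a * g⁻¹ = a :=
    congrArg Subtype.val (S.ext_of_homs (a := conjA g ⟨a, ha⟩) fun l => hc l ⟨a, ha⟩)
  exact mul_inv_eq_iff_eq_mul.1 e

/-- The centre has index `p` in `A`; a generator. -/
theorem Setup.exists_gen (S : Setup p A) [A.Normal] (hA : A ≠ ⊤) :
    ∃ a₀ ∈ A, a₀ ∉ Subgroup.center G ∧ a₀ ^ p ∈ Subgroup.center G ∧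
      (∀ a ∈ A, ∃ k : ℤ, a * a₀ ^ k ∈ Subgroup.center G) ∧ (Subgroup.center G).relIndex A = p := by
  classical
  obtain ⟨g₀, -, hg₀⟩ := SetLike.exists_of_lt hA.lt_top
  obtain ⟨l, hgl⟩ := S.exists_moved hg₀
  have hl : stab A l ≠ ⊤ := fun e => hgl (e ▸ Subgroup.mem_top g₀)
  set φ : A →* ℂˣ := D l g₀
  have hker : ∀ a : A, φ a = 1 ↔ (a : G) ∈ Subgroup.center G := by
    intro a
    refine ⟨fun h => ?_, fun h => ?_⟩
    · rw [Subgroup.mem_center_iff]
      intro g
      have e : conjA g a = a := S.ext_of_homs fun m => by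
        by_cases hm : stab A m = ⊤
        · exact mem_stab.1 (hm ▸ Subgroup.mem_top g) a
        · exact div_eq_one.1 (S.kills_transfer hl hm (S.kills_of_one hgl h) g)
      exact mul_inv_eq_iff_eq_mul.1 (congrArg Subtype.val e)
    · show l (conjA g₀ a) / l a = 1
      rw [show conjA g₀ a = a from Subtype.ext (by
        simp only [conjA, MulAut.conjNormal_apply]
        rw [Subgroup.mem_center_iff.1 h g₀, mul_inv_cancel_right]), div_self']
  haveI := S.stab_normal l
  have hpow : ∀ a : A, φ a ^ p = 1 := by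
    intro a
    have h1 : ∀ n : ℕ, D l (g₀ ^ n) a = φ a ^ n := by
      intro n
      induction n with
      | zero => rw [pow_zero, pow_zero, D_of_mem (Subgroup.one_mem _)]
      | succ n ih => rw [pow_succ, pow_succ, S.D_hom, ih]
    rw [← h1, D_of_mem]
    have := Subgroup.pow_index_mem (stab A l) g₀
    rwa [S.index_stab hl] at this
  have hrange : φ.range ≤ rootsOfUnity p ℂ := by
    rintro _ ⟨a, rfl⟩
    exact (mem_rootsOfUnity p (φ a)).2 (hpow a)
  haveI : NeZero p := ⟨hp.out.ne_zero⟩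
  have hcard : Nat.card φ.range = p := by
    have hd : Nat.card φ.range ∣ p := by
      have := Subgroup.card_dvd_of_le hrange
      rwa [HasEnoughRootsOfUnity.natCard_rootsOfUnity] at this
    refine ((Nat.dvd_prime hp.out).1 hd).resolve_left fun e => hgl (mem_of_D fun a => ?_)
    have h : φ a ∈ φ.range := ⟨a, rfl⟩
    rw [Subgroup.card_eq_one.1 e] at h
    exact Subgroup.mem_bot.1 h
  obtain ⟨a₀, ha₀⟩ : ∃ a₀ : A, φ a₀ ≠ 1 := by
    by_contra hc
    push Not at hc
    exact hgl (mem_of_D hc)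
  refine ⟨a₀, a₀.2, fun h => ha₀ ((hker a₀).2 h), ?_, fun a ha => ?_, ?_⟩
  · rw [← Subgroup.coe_pow]
    exact (hker _).1 (by rw [map_pow, hpow])
  · obtain ⟨k, hk⟩ := mem_zpowers_of_prime_card (p := p) hcard (g := (⟨φ a₀, a₀, rfl⟩ : φ.range))
      (g' := ⟨φ ⟨a, ha⟩, _, rfl⟩) fun e => ha₀ (congrArg Subtype.val e)
    refine ⟨-k, ?_⟩
    have hk' : φ a₀ ^ k = φ ⟨a, ha⟩ := congrArg Subtype.val hk
    have := (hker (⟨a, ha⟩ * a₀ ^ (-k))).1 (by
      rw [map_mul, map_zpow, zpow_neg, hk', mul_inv_cancel])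
    simpa using this
  · have e : (Subgroup.center G).subgroupOf A = φ.ker := by
      ext a
      rw [Subgroup.mem_subgroupOf, MonoidHom.mem_ker, hker]
    rw [Subgroup.relIndex, e, Subgroup.index_ker, hcard]

theorem prod_avoid {M N : Type*} [Group M] [Group N] (c : M →* N) (S T : Subgroup N)
    (h₁ : ∃ y, c y ∉ S) (h₂ : ∃ y, c y ∉ T) : ∃ y, c y ∉ S ∧ c y ∉ T := by
  obtain ⟨y, hy⟩ := h₁
  obtain ⟨z, hz⟩ := h₂
  by_cases hyT : c y ∈ T
  · by_cases hzS : c z ∈ S
    · exact ⟨y * z, by rw [map_mul]; exact fun h => hy ((Subgroup.mul_mem_cancel_right S hzS).1 h),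
        by rw [map_mul]; exact fun h => hz ((Subgroup.mul_mem_cancel_left T hyT).1 h)⟩
    · exact ⟨z, hzS, hz⟩
  · exact ⟨y, hy, hyT⟩

/-- With central commutators, commutation is multiplicative. -/
theorem commutator_mul_left (h : ∀ x y : G, ⁅x, y⁆ ∈ Subgroup.center G) (x y z : G) :
    ⁅x * y, z⁆ = ⁅x, z⁆ * ⁅y, z⁆ := by
  calc ⁅x * y, z⁆ = (x * ⁅y, z⁆) * x⁻¹ * ⁅x, z⁆ := by simp only [commutatorElement_def]; group
    _ = ⁅y, z⁆ * ⁅x, z⁆ := by rw [Subgroup.mem_center_iff.1 (h y z) x, mul_inv_cancel_right]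
    _ = ⁅x, z⁆ * ⁅y, z⁆ := (Subgroup.mem_center_iff.1 (h y z) _).symm

theorem commutator_mul_right (h : ∀ x y : G, ⁅x, y⁆ ∈ Subgroup.center G) (x y z : G) :
    ⁅x, y * z⁆ = ⁅x, y⁆ * ⁅x, z⁆ := by
  calc ⁅x, y * z⁆ = ⁅x, y⁆ * ((y * ⁅x, z⁆) * y⁻¹) := by simp only [commutatorElement_def]; group
    _ = ⁅x, y⁆ * ⁅x, z⁆ := by rw [Subgroup.mem_center_iff.1 (h x z) y, mul_inv_cancel_right]

theorem normal_of_le_center {H : Subgroup G} (h : H ≤ Subgroup.center G) : H.Normal :=
  ⟨fun n hn g => by rwa [Subgroup.mem_center_iff.1 (h hn) g, mul_inv_cancel_right]⟩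

/-- Degrees `1` and `p` with a self-centralising `A` of index other than `p`. -/
theorem Setup.dichotomy (S : Setup p A) [A.Normal] (hA : A ≠ ⊤) :
    (Subgroup.center G).index = p ^ 3 ∨
      ∃ K : Subgroup G, K.Normal ∧ (∀ a ∈ K, ∀ b ∈ K, a * b = b * a) ∧ K.index = p := by
  classical
  obtain ⟨a₀, ha₀, ha₀Z, hpZ, hrep, hrel⟩ := S.exists_gen hA
  let Z := Subgroup.center G
  have hZ : ∀ g, ⁅g, a₀⁆ ∈ Z := fun g => S.comm_center g ha₀
  let c : G →* G := MonoidHom.mk' (fun g => ⁅g, a₀⁆) fun g h => by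
    calc ⁅g * h, a₀⁆ = (g * ⁅h, a₀⁆) * g⁻¹ * ⁅g, a₀⁆ := by simp only [commutatorElement_def]; group
      _ = ⁅h, a₀⁆ * ⁅g, a₀⁆ := by rw [Subgroup.mem_center_iff.1 (hZ h) g, mul_inv_cancel_right]
      _ = ⁅g, a₀⁆ * ⁅h, a₀⁆ := (Subgroup.mem_center_iff.1 (hZ h) _).symm
  have hc : ∀ g, c g = ⁅g, a₀⁆ := fun _ => rfl
  have hker : c.ker = A := by
    ext g
    rw [MonoidHom.mem_ker, hc, commutatorElement_eq_one_iff_mul_comm]
    refine ⟨fun h => S.selfCent g fun a ha => ?_, fun h => S.comm g h a₀ ha₀⟩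
    obtain ⟨k, hk⟩ := hrep a ha
    have h1 : Commute g (a * a₀ ^ k) := Subgroup.mem_center_iff.1 hk g
    have h2 : Commute g (a₀ ^ k) := Commute.zpow_right h k
    have := h1.mul_right h2.inv_right
    rw [mul_inv_cancel_right] at this
    exact this
  have hcp : ∀ g, c g ^ p = 1 := fun g => by
    have h1 : g * a₀ * g⁻¹ = c g * a₀ := by rw [hc, commutatorElement_def]; group
    have h2 : Commute (c g) a₀ := (Subgroup.mem_center_iff.1 (hZ g) a₀).symm
    have h3 : (g * a₀ * g⁻¹) ^ p = a₀ ^ p := by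
      rw [conj_pow, Subgroup.mem_center_iff.1 hpZ g, mul_inv_cancel_right]
    rw [h1, h2.mul_pow] at h3
    exact mul_eq_right.1 h3
  have hidxA : A.index = Nat.card c.range := by rw [← hker, Subgroup.index_ker]
  have hidxZ : Z.index = p * A.index := by
    rw [← Subgroup.relIndex_mul_index S.center_le, hrel]
  obtain ⟨n, hn⟩ : ∃ n, Nat.card c.range = p ^ n := IsPGroup.iff_card.1 fun x => ⟨1, by
    obtain ⟨g, hg⟩ := x.2
    exact Subtype.ext (by rw [Subgroup.coe_pow, pow_one, ← hg, hcp, Subgroup.coe_one])⟩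
  by_cases hn2 : n = 2
  · refine Or.inl ?_
    rw [hidxZ, hidxA, hn, hn2]; ring
  refine Or.inr ?_
  have hn3 : 3 ≤ n := by
    by_contra hlt
    interval_cases n
    · exact hA (Subgroup.index_eq_one.1 (by rw [hidxA, hn, pow_zero]))
    · exact S.index_ne (by rw [hidxA, hn, pow_one])
    · exact hn2 rfl
  let span : G → G → Subgroup G := fun x y => Subgroup.zpowers (c x) ⊔ Subgroup.zpowers (c y)
  have hspanZ : ∀ x y, span x y ≤ Z := fun x y =>
    sup_le (Subgroup.zpowers_le.2 (hZ x)) (Subgroup.zpowers_le.2 (hZ y))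
  have havoid : ∀ x y, ∃ z, c z ∉ span x y := by
    intro x y
    by_contra hcon
    push Not at hcon
    have hle : c.range ≤ span x y := by rintro _ ⟨z, rfl⟩; exact hcon z
    haveI : (Subgroup.zpowers (c y)).Normal := normal_of_le_center (Subgroup.zpowers_le.2 (hZ y))
    have h2 : ∀ z, Nat.card (Subgroup.zpowers (c z)) ∣ p := fun z => by
      rw [Nat.card_zpowers]; exact orderOf_dvd_of_pow_eq_one (hcp z)
    have h3 : Nat.card (span x y) ∣ p * p := by
      rw [← Subgroup.relIndex_bot_left, ← Subgroup.relIndex_mul_relIndex ⊥ _ _ bot_le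
        (le_sup_right : Subgroup.zpowers (c y) ≤ span x y), Subgroup.relIndex_bot_left]
      refine Nat.mul_dvd_mul (h2 y) (dvd_trans ?_ (h2 x))
      show (Subgroup.zpowers (c y)).relIndex (Subgroup.zpowers (c x) ⊔ Subgroup.zpowers (c y)) ∣ _
      rw [Subgroup.relIndex_sup_right]
      exact Subgroup.relIndex_dvd_card _ _
    have h4 := (Subgroup.card_dvd_of_le hle).trans h3
    rw [hn, ← pow_two] at h4
    have := (Nat.pow_dvd_pow_iff_le_right hp.out.one_lt).1 h4
    omega
  -- every commutator lies in the span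
  have hspan : ∀ x y, ⁅x, y⁆ ∈ span x y := by
    intro x y
    by_contra hw
    obtain ⟨l, hlS, hlw⟩ := exists_hom_apply_ne S.commA ((span x y).subgroupOf A)
      (w := ⟨⁅x, y⁆, S.derived x y⟩) hw
    have hin : ∀ m : A →* ℂˣ, (∀ s ∈ (span x y).subgroupOf A, m s = 1) →
        ∀ z, c z ∈ span x y → z ∈ stab A m := by
      intro m hm z hz
      refine mem_of_D fun a => ?_
      obtain ⟨k, hk⟩ := hrep a a.2
      have e1 : D m z (a * (⟨a₀, ha₀⟩ : A) ^ k) = 1 := by
        rw [D_apply, show conjA z (a * (⟨a₀, ha₀⟩ : A) ^ k) = a * (⟨a₀, ha₀⟩ : A) ^ k from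
          Subtype.ext (by
            simp only [conjA, MulAut.conjNormal_apply, Subgroup.coe_mul, Subgroup.coe_zpow]
            rw [Subgroup.mem_center_iff.1 hk z, mul_inv_cancel_right]), div_self']
      have e2 : D m z ⟨a₀, ha₀⟩ = 1 := by
        have hca : c z ∈ A := S.center_le (hZ z)
        rw [D_apply, show conjA z (⟨a₀, ha₀⟩ : A) = ⟨c z, hca⟩ * ⟨a₀, ha₀⟩ from Subtype.ext (by
            simp only [conjA, MulAut.conjNormal_apply, Subgroup.coe_mul]
            rw [hc, commutatorElement_def, inv_mul_cancel_right]),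
          map_mul, hm ⟨c z, hca⟩ hz, one_mul, div_self']
      rwa [map_mul, map_zpow, e2, one_zpow, mul_one] at e1
    have hkill : ∀ m : A →* ℂˣ, (∀ s ∈ (span x y).subgroupOf A, m s = 1) → stab A m ≠ ⊤ →
        m ⟨⁅x, y⁆, S.derived x y⟩ = 1 := fun m hm hmt =>
      ((S.stab_spec m).resolve_left hmt).2 x (hin m hm x (Subgroup.mem_sup_left (Subgroup.mem_zpowers _)))
        y (hin m hm y (Subgroup.mem_sup_right (Subgroup.mem_zpowers _)))
    by_cases hlt : stab A l = ⊤
    · obtain ⟨z, hz⟩ := havoid x y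
      have hcz : c z ∈ A := S.center_le (hZ z)
      obtain ⟨l₀, h0S, h0z⟩ := exists_hom_apply_ne S.commA ((span x y).subgroupOf A)
        (w := ⟨c z, hcz⟩) hz
      have hD : ∀ m : A →* ℂˣ, z ∈ stab A m → m ⟨c z, hcz⟩ = 1 := fun m h => by
        have := h ⟨a₀, ha₀⟩
        rwa [show conjA z (⟨a₀, ha₀⟩ : A) = ⟨c z, hcz⟩ * ⟨a₀, ha₀⟩ from Subtype.ext (by
            simp only [conjA, MulAut.conjNormal_apply, Subgroup.coe_mul]
            rw [hc, commutatorElement_def, inv_mul_cancel_right]),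
          map_mul, mul_eq_right] at this
      have h0 : stab A l₀ ≠ ⊤ := fun e => h0z (hD l₀ (e ▸ Subgroup.mem_top z))
      have h1 : stab A (l * l₀) ≠ ⊤ := fun e => h0z (by
        have := hD (l * l₀) (e ▸ Subgroup.mem_top z)
        rwa [MonoidHom.mul_apply, hD l (hlt ▸ Subgroup.mem_top z), one_mul] at this)
      have e1 := hkill l₀ h0S h0
      have e2 := hkill (l * l₀) (fun s hs => by rw [MonoidHom.mul_apply, hlS s hs, h0S s hs, one_mul]) h1
      rw [MonoidHom.mul_apply, e1, mul_one] at e2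
      exact hlw e2
    · exact hlw (hkill l hlS hlt)
  have hcen : ∀ x y : G, ⁅x, y⁆ ∈ Z := fun x y => hspanZ x y (hspan x y)
  haveI : ∀ g : G, (Subgroup.zpowers (c g)).Normal := fun g =>
    normal_of_le_center (Subgroup.zpowers_le.2 (hZ g))
  let BL : G → G →* G := fun y => MonoidHom.mk' (fun g => ⁅g, y⁆) fun g h =>
    commutator_mul_left hcen g h y
  let BR : G → G →* G := fun g => MonoidHom.mk' (fun y => ⁅g, y⁆) fun y z =>
    commutator_mul_right hcen g y z
  have hBa : ∀ (j : ℤ) (y : G), ⁅a₀ ^ j, y⁆ = c y ^ (-j) := fun j y => by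
    show BL y (a₀ ^ j) = _
    rw [map_zpow, zpow_neg, ← inv_zpow]
    show ⁅a₀, y⁆ ^ j = _
    rw [hc, commutatorElement_inv]
  have hca : ∀ j : ℤ, c (a₀ ^ j) = 1 := fun j =>
    MonoidHom.mem_ker.1 (hker.symm ▸ zpow_mem ha₀ j)
  have hcentral : ∀ {z : G}, z ∈ Z → ∀ (g y : G), ⁅g * z, y⁆ = ⁅g, y⁆ ∧ c (g * z) = c g := by
    intro z hz g y
    have h1 : ∀ w : G, ⁅z, w⁆ = 1 := fun w =>
      commutatorElement_eq_one_iff_mul_comm.2 (Subgroup.mem_center_iff.1 hz w).symm
    exact ⟨by rw [commutator_mul_left hcen, h1, mul_one], by rw [map_mul, hc z, h1, mul_one]⟩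
  have hmemS : ∀ {g y : G} {w : G}, w ∈ span g y → ∃ u ∈ Subgroup.zpowers (c g), ∃ k : ℤ,
      u * c y ^ k = w := fun {g y w} hw => by
    obtain ⟨u, hu, v, ⟨k, hk⟩, rfl⟩ := Subgroup.mem_sup_of_normal_right.1 hw
    exact ⟨u, hu, k, by rw [← hk]⟩
  have zpow_all : ∀ {y : G} {j : ℤ} {g h : G}, c y ∉ span g h → c y ^ j = 1 → ∀ z, c z ^ j = 1 := by
    intro y j g h hy hj z
    have hy1 : c y ≠ 1 := fun e => hy (by rw [e]; exact Subgroup.one_mem _)
    rw [← orderOf_dvd_iff_zpow_eq_one, orderOf_eq_prime (hcp y) hy1] at hj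
    rw [← orderOf_dvd_iff_zpow_eq_one]
    exact (Int.natCast_dvd_natCast.2 (orderOf_dvd_of_pow_eq_one (hcp z))).trans hj
  have exists_good : ∀ g : G, ∃ i : ℤ, ∀ y, ⁅g * a₀ ^ i, y⁆ ∈ Subgroup.zpowers (c g) := by
    intro g
    let P : ℤ → G → Prop := fun j y => ⁅g * a₀ ^ j, y⁆ ∈ Subgroup.zpowers (c g)
    have hPy : ∀ y, ∃ j, P j y := fun y => by
      obtain ⟨u, hu, k, hk⟩ := hmemS (hspan g y)
      refine ⟨k, ?_⟩
      show ⁅g * a₀ ^ k, y⁆ ∈ _
      rw [commutator_mul_left hcen, hBa, ← hk, mul_assoc, ← zpow_add, add_neg_cancel, zpow_zero,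
        mul_one]
      exact hu
    have hcg : ∀ j : ℤ, c (g * a₀ ^ j) = c g := fun j => by rw [map_mul, hca, mul_one]
    -- independent arguments share the exponent
    have hpair : ∀ y y', c y' ∉ span g y → ∃ j, P j y ∧ P j y' := by
      intro y y' hy'
      obtain ⟨j, hj⟩ := hPy (y * y')
      have hj' : ⁅g * a₀ ^ j, y⁆ * ⁅g * a₀ ^ j, y'⁆ ∈ Subgroup.zpowers (c g) := by
        rw [← commutator_mul_right hcen]; exact hj
      obtain ⟨u, hu, k, hk⟩ := hmemS (hspan (g * a₀ ^ j) y')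
      rw [hcg] at hu
      have h1 : ⁅g * a₀ ^ j, y⁆ ∈ span g y := by
        have := hspan (g * a₀ ^ j) y
        simpa only [span, hcg] using this
      have h2 : c y' ^ k ∈ span g y := by
        have := (Subgroup.mul_mem_cancel_left _ h1).1 (Subgroup.mem_sup_left hj')
        rw [← hk] at this
        exact (Subgroup.mul_mem_cancel_left _ (Subgroup.mem_sup_left hu)).1 this
      rw [zpow_eq_one_of_mem (span g y) (hcp y') hy' h2, mul_one] at hk
      refine ⟨j, (Subgroup.mul_mem_cancel_right _ ?_).1 hj', ?_⟩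
      · rw [← hk]; exact hu
      · show ⁅g * a₀ ^ j, y'⁆ ∈ _
        rw [← hk]; exact hu
    have huniq : ∀ y, c y ∉ span g g → ∀ j j', P j y → P j' y → ∀ z, P j z → P j' z := by
      intro y hy j j' hj hj' z hz
      have hgg : Subgroup.zpowers (c g) ≤ span g g := le_sup_left
      simp only [P, commutator_mul_left hcen, hBa] at hj hj' hz ⊢
      have e : c y ^ (-j' - -j) ∈ span g g := by
        have := hgg (mul_mem (inv_mem hj) hj')
        rwa [mul_inv_rev, mul_assoc, inv_mul_cancel_left, ← zpow_neg, ← zpow_add, add_comm,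
          ← sub_eq_add_neg] at this
      have e2 := zpow_all hy (zpow_eq_one_of_mem (span g g) (hcp y) hy e) z
      rw [show (-j' : ℤ) = -j + (-j' - -j) by ring, zpow_add, e2, mul_one]
      exact hz
    obtain ⟨y₀, hy₀⟩ := havoid g g
    obtain ⟨j₀, hj₀⟩ := hPy y₀
    refine ⟨j₀, ?_⟩
    have hmain : ∀ y, c y ∉ span g g → P j₀ y := by
      intro y hy
      obtain ⟨y₂, h20, h2y⟩ := prod_avoid c (span g y₀) (span g y) (havoid g y₀) (havoid g y)
      obtain ⟨j₁, h10, h12⟩ := hpair y₀ y₂ h20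
      obtain ⟨j₂, h2a, h2b⟩ := hpair y y₂ h2y
      have hy2 : c y₂ ∉ span g g := fun e => h20 ((sup_le le_sup_left le_sup_left : span g g ≤ span g y₀) e)
      exact huniq y₀ hy₀ j₁ j₀ h10 hj₀ y (huniq y₂ hy2 j₂ j₁ h2b h12 y h2a)
    intro y
    by_cases hy : c y ∈ span g g
    · have h1 : c (y * y₀) ∉ span g g := by
        rw [map_mul]
        exact fun e => hy₀ ((Subgroup.mul_mem_cancel_left _ hy).1 e)
      have h2 : P j₀ (y * y₀) := hmain _ h1
      simp only [P] at h2 hj₀
      rw [commutator_mul_right hcen] at h2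
      exact (Subgroup.mul_mem_cancel_right _ hj₀).1 h2
    · exact hmain y hy
  -- the abelian subgroup of index `p`
  let good : G → Prop := fun g => ∀ y, ⁅g, y⁆ ∈ Subgroup.zpowers (c g)
  let K : Subgroup G :=
    { carrier := {g | good g}
      one_mem' := fun y => by rw [commutatorElement_one_left]; exact Subgroup.one_mem _
      inv_mem' := fun {g} hg y => by
        show BL y g⁻¹ ∈ _
        rw [map_inv, map_inv, Subgroup.zpowers_inv]
        exact inv_mem (hg y)
      mul_mem' := fun {g h} hg hh => by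
        -- some translate by `a₀` is good
        obtain ⟨i, hi⟩ : ∃ i : ℤ, ∀ y, ⁅g * h * a₀ ^ i, y⁆ ∈ Subgroup.zpowers (c (g * h)) :=
          exists_good (g * h)
        obtain ⟨y, hy⟩ := havoid g h
        have h1 : c y ^ (-i) ∈ span g h := by
          have h2 := hi y
          rw [commutator_mul_left hcen, commutator_mul_left hcen, hBa] at h2
          have h3 : Subgroup.zpowers (c (g * h)) ≤ span g h := Subgroup.zpowers_le.2 (by
            rw [map_mul]
            exact mul_mem (Subgroup.mem_sup_left (Subgroup.mem_zpowers _))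
              (Subgroup.mem_sup_right (Subgroup.mem_zpowers _)))
          exact (Subgroup.mul_mem_cancel_left _ (mul_mem (Subgroup.mem_sup_left (hg y))
            (Subgroup.mem_sup_right (hh y)))).1 (h3 h2)
        have h4 := zpow_eq_one_of_mem (span g h) (hcp y) hy h1
        intro z
        have h5 := hi z
        rw [commutator_mul_left hcen, hBa] at h5
        rwa [zpow_all hy h4 z, mul_one] at h5 }
  have hKZ : Z ≤ K := fun z hz y => by
    rw [commutatorElement_eq_one_iff_mul_comm.2 (Subgroup.mem_center_iff.1 hz y).symm]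
    exact Subgroup.one_mem _
  haveI hKn : K.Normal := ⟨fun k hk g => by
    have := mul_mem (hKZ (hcen g k)) hk
    rwa [commutatorElement_def, inv_mul_cancel_right] at this⟩
  have haK : ∀ j : ℤ, a₀ ^ j ∈ K → a₀ ^ j ∈ Z := fun j hj => by
    refine Subgroup.mem_center_iff.2 fun g => (commutatorElement_eq_one_iff_mul_comm.1 ?_).symm
    have := hj g
    rwa [hca, Subgroup.zpowers_one_eq_bot, Subgroup.mem_bot] at this
  have hKA : K ⊔ A = ⊤ := eq_top_iff.2 fun g _ => by
    obtain ⟨i, hi⟩ := exists_good g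
    have h1 : g * a₀ ^ i ∈ K := fun y => by rw [map_mul, hca, mul_one]; exact hi y
    have := Subgroup.mul_mem_sup (S := K) h1 (inv_mem (zpow_mem ha₀ i))
    rwa [mul_inv_cancel_right] at this
  have hKidx : K.index = p := by
    have hKA' : K ⊓ A = Z := by
      refine le_antisymm (fun a ha => ?_) (le_inf hKZ S.center_le)
      obtain ⟨k, hk⟩ := hrep a ha.2
      have h1 : a₀ ^ k ∈ K := by
        have haK' : a ∈ K := ha.1
        have := mul_mem (inv_mem haK') (hKZ hk)
        rwa [inv_mul_cancel_left] at this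
      have := mul_mem hk (inv_mem (haK k h1))
      rwa [mul_inv_cancel_right] at this
    rw [← Subgroup.relIndex_top_right, ← hKA, sup_comm, Subgroup.relIndex_sup_right,
      ← Subgroup.inf_relIndex_right, hKA', hrel]
  refine ⟨K, hKn, fun g hg h hh => ?_, hKidx⟩
  refine commutatorElement_eq_one_iff_mul_comm.1 ?_
  by_contra hne
  have h1 : ⁅g, h⁆ ∈ Subgroup.zpowers (c g) := hg h
  have h2 : ⁅g, h⁆ ∈ Subgroup.zpowers (c h) := by
    rw [← commutatorElement_inv]; exact inv_mem (hh g)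
  have h3 : c h ∈ Subgroup.zpowers (c g) := by
    by_contra hh'
    obtain ⟨k, hk⟩ := h2
    have hk' : c h ^ k = ⁅g, h⁆ := hk
    rw [← hk'] at h1 hne
    exact hne (zpow_eq_one_of_mem _ (hcp h) hh' h1)
  obtain ⟨j, hj⟩ := h3
  have hj' : c g ^ j = c h := hj
  have hmemA : (g ^ j)⁻¹ * h ∈ A := by
    rw [← hker, MonoidHom.mem_ker, map_mul, map_inv, map_zpow, hj', inv_mul_cancel]
  obtain ⟨k, hk⟩ := hrep _ hmemA
  set z := (g ^ j)⁻¹ * h * a₀ ^ k with hz
  have hh' : h = g ^ j * a₀ ^ (-k) * z := by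
    have hcomm : Commute (a₀ ^ (-k)) z := Subgroup.mem_center_iff.1 hk _
    rw [mul_assoc, hcomm.eq, hz]
    group
  have hBL : ∀ y, ⁅h, y⁆ = ⁅g, y⁆ ^ j * c y ^ k := fun y => by
    conv_lhs => rw [hh', (hcentral hk _ y).1, commutator_mul_left hcen, hBa, neg_neg]
    congr 1
    exact map_zpow (BL y) g j
  obtain ⟨y, hy⟩ := havoid g g
  have h4 : c y ^ k ∈ span g g := by
    have h5 : ⁅h, y⁆ ∈ span g g := Subgroup.zpowers_le.2 (by
      rw [← hj']; exact zpow_mem (Subgroup.mem_sup_left (Subgroup.mem_zpowers _)) j) (hh y)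
    rw [hBL] at h5
    exact (Subgroup.mul_mem_cancel_left _ (zpow_mem (Subgroup.mem_sup_left (hg y)) j)).1 h5
  have h6 := zpow_all hy (zpow_eq_one_of_mem (span g g) (hcp y) hy h4)
  have h7 := hBL g
  rw [h6, mul_one, commutatorElement_self, one_zpow] at h7
  apply hne
  rw [← commutatorElement_inv, h7, inv_one]

theorem charDegree_center (χ : IrrCharacter G) :
    charDegree (χ : G → ℂ) ∣ (Subgroup.center G).index ∧
      charDegree (χ : G → ℂ) ^ 2 ≤ (Subgroup.center G).index := by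
  classical
  haveI := Fintype.ofFinite G
  obtain ⟨n, ρ, hρ, hρχ⟩ := id χ.2
  have hnorm : ∀ z ∈ Subgroup.center G, ‖(χ : G → ℂ) z‖ = ((χ : G → ℂ) 1).re := by
    intro z hz
    rw [← hρχ, ρ.char_one, Complex.natCast_re]
    refine (norm_character_eq_iff ρ z).2 ?_
    exact exists_smul_of_commute ρ (ρ z) fun g => by
      show ρ z * ρ g = ρ g * ρ z
      rw [← map_mul, ← map_mul, Subgroup.mem_center_iff.1 hz g]
  obtain ⟨d, hd, hdvd⟩ := exists_degree_dvd_index_of_norm χ.2 (Subgroup.center G) hnorm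
  have hd' : charDegree (χ : G → ℂ) = d := by
    rw [charDegree_one] at hd
    exact_mod_cast hd
  refine ⟨hd' ▸ hdvd, ?_⟩
  have h1 := classInner_self_of_isIrr χ.2
  rw [classInner, inv_mul_eq_one₀ (Nat.cast_ne_zero.2 Nat.card_pos.ne')] at h1
  have h2 : (Nat.card G : ℝ) = ∑ g : G, ‖(χ : G → ℂ) g‖ ^ 2 := by
    have := congrArg Complex.re h1
    simp only [Complex.natCast_re, Complex.re_sum] at this
    rw [this]
    refine sum_congr rfl fun g _ => ?_
    rw [Complex.mul_conj', ← Complex.ofReal_pow, Complex.ofReal_re]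
  have h3 : ∑ z ∈ univ.filter (fun z => z ∈ Subgroup.center G), ‖(χ : G → ℂ) z‖ ^ 2 ≤ (Nat.card G : ℝ) :=
    h2 ▸ sum_le_univ_sum_of_nonneg (fun _ => by positivity)
  rw [sum_congr rfl (g := fun _ => (d : ℝ) ^ 2) (fun z hz => by
    rw [hnorm z (mem_filter.1 hz).2, hd, Complex.natCast_re]), sum_const, nsmul_eq_mul] at h3
  have h4 : (univ.filter (fun z => z ∈ Subgroup.center G)).card * d ^ 2 ≤ Nat.card G := by
    exact_mod_cast h3
  rw [← Fintype.card_subtype, ← Nat.card_eq_fintype_card, ← (Subgroup.center G).card_mul_index] at h4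
  rw [hd']
  exact Nat.le_of_mul_le_mul_left h4 Nat.card_pos

theorem iff_of_nonabelian (hG : ∃ a b : G, a * b ≠ b * a) (p : ℕ) (hp : p.Prime) :
    ((∀ χ : IrrCharacter G, charDegree (χ : G → ℂ) = 1 ∨ charDegree (χ : G → ℂ) = p) ∧
        ∃ χ : IrrCharacter G, charDegree (χ : G → ℂ) = p) ↔
      ((∃ A : Subgroup G, A.Normal ∧ (∀ a ∈ A, ∀ b ∈ A, a * b = b * a) ∧ A.index = p) ∨
        (Subgroup.center G).index = p ^ 3) := by
  classical
  haveI := Fact.mk hp
  constructor
  · rintro ⟨hdeg, -⟩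
    by_cases hab : ∃ A : Subgroup G, A.Normal ∧ (∀ a ∈ A, ∀ b ∈ A, a * b = b * a) ∧ A.index = p
    · exact Or.inl hab
    refine Or.inr ?_
    have hG' := TwoDegrees.commutator_comm p hp.two_le hdeg
    obtain ⟨A, hAs, hAmax⟩ := Finset.exists_max_image
      ((Set.toFinite {A : Subgroup G | commutator G ≤ A ∧ ∀ a ∈ A, ∀ b ∈ A, a * b = b * a}).toFinset)
      (fun A => Nat.card A) ⟨commutator G, (Set.Finite.mem_toFinset _).2 ⟨le_rfl, hG'⟩⟩
    obtain ⟨hcA, hAab⟩ := (Set.Finite.mem_toFinset _).1 hAs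
    have hder : ∀ x y : G, ⁅x, y⁆ ∈ A := fun x y =>
      hcA (Subgroup.commutator_mem_commutator (Subgroup.mem_top x) (Subgroup.mem_top y))
    haveI hAn : A.Normal := ⟨fun a ha g => by
      have := mul_mem (hder g a) ha
      rwa [commutatorElement_def, inv_mul_cancel_right] at this⟩
    have hC : ∀ g : G, (∀ a ∈ A, g * a = a * g) → g ∈ A := by
      intro g hg
      set B := A ⊔ Subgroup.zpowers g with hB
      have hBab : ∀ a ∈ B, ∀ b ∈ B, a * b = b * a := by
        have hgc : ∀ a ∈ B, ∀ b ∈ (A : Set G) ∪ {g}, a * b = b * a := by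
          intro a ha
          have : B ≤ Subgroup.centralizer ((A : Set G) ∪ {g}) := sup_le
            (fun x hx => Subgroup.mem_centralizer_iff.2 (by
              rintro y (hy | rfl)
              · exact hAab y hy x hx
              · exact hg x hx))
            (Subgroup.zpowers_le.2 (Subgroup.mem_centralizer_iff.2 (by
              rintro y (hy | rfl)
              · exact (hg y hy).symm
              · rfl)))
          exact fun b hb => (Subgroup.mem_centralizer_iff.1 (this ha) b hb).symm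
        intro a ha b hb
        have : B ≤ Subgroup.centralizer {a} := sup_le
          (fun x hx => Subgroup.mem_centralizer_iff.2 (by
            rintro y rfl; exact hgc y ha x (Or.inl hx)))
          (Subgroup.zpowers_le.2 (Subgroup.mem_centralizer_iff.2 (by
            rintro y rfl; exact hgc y ha g (Or.inr rfl))))
        exact Subgroup.mem_centralizer_iff.1 (this hb) a rfl
      have h1 := hAmax B ((Set.Finite.mem_toFinset _).2 ⟨hcA.trans le_sup_left, hBab⟩)
      rw [Subgroup.eq_of_le_of_card_ge (le_sup_left : A ≤ B) h1]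
      exact Subgroup.mem_sup_right (Subgroup.mem_zpowers g)
    have hAtop : A ≠ ⊤ := fun e => by
      obtain ⟨a, b, h⟩ := hG
      exact h (hAab a (e ▸ Subgroup.mem_top a) b (e ▸ Subgroup.mem_top b))
    have S : Setup p A := ⟨hAab, hC, hder, hdeg, fun e => hab ⟨A, hAn, hAab, e⟩⟩
    exact (S.dichotomy hAtop).resolve_right fun ⟨K, hK⟩ => hab ⟨K, hK⟩
  · intro h
    have hdeg : ∀ χ : IrrCharacter G, charDegree (χ : G → ℂ) = 1 ∨ charDegree (χ : G → ℂ) = p := by
      intro χ
      rcases h with ⟨A, hAn, hAab, hidx⟩ | hidx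
      · haveI := hAn
        obtain ⟨d, hd, hdvd⟩ := exists_degree_dvd_index_of_abelian χ.2 A hAab
        rw [charDegree_one] at hd
        rw [show charDegree (χ : G → ℂ) = d by exact_mod_cast hd]
        exact (Nat.dvd_prime hp).1 (hidx ▸ hdvd)
      · obtain ⟨h1, h2⟩ := charDegree_center χ
        rw [hidx] at h1 h2
        obtain ⟨j, -, hj⟩ := (Nat.dvd_prime_pow hp).1 h1
        rw [hj, ← pow_mul] at h2
        have := (Nat.pow_le_pow_iff_right hp.one_lt).1 h2
        have : j ≤ 1 := by omega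
        interval_cases j
        · exact Or.inl (by rw [hj, pow_zero])
        · exact Or.inr (by rw [hj, pow_one])
    refine ⟨hdeg, ?_⟩
    by_contra hc
    push Not at hc
    obtain ⟨a, b, hne⟩ := hG
    exact hne (comm_of_linear (fun χ => by
      rw [charDegree_one, (hdeg χ).resolve_right (hc χ), Nat.cast_one]) a b)

end CfsgLib.CharDegreesTheory.DegreesOneP
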