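import Mathlib
import Cfsg.Agent.Lib.Blocks.Idempotent
import Cfsg.Agent.Lib.BlockLocal.ClassFunctional
import Cfsg.Agent.Lib.BlockLocal.RegUnit
import Cfsg.Agent.Lib.Frobenius.Induce

/-!
The degrees of the block parts of an induced character.
-/

set_option autoImplicit false
set_option linter.style.haveILetI false
set_option linter.unusedSectionVars false

namespace CfsgLib.CharDegreesTheory

open Cfsg CfsgLib.CharTheory CfsgLib.Blocks CfsgLib.BlockLocal
open scoped ComplexConjugate

variable {G : Type*} [Group G] [Fintype G] {p : ℕ} [hp : Fact p.Prime] {M : Ideal AlgInt}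
  [M.IsPrime]

/-- Comparison of `p`-parts through a factor in the local ring. -/
theorem factorization_le_of_eq_mul (hM : IsPModular p M) {n D : ℕ} (hn : n ≠ 0) (hD : D ≠ 0)
    {u : ℂ} (hu : MemLocalRing M u) (h : (n : ℂ) = (D : ℂ) * u) :
    D.factorization p ≤ n.factorization p ∧
      (MemLocalIdeal M u ↔ D.factorization p < n.factorization p) := by
  have hu' : u = (n : ℂ) / (D : ℂ) := by
    rw [h, mul_div_cancel_left₀ _ (Nat.cast_ne_zero.2 hD)]
  have hle : D.factorization p ≤ n.factorization p := by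
    by_contra hlt
    push Not at hlt
    have h1 : MemLocalRing M ((D : ℂ) / (n : ℂ)) := memLocalRing_natCast_div hM hn hlt.le
    have h2 : ¬ MemLocalIdeal M u := not_memLocalIdeal_of_mul_eq_one h1 (by
      rw [hu', div_mul_div_comm, mul_comm (D : ℂ), div_self
        (mul_ne_zero (Nat.cast_ne_zero.2 hn) (Nat.cast_ne_zero.2 hD))])
    have h3 : ¬ MemLocalIdeal M ((D : ℂ) / (n : ℂ)) := not_memLocalIdeal_of_mul_eq_one hu (by
      rw [hu', div_mul_div_comm, mul_comm (n : ℂ), div_self
        (mul_ne_zero (Nat.cast_ne_zero.2 hD) (Nat.cast_ne_zero.2 hn))])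
    exact absurd (factorization_le_of_not_memLocalIdeal_div hM hn h3) (by omega)
  refine ⟨hle, fun h => ?_, fun h => ?_⟩
  · by_contra hnl
    push Not at hnl
    have h1 : MemLocalRing M ((D : ℂ) / (n : ℂ)) := memLocalRing_natCast_div hM hn hnl
    exact not_memLocalIdeal_of_mul_eq_one h1 (by
      rw [hu', div_mul_div_comm, mul_comm (D : ℂ), div_self
        (mul_ne_zero (Nat.cast_ne_zero.2 hn) (Nat.cast_ne_zero.2 hD))]) h
  · by_contra hnot
    rw [hu'] at hnot
    exact absurd (factorization_le_of_not_memLocalIdeal_div hM hD hnot) (by omega)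

/-- The degree of the `B`-part of an induced character. -/
theorem blockPart_indFun_one (_hM : IsPModular p M) {H : Subgroup G} [Fintype H]
    {b : Set (IrrCharacter H)} {B₀ : Set (IrrCharacter G)} (hind : IsInducedBlock M H b B₀)
    {ξ : IrrCharacter H} (hξ : ξ ∈ b) {B : Set (IrrCharacter G)} (hB : IsPBlock M B) :
    ∃ (n : ℕ) (u : ℂ), blockPart B (indFun H (ξ : H → ℂ)) 1 = (n : ℂ) ∧ MemLocalRing M u ∧
      (n : ℂ) = indFun H (ξ : H → ℂ) 1 * u ∧ (MemLocalIdeal M u ↔ B ≠ B₀) := by
  classical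
  haveI := Fintype.ofFinite (IrrCharacter G)
  have hξc := IsIrrCharacter.isCharacter ξ.2
  obtain ⟨a, ha⟩ := IsCharacter.exists_sum (CfsgLib.Frobenius.isCharacter_indFun H _ hξc)
  choose d _ hd using fun χ : IrrCharacter G => exists_degree_of_isIrr χ.2
  let e : G → ℂ := blockCoeff B
  have he : IsClassFunction G e := fun x c => blockCoeff_conj B c x
  have heS : ∀ g, MemLocalRing M (e g) := fun g => memLocalRing_blockCoeff hB g
  have hbp : blockPart B (indFun H (ξ : H → ℂ)) 1 =
      ((∑ χ : IrrCharacter G, if χ ∈ B then a χ * d χ else 0 : ℕ) : ℂ) := by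
    simp only [blockPart, finsum_mem_eq_finite_toFinset_sum _ B.toFinite]
    push_cast
    rw [← Finset.sum_filter]
    refine Finset.sum_congr (by ext; simp) fun χ _ => ?_
    rw [hd]
    congr 1
    rw [Subsingleton.elim (Fintype.ofFinite G) ‹Fintype G›, ha, classInner_sum_irr]
  set u : ℂ := (∑ h : H, e h * (ξ : H → ℂ) h) / (ξ : H → ℂ) 1 with hu
  obtain ⟨χ₀, hχ₀⟩ := isPBlock_nonempty hind.2.1
  have hcong := memLocalIdeal_sum_sub_of_isInducedBlock hind hξ hχ₀
    (IsIrrCharacter.isClassFunction χ₀.2) he heS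
  have hom : ∀ χ : IrrCharacter G,
      (∑ g, e g * (χ : G → ℂ) g) / (χ : G → ℂ) 1 = if χ ∈ B then 1 else 0 := fun χ => by
    rw [← omega_blockIdem B χ, omega_eq_sum]
    simp only [e, coeff_blockIdem, Finset.sum_div]
  rw [← hu, hom] at hcong
  have hiffB : χ₀ ∈ B ↔ B = B₀ :=
    ⟨fun h => isPBlock_eq_of_mem hB hind.2.1 h hχ₀, fun h => h ▸ hχ₀⟩
  have huR : MemLocalRing M u := by
    have h1 := memLocalRing_add (memLocalRing_of_memLocalIdeal hcong)
      (show MemLocalRing M ((if χ₀ ∈ B then (1 : ℕ) else 0 : ℕ) : ℂ) from memLocalRing_natCast _)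
    push_cast at h1
    rwa [sub_add_cancel] at h1
  refine ⟨_, u, hbp, huR, ?_, ⟨fun h hB' => ?_, fun h => ?_⟩⟩
  · have h1 : ∑ g, indFun H (ξ : H → ℂ) g * e g =
        ((∑ χ : IrrCharacter G, if χ ∈ B then a χ * d χ else 0 : ℕ) : ℂ) := by
      rw [ha]
      simp only [Finset.sum_apply, Pi.smul_apply, smul_eq_mul, Finset.sum_mul]
      rw [Finset.sum_comm]
      push_cast
      refine Finset.sum_congr rfl fun χ _ => ?_
      have h2 := hom χ
      rw [div_eq_iff (apply_one_ne_zero_of_isIrr χ.2)] at h2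
      rw [Finset.sum_congr rfl fun g _ => (by ring : (a χ : ℂ) * (χ : G → ℂ) g * e g =
        (a χ : ℂ) * (e g * (χ : G → ℂ) g)), ← Finset.mul_sum, h2, hd]
      split_ifs <;> simp
    have h3 := CfsgLib.Frobenius.classInner_indFun H (ξ : H → ℂ) (fun g => conj (e g))
      fun x c => congrArg conj (he x c)
    simp only [classInner, Complex.conj_conj] at h3
    rw [← h1, CfsgLib.Frobenius.indFun_one, hu, mul_assoc,
      mul_div_cancel₀ _ (apply_one_ne_zero_of_isIrr ξ.2)]
    rw [inv_mul_eq_iff_eq_mul₀ (Nat.cast_ne_zero.2 Nat.card_pos.ne'), ← H.card_mul_index] at h3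
    rw [h3, Finset.mul_sum, Finset.mul_sum, Finset.mul_sum]
    refine Finset.sum_congr rfl fun k _ => ?_
    have hH : (Nat.card H : ℂ) ≠ 0 := Nat.cast_ne_zero.2 Nat.card_pos.ne'
    push_cast
    field_simp
  · rw [if_pos (hiffB.2 hB')] at hcong
    exact not_memLocalIdeal_of_sub hcong not_memLocalIdeal_one h
  · rwa [if_neg fun h' => h (hiffB.1 h'), sub_zero] at hcong

end CfsgLib.CharDegreesTheory
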