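import Mathlib
import Cfsg.Agent.Lib.CharDegreesTheory.Blichfeldt
import Cfsg.Agent.Lib.CharDegreesTheory.CommutingPairs

/-!
Jordan's theorem with the bound `n! * 12 ^ (n * (π (n + 1) + 1))`.
-/

set_option autoImplicit false
set_option linter.style.haveILetI false

namespace CfsgLib.CharDegreesTheory

/-- Jordan's theorem for a finite linear group of degree `n`. -/
theorem exists_jordan_subgroup {G : Type*} [Group G] [Finite G] {n : ℕ}
    (ρ : Representation ℂ G (Fin n → ℂ)) (hinj : Function.Injective ρ) :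
    ∃ A : Subgroup G, A.Normal ∧ (∀ x ∈ A, ∀ y ∈ A, x * y = y * x) ∧
      A.index ≤ n.factorial * 12 ^ (n * (Nat.primeCounting (n + 1) + 1)) := by
  classical
  obtain ⟨A, hA, hAc, hAH⟩ := exists_blichfeldt_subgroup_of_rep ρ hinj
  refine ⟨A, hA, hAc, ?_⟩
  have hle : ∀ K : Subgroup G, A.index ∣ A.relIndex K * K.index := by
    intro K
    rw [← Subgroup.inf_relIndex_right A K, Subgroup.relIndex_mul_index inf_le_right]
    exact Subgroup.index_dvd_of_le inf_le_left
  set s := Nat.primesBelow (n + 2)
  set f := A.index.factorization with hf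
  have hne : A.index ≠ 0 := Subgroup.index_ne_zero_of_finite
  set S := ∏ p ∈ s, p ^ f p with hS
  have hSdvd : S ∣ A.index := by
    refine Finset.prod_dvd_of_isRelPrime ?_ fun p _ => Nat.ordProj_dvd _ p
    intro p hp q hq hpq
    exact Nat.coprime_iff_isRelPrime.mp ((Nat.coprime_primes (Nat.prime_of_mem_primesBelow hp)
      (Nat.prime_of_mem_primesBelow hq)).mpr hpq |>.pow _ _)
  have hp_le : ∀ p ∈ s, p ^ f p ≤ 12 ^ n * p ^ n.factorial.factorization p := by
    intro p hp
    have hpp := Nat.prime_of_mem_primesBelow hp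
    haveI : Fact p.Prime := ⟨hpp⟩
    obtain ⟨P⟩ := (Sylow.nonempty : Nonempty (Sylow p G))
    obtain ⟨B, hBP, hBc, hBdvd⟩ := exists_abelian_index_dvd_factorial ρ hinj P P.2
    have h1 : p ^ f p ≤ A.relIndex P := by
      refine Nat.le_of_dvd (Nat.pos_of_ne_zero Subgroup.index_ne_zero_of_finite) ?_
      refine (Nat.Coprime.pow_left _ ((hpp.coprime_iff_not_dvd).mpr P.not_dvd_index)).dvd_of_dvd_mul_right ?_
      exact (Nat.ordProj_dvd _ p).trans (hle P)
    have h2 : B.relIndex P ≤ p ^ n.factorial.factorization p := by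
      obtain ⟨k, hk⟩ := P.2.index (B.subgroupOf P)
      rw [Subgroup.relIndex, hk] at hBdvd ⊢
      exact Nat.pow_le_pow_right hpp.pos
        ((hpp.pow_dvd_iff_le_factorization (Nat.factorial_ne_zero n)).mp hBdvd)
    have h3 : A.relIndex P ≤ A.relIndex B * B.relIndex P := by
      have h4 : (A ⊓ B).relIndex P = A.relIndex B * B.relIndex P := by
        rw [← Subgroup.inf_relIndex_right A B, Subgroup.relIndex_mul_relIndex _ _ _ inf_le_right hBP]
      rw [← h4]
      exact Subgroup.relIndex_le_of_le_left inf_le_left Subgroup.index_ne_zero_of_finite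
    exact h1.trans (h3.trans (Nat.mul_le_mul (hAH B hBc) h2))
  have hSle : S ≤ 12 ^ (n * Nat.primeCounting (n + 1)) * n.factorial := by
    calc S ≤ ∏ p ∈ s, 12 ^ n * p ^ n.factorial.factorization p := Finset.prod_le_prod' hp_le
      _ = (12 ^ n) ^ s.card * ∏ p ∈ s, p ^ n.factorial.factorization p := by
          rw [Finset.prod_mul_distrib, Finset.prod_const]
      _ ≤ _ := by
          rw [← pow_mul, Nat.primesBelow_card_eq_primeCounting']
          refine Nat.mul_le_mul le_rfl (Nat.le_of_dvd (Nat.factorial_pos n) ?_)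
          refine Finset.prod_dvd_of_isRelPrime ?_ fun p _ => Nat.ordProj_dvd _ p
          intro p hp q hq hpq
          exact Nat.coprime_iff_isRelPrime.mp ((Nat.coprime_primes (Nat.prime_of_mem_primesBelow hp)
            (Nat.prime_of_mem_primesBelow hq)).mpr hpq |>.pow _ _)
  obtain ⟨T, hT⟩ := hSdvd
  have hT0 : T ≠ 0 := fun h => hne (by rw [hT, h, mul_zero])
  obtain ⟨H, hHc, -, hH3⟩ := exists_abelianHall ρ hinj
  have hTle : T ≤ 12 ^ n := by
    refine le_trans ?_ (hAH H hHc)
    refine Nat.le_of_dvd (Nat.pos_of_ne_zero Subgroup.index_ne_zero_of_finite) ?_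
    have hcop : T.Coprime H.index := by
      refine Nat.coprime_of_dvd fun p hp hpT hpH => ?_
      have hps : p ∈ s := Nat.mem_primesBelow.mpr ⟨by have := not_lt.mp (hH3 p hp hpH); omega, hp⟩
      have : p ^ (f p + 1) ∣ A.index := by
        rw [hT, pow_succ]
        exact Nat.mul_dvd_mul (Finset.dvd_prod_of_mem (fun p => p ^ f p) hps) hpT
      have := (hp.pow_dvd_iff_le_factorization hne).mp this
      rw [← hf] at this
      omega
    exact hcop.dvd_of_dvd_mul_right ((Dvd.intro_left S hT.symm).trans (hle H))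
  calc A.index = S * T := hT
    _ ≤ 12 ^ (n * Nat.primeCounting (n + 1)) * n.factorial * 12 ^ n := Nat.mul_le_mul hSle hTle
    _ = _ := by ring

end CfsgLib.CharDegreesTheory
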