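import Cfsg.Agent.Lib.BrauerCharacters.InvolutionSum
import Cfsg.Agent.Lib.BrauerPairs.BridgeDefect
import Cfsg.Agent.Lib.BrauerPairs.NormalP
import Cfsg.Agent.Lib.Blocks.Defect
import Mathlib.LinearAlgebra.Matrix.Rank

/-!
# Counting the blocks with a given normal defect group
-/

set_option autoImplicit false
set_option linter.style.haveILetI false
set_option linter.unusedSectionVars false

open scoped ComplexConjugate

noncomputable section

namespace CfsgLib.CharDegreesTheory

open Cfsg CfsgLib.Blocks CfsgLib.BrauerPairs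

variable {G : Type*} [Group G] [Fintype G] {p : ℕ} [hp : Fact p.Prime] {M : Ideal AlgInt}
  [hMp : M.IsPrime]

/-- A reduced central character on an element of the class algebra, class by class. -/
theorem omegaRes_eq_sum_classes [Fintype (ConjClasses G)] (χ : IrrCharacter G)
    (z : classAlg (Res M) G) :
    omegaRes M χ z = ∑ c : ConjClasses G, (z : MonoidAlgebra (Res M) G).coeff c.out *
      red M ⟨centralChar (χ : G → ℂ) c.out, memLocalRing_centralChar χ _⟩ := by
  have h : z = ∑ c : ConjClasses G,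
      (z : MonoidAlgebra (Res M) G).coeff c.out • classSumA (Res M) c.out := by
    apply Subtype.ext
    rw [AddSubmonoidClass.coe_finsetSum]
    exact IsClassElem.eq_sum_classSum z.2
  conv_lhs => rw [h]
  rw [map_sum]
  refine Finset.sum_congr rfl fun c _ => ?_
  rw [Algebra.smul_def, map_mul, omegaRes_algebraMap, omegaRes_classSumA]

/-- A natural number which is `p ^ k` times a local integer is divisible by `p ^ k`. -/
theorem pow_dvd_of_eq_mul_local (hM : IsPModular p M) (k : ℕ) {n : ℕ} {z : ℂ}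
    (hz : MemLocalRing M z) (h : (n : ℂ) = (p : ℂ) ^ k * z) : p ^ k ∣ n := by
  induction k generalizing n with
  | zero => simp
  | succ k ih =>
    have hn : p ∣ n := by
      rw [← memLocalIdeal_natCast_iff hM, h, pow_succ', mul_assoc]
      exact memLocalIdeal_mul_right ((memLocalIdeal_natCast_iff hM p).2 dvd_rfl)
        (memLocalRing_mul (show (p : ℂ) ^ k ∈ locRing M from pow_mem (memLocalRing_natCast (M := M) p) k) hz)
    obtain ⟨n', rfl⟩ := hn
    rw [pow_succ', mul_assoc, Nat.cast_mul] at h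
    rw [pow_succ']
    exact Nat.mul_dvd_mul_left p (ih (mul_left_cancel₀ (Nat.cast_ne_zero.2 hp.out.ne_zero) h))

variable (D : Subgroup G) [hDn : D.Normal]

/-- A normal `p`-subgroup which is a defect group contains the Sylow groups of every class in the
support of the block. -/
theorem exists_sylow_eq_of_support (hM : IsPModular p M) (hD : IsPGroup p D)
    {B : Set (IrrCharacter G)} (hB : IsPBlock M B) (hBD : IsDefectGroup p M B D) {x : G}
    (hx : ¬ MemLocalIdeal M (blockCoeff B x)) :
    ¬ p ∣ orderOf x ∧ ∃ Q : Sylow p (Subgroup.centralizer ({x} : Set G)),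
      (Q : Subgroup (Subgroup.centralizer ({x} : Set G))).map
        (Subgroup.centralizer ({x} : Set G)).subtype = D := by
  have := charP_res hM
  refine ⟨fun h => hx ?_, ?_⟩
  · rw [blockCoeff_eq_zero_of_dvd_orderOf hM hB h]
    exact memLocalIdeal_zero
  have hb := isBlockIdem_redElem_blockCoeff (M := M) hB
  have hxC : x ∈ Subgroup.centralizer (D : Set G) := by
    by_contra hc
    apply hx
    have h0 := mem_supp_cenIn_of_idem hD (le_top : D ≤ (⊤ : Subgroup G))
      (by rw [Subgroup.normalizer_eq_top]) hb.mem hb.mul_self x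
      (fun h => hc (Subgroup.mem_inf.1 h).2)
    rw [coeff_redElem] at h0
    exact (redC_eq_zero_iff (memLocalRing_blockCoeff hB x)).1 h0
  have hDx : D ≤ Subgroup.centralizer ({x} : Set G) := fun u hu =>
    Subgroup.mem_centralizer_singleton_iff.2 (Subgroup.mem_centralizer_iff.1 hxC u hu)
  obtain ⟨Q, hQ⟩ := exists_sylow_map_ge hD hDx
  refine ⟨Q, ?_⟩
  obtain ⟨g, hg, S, hS⟩ := hBD
  obtain ⟨χ, hχ⟩ := isPBlock_nonempty hB
  obtain ⟨a, ha⟩ := exists_conj_le_sylow hM hB hx hχ (hg.2.2 χ hχ) (isPGroup_sylow_map Q)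
    (sylow_map_le Q) S
  refine (Subgroup.eq_of_le_of_card_ge hQ ?_).symm
  rw [← card_map_conj _ a]
  exact Subgroup.card_le_of_le (hS ▸ ha)

/-- A normal `p`-subgroup is the defect group of every block invertible on a class whose
Sylow centralisers equal it. -/
theorem isDefectGroup_of_centralChar (hM : IsPModular p M) (hD : IsPGroup p D)
    {B : Set (IrrCharacter G)} (hB : IsPBlock M B) {χ : IrrCharacter G} (hχ : χ ∈ B) {x : G}
    (hω : ¬ MemLocalIdeal M (centralChar (χ : G → ℂ) x))
    (Q : Sylow p (Subgroup.centralizer ({x} : Set G)))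
    (hQ : (Q : Subgroup (Subgroup.centralizer ({x} : Set G))).map
      (Subgroup.centralizer ({x} : Set G)).subtype = D) :
    IsDefectGroup p M B D := by
  obtain ⟨E, hE⟩ := exists_isDefectGroup hM hB
  have hE' := hE
  obtain ⟨g, hg, S, rfl⟩ := hE
  obtain ⟨a, ha⟩ := exists_conj_le_sylow hM hB hg.2.1 hχ hω (isPGroup_sylow_map S)
    (sylow_map_le S) Q
  rw [hQ] at ha
  have hle : D ≤ (S : Subgroup (Subgroup.centralizer ({g} : Set G))).map
      (Subgroup.centralizer ({g} : Set G)).subtype :=
    (Cores.le_pCore hD).trans (pCore_le_isDefectGroup hM hB hE')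
  have heq := Subgroup.eq_of_le_of_card_ge hle (by
    rw [← card_map_conj _ a]
    exact Subgroup.card_le_of_le ha)
  rwa [heq]

/-- The number of blocks with normal defect group `D` is the rank of Robinson's matrix, over the
residue field. -/
theorem card_blocks_eq_rank (hM : IsPModular p M) (hD : IsPGroup p D) (S : Sylow p G)
    {ι : Type*} [Fintype ι] [DecidableEq ι] (K : ι → ConjClasses G) (hKinj : Function.Injective K)
    (hK : ∀ C : ConjClasses G, (∃ i, K i = C) ↔ ∃ x ∈ C.carrier, ¬ p ∣ orderOf x ∧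
      ∃ Q : Sylow p (Subgroup.centralizer ({x} : Set G)),
        (Q : Subgroup (Subgroup.centralizer ({x} : Set G))).map
          (Subgroup.centralizer ({x} : Set G)).subtype = D)
    (c : ι → ι → ℕ)
    (hc : ∀ i j, Nat.card {yz : G × G // yz.1 ∈ (K i).carrier ∧ yz.2 ∈ (K j).carrier ∧
      yz.2 * yz.1⁻¹ ∈ (S : Subgroup G)} / p ^ ((Nat.card G).factorization p -
        (Nat.card D).factorization p) = c i j) :
    Nat.card {B : Set (IrrCharacter G) // IsPBlock M B ∧ IsDefectGroup p M B D} =
      (Matrix.of fun i j : ι => ((c i j : ℕ) : Res M)).rank := by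
  classical
  have := charP_res hM
  have := Fintype.ofFinite (IrrCharacter G)
  have := Fintype.ofFinite (ConjClasses G)
  set Bl := {B : Set (IrrCharacter G) // IsPBlock M B ∧ IsDefectGroup p M B D}
  have : Fintype Bl := Fintype.ofFinite _
  choose rep hrep using fun B : Bl => isPBlock_nonempty B.2.1
  set a := (Nat.card G).factorization p with ha
  set d := (Nat.card D).factorization p with hd
  set x : ι → G := fun i => (K i).out with hx
  have hxK : ∀ i, ConjClasses.mk (x i) = K i := fun i => Quotient.out_eq _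
  -- the Sylow subgroups of the listed centralisers
  have hxQ : ∀ i, ¬ p ∣ orderOf (x i) ∧ ∃ Q : Sylow p (Subgroup.centralizer ({x i} : Set G)),
      (Q : Subgroup (Subgroup.centralizer ({x i} : Set G))).map
        (Subgroup.centralizer ({x i} : Set G)).subtype = D := by
    intro i
    obtain ⟨y, hy, hreg, Q, hQ⟩ := (hK (K i)).1 ⟨i, rfl⟩
    rw [ConjClasses.mem_carrier_iff_mk_eq, ← hxK i, ConjClasses.mk_eq_mk_iff_isConj] at hy
    obtain ⟨g, hg⟩ := isConj_iff.1 hy
    refine ⟨?_, ?_⟩
    · rwa [← (show orderOf (g * y * g⁻¹) = orderOf y from (MulAut.conj g).orderOf_eq _), hg] at hreg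
    have hDc : D ≤ Subgroup.centralizer ({x i} : Set G) := by
      intro u hu
      have h1 : g⁻¹ * u * g⁻¹⁻¹ ∈ D := hDn.conj_mem u hu g⁻¹
      rw [inv_inv, ← hQ] at h1
      obtain ⟨v, -, hv⟩ := h1
      have h2 := Subgroup.mem_centralizer_singleton_iff.1 v.2
      rw [Subgroup.subtype_apply] at hv
      rw [hv] at h2
      rw [Subgroup.mem_centralizer_singleton_iff, ← hg]
      calc u * (g * y * g⁻¹) = g * (g⁻¹ * u * g * y) * g⁻¹ := by group
        _ = g * y * g⁻¹ * u := by rw [h2]; group
    obtain ⟨Q', hQ'⟩ := exists_sylow_map_ge hD hDc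
    refine ⟨Q', (Subgroup.eq_of_le_of_card_ge hQ' ?_).symm⟩
    rw [← hQ, card_sylow_map, card_sylow_map,
      ← hg]
    refine le_of_eq ?_
    congr 3
    refine Nat.card_congr ?_
    refine
      { toFun := fun u => ⟨g⁻¹ * u * g, ?_⟩
        invFun := fun u => ⟨g * u * g⁻¹, ?_⟩
        left_inv := fun u => Subtype.ext (by simp [mul_assoc])
        right_inv := fun u => Subtype.ext (by simp [mul_assoc]) }
    · have h := Subgroup.mem_centralizer_singleton_iff.1 u.2
      rw [Subgroup.mem_centralizer_singleton_iff]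
      calc g⁻¹ * u * g * y = g⁻¹ * (u * (g * y * g⁻¹)) * g := by group
        _ = y * (g⁻¹ * u * g) := by rw [h]; group
    · have h := Subgroup.mem_centralizer_singleton_iff.1 u.2
      rw [Subgroup.mem_centralizer_singleton_iff]
      calc g * u * g⁻¹ * (g * y * g⁻¹) = g * (u * y) * g⁻¹ := by group
        _ = g * y * g⁻¹ * (g * u * g⁻¹) := by rw [h]; group
  have hfac : ∀ i, (Nat.card (Subgroup.centralizer ({x i} : Set G))).factorization p = d := by
    intro i
    obtain ⟨-, Q, hQ⟩ := hxQ i
    rw [hd, ← hQ, card_sylow_map,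
      Nat.Prime.factorization_pow hp.out, Finsupp.single_eq_same]
  have hda : d ≤ a := (Nat.factorization_le_iff_dvd Nat.card_pos.ne' Nat.card_pos.ne').2
    (Subgroup.card_subgroup_dvd_card D) p
  -- the unit factors
  set u : ι → ℂ := fun j => ((Subgroup.centralizer ({x j} : Set G)).index : ℂ) /
    (Nat.card G : ℂ) * (p : ℂ) ^ d with hu
  have huq : ∀ j, u j = ((ordCompl[p] (Nat.card (Subgroup.centralizer ({x j} : Set G))) : ℕ) : ℂ)⁻¹ := by
    intro j
    rw [hfac j]
    have hC := Nat.ordProj_mul_ordCompl_eq_self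
      (Nat.card (Subgroup.centralizer ({x j} : Set G))) p
    rw [hfac j] at hC
    have hGC := (Subgroup.centralizer ({x j} : Set G)).card_mul_index
    simp only [hu]
    rw [← hGC]
    nth_rw 1 [← hC]
    push_cast
    have h1 : ((Subgroup.centralizer ({x j} : Set G)).index : ℂ) ≠ 0 :=
      Nat.cast_ne_zero.2 Subgroup.index_ne_zero_of_finite
    have h2 : (p : ℂ) ≠ 0 := Nat.cast_ne_zero.2 hp.out.ne_zero
    have h3 : ((ordCompl[p] (Nat.card (Subgroup.centralizer ({x j} : Set G))) : ℕ) : ℂ) ≠ 0 :=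
      Nat.cast_ne_zero.2 (Nat.ordCompl_pos p Nat.card_pos.ne').ne'
    rw [hfac j] at h3
    field_simp
  have huS : ∀ j, MemLocalRing M (u j) := fun j => by
    rw [huq j]
    exact memLocalRing_inv_natCast hM (Nat.not_dvd_ordCompl hp.out Nat.card_pos.ne')
  have hu0 : ∀ j, red M ⟨u j, huS j⟩ ≠ 0 := fun j => by
    rw [red_ne_zero_iff]
    refine not_memLocalIdeal_of_mul_eq_one
      (y := ((ordCompl[p] (Nat.card (Subgroup.centralizer ({x j} : Set G))) : ℕ) : ℂ))
      (memLocalRing_natCast _) ?_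
    show u j * _ = 1
    rw [huq j, inv_mul_cancel₀ (Nat.cast_ne_zero.2 (Nat.ordCompl_pos p Nat.card_pos.ne').ne')]
  -- the multiplicity of the trivial character of `S`
  have hSp : Nat.card S = p ^ a := by rw [ha, S.card_eq_multiplicity]
  have : Fintype (S : Subgroup G) := Fintype.ofFinite _
  have hm : ∀ χ : IrrCharacter G, ∃ m : ℕ,
      ∑ s : (S : Subgroup G), (χ : G → ℂ) s = (p : ℂ) ^ a * (m : ℂ) := by
    intro χ
    obtain ⟨m, hm⟩ := CharTheory.IsCharacter.exists_classInner_eq_nat
      (Coherence.isCharacter_comp (CharTheory.IsIrrCharacter.isCharacter χ.2)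
        (S : Subgroup G).subtype) (CharTheory.trivIrr (S : Subgroup G))
    refine ⟨m, ?_⟩
    rw [← hm, classInner, show (Nat.card (S : Subgroup G) : ℂ) = (p : ℂ) ^ a by
      exact_mod_cast hSp, mul_inv_cancel_left₀ (pow_ne_zero _ (Nat.cast_ne_zero.2 hp.out.ne_zero))]
    exact Finset.sum_congr rfl fun s _ => by simp [CharTheory.trivIrr_apply]
  choose m hm using hm
  -- the counting formula
  have hcount : ∀ i j, ((Nat.card {yz : G × G // yz.1 ∈ (K i).carrier ∧ yz.2 ∈ (K j).carrier ∧
      yz.2 * yz.1⁻¹ ∈ (S : Subgroup G)} : ℕ) : ℂ) = (p : ℂ) ^ (a - d) *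
        ∑ χ : IrrCharacter G, centralChar (χ : G → ℂ) (x i) *
          (u j * conj ((χ : G → ℂ) (x j)) * (m χ : ℂ)) := by
    intro i j
    have h := BrauerCharacters.sum_weight_pairs (x i) (x j)
      (fun g => if g ∈ (S : Subgroup G) then (1 : ℂ) else 0)
    have hS : ∀ f : G → ℂ, ∑ g, (if g ∈ (S : Subgroup G) then (1 : ℂ) else 0) * f g =
        ∑ s : (S : Subgroup G), f s := by
      intro f
      simp only [ite_mul, one_mul, zero_mul]
      rw [← Finset.sum_filter]
      exact Finset.sum_subtype _ (fun g => by simp) _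
    simp only [hS, hm] at h
    have hlhs : ((Nat.card {yz : G × G // yz.1 ∈ (K i).carrier ∧ yz.2 ∈ (K j).carrier ∧
        yz.2 * yz.1⁻¹ ∈ (S : Subgroup G)} : ℕ) : ℂ) = ∑ s : (S : Subgroup G),
          ((Finset.univ.filter fun y => IsConj (x i) y ∧ IsConj (x j) (y * (s : G))).card : ℂ) := by
      rw [← Nat.cast_sum]
      congr 1
      rw [← Finset.card_sigma, ← Fintype.card_coe, ← Nat.card_eq_fintype_card]
      refine Nat.card_congr ?_
      have hmem : ∀ (l : ι) (y : G), y ∈ (K l).carrier ↔ IsConj (x l) y := fun l y => by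
        rw [ConjClasses.mem_carrier_iff_mk_eq, ← hxK l, ConjClasses.mk_eq_mk_iff_isConj, isConj_comm]
      refine
        { toFun := fun q => ⟨⟨⟨q.1.2 * q.1.1⁻¹, q.2.2.2⟩, q.1.1⟩, ?_⟩
          invFun := fun q => ⟨(q.1.2, (q.1.1 : G) * q.1.2), ?_⟩
          left_inv := fun q => Subtype.ext (Prod.ext rfl (by simp))
          right_inv := fun q => Subtype.ext (Sigma.ext (Subtype.ext (by simp)) (by simp)) }
      · refine Finset.mem_sigma.2 ⟨Finset.mem_univ _, Finset.mem_filter.2
          ⟨Finset.mem_univ _, (hmem i _).1 q.2.1, ?_⟩⟩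
        refine ((hmem j _).1 q.2.2.1).trans ?_
        exact isConj_iff.2 ⟨q.1.1, by group⟩
      · obtain ⟨-, hq⟩ := Finset.mem_sigma.1 q.2
        obtain ⟨-, h1, h2⟩ := Finset.mem_filter.1 hq
        refine ⟨(hmem i _).2 h1, (hmem j _).2 (h2.trans ?_), ?_⟩
        · exact isConj_iff.2 ⟨q.1.2⁻¹, by group⟩
        · simp
    rw [hlhs]
    refine Eq.trans ?_ (h.trans ?_)
    · congr!
    rw [Finset.mul_sum, Finset.mul_sum]
    refine Finset.sum_congr rfl fun χ _ => ?_
    rw [hu, show (p : ℂ) ^ a = (p : ℂ) ^ (a - d) * (p : ℂ) ^ d by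
      rw [← pow_add, Nat.sub_add_cancel hda]]
    ring
  -- each summand is local
  have hTloc : ∀ j (χ : IrrCharacter G),
      MemLocalRing M (u j * conj ((χ : G → ℂ) (x j)) * (m χ : ℂ)) := fun j χ =>
    memLocalRing_mul (memLocalRing_mul (huS j)
      (memLocalRing_of_isIntegral (BrauerCharacters.isIntegral_conj_apply χ _)))
      (memLocalRing_natCast _)
  have hA : ∀ i j, ((c i j : ℕ) : Res M) = ∑ χ : IrrCharacter G,
      red M ⟨centralChar (χ : G → ℂ) (x i), memLocalRing_centralChar χ _⟩ *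
        red M ⟨_, hTloc j χ⟩ := by
    intro i j
    set z : locRing M := ∑ χ : IrrCharacter G,
      (⟨centralChar (χ : G → ℂ) (x i), memLocalRing_centralChar χ _⟩ : locRing M) * ⟨_, hTloc j χ⟩
    have hz : ((c i j : ℕ) : ℂ) = (z : ℂ) := by
      have hcast : (z : ℂ) = ∑ χ : IrrCharacter G, centralChar (χ : G → ℂ) (x i) *
          (u j * conj ((χ : G → ℂ) (x j)) * (m χ : ℂ)) := by
        simp [z]
      have h := hcount i j
      rw [← hcast] at h
      set n := Nat.card {yz : G × G // yz.1 ∈ (K i).carrier ∧ yz.2 ∈ (K j).carrier ∧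
        yz.2 * yz.1⁻¹ ∈ (S : Subgroup G)}
      have hdvd : p ^ (a - d) ∣ n := pow_dvd_of_eq_mul_local hM (a - d) z.2 h
      rw [← hc i j, Nat.cast_div hdvd (by exact_mod_cast pow_ne_zero _ hp.out.ne_zero),
        h, Nat.cast_pow, mul_div_cancel_left₀]
      exact pow_ne_zero _ (Nat.cast_ne_zero.2 hp.out.ne_zero)
    rw [← map_natCast (red M), show ((c i j : ℕ) : locRing M) = z from Subtype.ext (by
      push_cast; exact hz), map_sum]
    exact Finset.sum_congr rfl fun χ _ => map_mul _ _ _
  set e : ℕ := ordCompl[p] (Nat.card G) with he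
  -- the sum over a block
  have hblockSum : ∀ (B : Bl) j, (∑ χ : IrrCharacter G, if χ ∈ B.1 then
      u j * conj ((χ : G → ℂ) (x j)) * (m χ : ℂ) else 0) =
        u j * (e : ℂ) * blockCoeff B.1 (x j) := by
    intro B j
    have hGe : (Nat.card G : ℂ) = (p : ℂ) ^ a * (e : ℂ) := by
      have := Nat.ordProj_mul_ordCompl_eq_self (Nat.card G) p
      exact_mod_cast this.symm
    have hsum : ∀ s : (S : Subgroup G),
        (∑ χ : IrrCharacter G, if χ ∈ B.1 then (χ : G → ℂ) s * conj ((χ : G → ℂ) (x j)) else 0) =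
          if s = 1 then (Nat.card G : ℂ) * blockCoeff B.1 (x j) else 0 := by
      intro s
      by_cases hs : s = 1
      · subst hs
        rw [if_pos rfl, blockCoeff_eq_sum, mul_inv_cancel_left₀
          (Nat.cast_ne_zero.2 Nat.card_pos.ne')]
        rfl
      · rw [if_neg hs, ← finsum_mem_irr_eq_sum B.1
          (fun χ => (χ : G → ℂ) s * conj ((χ : G → ℂ) (x j)))]
        have hps : p ∣ orderOf (s : G) := by
          obtain ⟨k, hk⟩ := S.isPGroup' s
          obtain ⟨l, -, hl⟩ := (Nat.dvd_prime_pow hp.out).1 (orderOf_dvd_of_pow_eq_one hk)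
          rw [Subgroup.orderOf_coe, hl]
          refine dvd_pow_self p fun hl0 => hs (orderOf_eq_one_iff.1 ?_)
          rw [hl, hl0, pow_zero]
        have h0 := finsum_mul_conj_eq_zero_of_isPBlock hM B.2.1 (hxQ j).1 hps
        have h1 := congrArg conj h0
        rw [map_zero] at h1
        rw [← h1, finsum_mem_irr_eq_sum, finsum_mem_irr_eq_sum, map_sum]
        refine Finset.sum_congr rfl fun χ _ => ?_
        split_ifs with h
        · rw [map_mul, Complex.conj_conj, mul_comm]
        · rw [map_zero]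
    apply mul_left_cancel₀ (pow_ne_zero a (Nat.cast_ne_zero.2 hp.out.ne_zero) : (p : ℂ) ^ a ≠ 0)
    calc (p : ℂ) ^ a * ∑ χ : IrrCharacter G, (if χ ∈ B.1 then
          u j * conj ((χ : G → ℂ) (x j)) * (m χ : ℂ) else 0)
        = u j * ∑ χ : IrrCharacter G, (if χ ∈ B.1 then
            (∑ s : (S : Subgroup G), (χ : G → ℂ) s) * conj ((χ : G → ℂ) (x j)) else 0) := by
          rw [Finset.mul_sum, Finset.mul_sum]
          refine Finset.sum_congr rfl fun χ _ => ?_
          rw [hm χ]
          split_ifs <;> ring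
      _ = u j * ∑ s : (S : Subgroup G), ∑ χ : IrrCharacter G,
            (if χ ∈ B.1 then (χ : G → ℂ) s * conj ((χ : G → ℂ) (x j)) else 0) := by
          rw [Finset.sum_comm]
          congr 1
          refine Finset.sum_congr rfl fun χ _ => ?_
          by_cases h : χ ∈ B.1
          · simp only [if_pos h, Finset.sum_mul]
          · simp only [if_neg h, Finset.sum_const_zero]
      _ = u j * ((Nat.card G : ℂ) * blockCoeff B.1 (x j)) := by
          rw [Finset.sum_congr rfl fun s _ => hsum s, Finset.sum_ite_eq' Finset.univ 1,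
            if_pos (Finset.mem_univ _)]
      _ = _ := by rw [hGe]; ring
  -- the three matrices
  set W : Matrix ι Bl (Res M) := Matrix.of fun i B =>
    red M ⟨centralChar (rep B : G → ℂ) (x i), memLocalRing_centralChar (rep B) _⟩ with hW
  set C : Matrix Bl ι (Res M) := Matrix.of fun B i =>
    red M ⟨blockCoeff B.1 (x i), memLocalRing_blockCoeff B.2.1 _⟩ with hC
  set w : ι → Res M := fun j => red M ⟨u j, huS j⟩ * (e : Res M) with hw
  have hw0 : ∀ j, w j ≠ 0 := fun j => mul_ne_zero (hu0 j) (by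
    rw [Ne, CharP.cast_eq_zero_iff (Res M) p]
    exact Nat.not_dvd_ordCompl hp.out Nat.card_pos.ne')
  set V : Matrix Bl ι (Res M) := Matrix.of fun B j => w j * C B j with hV
  set R : Matrix ι Bl (Res M) := Matrix.of fun j B => (w j)⁻¹ * W j B with hR
  have hωB : ∀ (B : Bl) (χ : IrrCharacter G), χ ∈ B.1 → ∀ g,
      red M ⟨centralChar (χ : G → ℂ) g, memLocalRing_centralChar χ _⟩ =
        red M ⟨centralChar (rep B : G → ℂ) g, memLocalRing_centralChar (rep B) _⟩ := by
    intro B χ hχ g
    rw [← omegaRes_classSumA, ← omegaRes_classSumA,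
      (omegaRes_eq_iff M χ (rep B)).2 (sameBlock_of_mem B.2.1 hχ (hrep B))]
  have hunique : ∀ (B B' : Bl) (χ : IrrCharacter G), χ ∈ B.1 → χ ∈ B'.1 → B = B' :=
    fun B B' χ h h' => Subtype.ext (isPBlock_eq_of_mem B.2.1 B'.2.1 h h')
  have hAWV : (Matrix.of fun i j : ι => ((c i j : ℕ) : Res M)) = W * V := by
    ext i j
    rw [Matrix.of_apply, hA i j, Matrix.mul_apply]
    have hsplit : ∀ χ : IrrCharacter G,
        red M ⟨centralChar (χ : G → ℂ) (x i), memLocalRing_centralChar χ _⟩ *
          red M ⟨_, hTloc j χ⟩ = ∑ B : Bl, if χ ∈ B.1 then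
            red M ⟨centralChar (rep B : G → ℂ) (x i), memLocalRing_centralChar (rep B) _⟩ *
              red M ⟨_, hTloc j χ⟩ else 0 := by
      intro χ
      by_cases h : ∃ B : Bl, χ ∈ B.1
      · obtain ⟨B, hχ⟩ := h
        rw [Finset.sum_eq_single B (fun B' _ hne => if_neg fun h' => hne (hunique B' B χ h' hχ))
          (fun h => absurd (Finset.mem_univ _) h), if_pos hχ, hωB B χ hχ]
      · rw [Finset.sum_eq_zero fun B _ => if_neg fun h' => h ⟨B, h'⟩]
        obtain ⟨hreg, Q, hQ⟩ := hxQ i
        by_cases hω : MemLocalIdeal M (centralChar (χ : G → ℂ) (x i))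
        · rw [(red_eq_zero_iff _).2 hω, zero_mul]
        · exact absurd ⟨⟨blockOf M (χ : G → ℂ), isPBlock_blockOf χ,
            isDefectGroup_of_centralChar D hM hD (isPBlock_blockOf χ) (mem_blockOf_self χ) hω Q hQ⟩,
            mem_blockOf_self χ⟩ h
    rw [Finset.sum_congr rfl fun χ _ => hsplit χ, Finset.sum_comm]
    refine Finset.sum_congr rfl fun B _ => ?_
    simp only [hW, hV, hC, hw, Matrix.of_apply]
    have hzero : ∀ χ : IrrCharacter G, MemLocalRing M
        (if χ ∈ B.1 then u j * conj ((χ : G → ℂ) (x j)) * (m χ : ℂ) else 0) := fun χ => by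
      split_ifs
      · exact hTloc j χ
      · exact memLocalRing_of_memLocalIdeal memLocalIdeal_zero
    have hEq : (∑ χ : IrrCharacter G, (⟨_, hzero χ⟩ : locRing M)) =
        (⟨u j, huS j⟩ : locRing M) * (e : locRing M) *
          ⟨blockCoeff B.1 (x j), memLocalRing_blockCoeff B.2.1 _⟩ := by
      apply Subtype.ext
      rw [AddSubmonoidClass.coe_finsetSum]
      push_cast
      exact hblockSum B j
    rw [← map_natCast (red M), ← map_mul, ← map_mul, ← hEq, map_sum, Finset.mul_sum]
    refine Finset.sum_congr rfl fun χ _ => ?_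
    by_cases h : χ ∈ B.1
    · rw [if_pos h]
      congr 2
      exact Subtype.ext (if_pos h).symm
    · have h0 : red M (⟨_, hzero χ⟩ : locRing M) = 0 :=
        (red_eq_zero_iff _).2 (show MemLocalIdeal M (if _ then _ else _) by
          rw [if_neg h]; exact memLocalIdeal_zero)
      rw [h0, if_neg h, mul_zero]
  have hCW : ∀ B B' : Bl, ∑ i, C B i * W i B' = (1 : Matrix Bl Bl (Res M)) B B' := by
    intro B B'
    have h1 := omegaRes_eq_sum_classes (rep B') (idemRes M B.1 (memLocalRing_blockCoeff B.2.1))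
    have h2 : omegaRes M (rep B') (idemRes M B.1 (memLocalRing_blockCoeff B.2.1)) =
        (1 : Matrix Bl Bl (Res M)) B B' := by
      by_cases h : B = B'
      · subst h
        rw [omegaRes_idemRes_of_mem _ (hrep B), Matrix.one_apply_eq]
      · rw [omegaRes_idemRes_of_notMem _ (fun h' => h (hunique B B' _ h' (hrep B'))),
          Matrix.one_apply_ne h]
    rw [← h2, h1]
    refine Fintype.sum_of_injective K hKinj _ _ (fun Cl hCl => ?_) (fun i => ?_)
    · rw [coeff_idemRes]
      suffices h : MemLocalIdeal M (blockCoeff B.1 Cl.out) by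
        rw [(red_eq_zero_iff _).2 h, zero_mul]
      by_contra h
      obtain ⟨hreg, Q, hQ⟩ := exists_sylow_eq_of_support D hM hD B.2.1 B.2.2 h
      exact hCl ((hK Cl).2 ⟨Cl.out, by rw [ConjClasses.mem_carrier_iff_mk_eq]; exact Quotient.out_eq _,
        hreg, Q, hQ⟩)
    · rw [coeff_idemRes]
      rfl
  have hCW1 : C * W = 1 := by
    ext B B'
    exact hCW B B'
  have hVR1 : V * R = 1 := by
    ext B B'
    rw [Matrix.mul_apply, ← hCW B B']
    refine Finset.sum_congr rfl fun j _ => ?_
    simp only [hV, hR, Matrix.of_apply]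
    rw [mul_mul_mul_comm, mul_inv_cancel₀ (hw0 j), one_mul]
  rw [hAWV, Nat.card_eq_fintype_card]
  refine le_antisymm ?_ ((Matrix.rank_mul_le_left _ _).trans (Matrix.rank_le_card_width _))
  calc Fintype.card Bl = (1 : Matrix Bl Bl (Res M)).rank := Matrix.rank_one.symm
    _ = ((C * (W * V)) * R).rank := by
        rw [← Matrix.mul_assoc C, hCW1, Matrix.one_mul, hVR1]
    _ ≤ (C * (W * V)).rank := Matrix.rank_mul_le_left _ _
    _ ≤ (W * V).rank := Matrix.rank_mul_le_right _ _

end CfsgLib.CharDegreesTheory
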