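import Mathlib.LinearAlgebra.Matrix.Rank
import Mathlib.LinearAlgebra.Matrix.ToLin
import Mathlib.Algebra.Module.Projective

/-!
# The rank of a matrix does not change under a field extension
-/

set_option autoImplicit false

namespace CfsgLib.CharDegreesTheory

open Matrix

theorem rank_map_fieldHom {m n F K : Type*} [Fintype m] [Fintype n] [DecidableEq m] [DecidableEq n]
    [Field F] [Field K] (f : F →+* K) (A : Matrix m n F) : (A.map f).rank = A.rank := by
  set W := LinearMap.range A.mulVecLin
  have b := Module.finBasisOfFinrankEq F W (show Module.finrank F W = A.rank from rfl)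
  set e := b.equivFun
  set P : Matrix m (Fin A.rank) F := LinearMap.toMatrix' (W.subtype.comp e.symm.toLinearMap)
  set Q : Matrix (Fin A.rank) n F :=
    LinearMap.toMatrix' (e.toLinearMap.comp A.mulVecLin.rangeRestrict)
  have hA : P * Q = A := by
    rw [← LinearMap.toMatrix'_comp]
    conv_rhs => rw [← LinearMap.toMatrix'_toLin' A]
    congr 1
    refine LinearMap.ext fun v => ?_
    show ((e.symm (e (A.mulVecLin.rangeRestrict v))) : m → F) = _
    rw [LinearEquiv.symm_apply_apply]
    rfl
  obtain ⟨L, hL⟩ := (W.subtype.comp e.symm.toLinearMap).exists_leftInverse_of_injective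
    (LinearMap.ker_eq_bot.2 (Subtype.val_injective.comp e.symm.injective))
  obtain ⟨R, hR⟩ := (e.toLinearMap.comp A.mulVecLin.rangeRestrict).exists_rightInverse_of_surjective
    (LinearMap.range_eq_top.2 (e.surjective.comp A.mulVecLin.surjective_rangeRestrict))
  have hLP : LinearMap.toMatrix' L * P = 1 := by
    rw [← LinearMap.toMatrix'_comp, hL, LinearMap.toMatrix'_id]
  have hQR : Q * LinearMap.toMatrix' R = 1 := by
    rw [← LinearMap.toMatrix'_comp, hR, LinearMap.toMatrix'_id]
  refine le_antisymm ?_ ?_
  · rw [← hA, Matrix.map_mul]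
    calc (P.map f * Q.map f).rank ≤ (P.map f).rank := rank_mul_le_left _ _
      _ ≤ Fintype.card (Fin A.rank) := rank_le_card_width _
      _ = (P * Q).rank := by rw [Fintype.card_fin, hA]
  · have h1 : (LinearMap.toMatrix' L).map f * A.map f * (LinearMap.toMatrix' R).map f = 1 := by
      have h0 : LinearMap.toMatrix' L * A * LinearMap.toMatrix' R = 1 :=
        (congrArg (fun X => LinearMap.toMatrix' L * X * LinearMap.toMatrix' R) hA.symm).trans (by
          show LinearMap.toMatrix' L * (P * Q) * LinearMap.toMatrix' R = 1
          rw [← Matrix.mul_assoc, hLP, Matrix.one_mul, hQR])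
      rw [← Matrix.map_mul, ← Matrix.map_mul, h0, Matrix.map_one _ (map_zero f) (map_one f)]
    calc A.rank = Fintype.card (Fin A.rank) := (Fintype.card_fin _).symm
      _ = (1 : Matrix (Fin A.rank) (Fin A.rank) K).rank := rank_one.symm
      _ ≤ ((LinearMap.toMatrix' L).map f * A.map f).rank := by
          rw [← h1]; exact rank_mul_le_left _ _
      _ ≤ (A.map f).rank := rank_mul_le_right _ _

end CfsgLib.CharDegreesTheory
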