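import Mathlib
import Cfsg.Agent.Lib.CharDegreesTheory.GoodCharacters
import Cfsg.Agent.Lib.CharTheory.Ito
import Cfsg.Agent.Lib.Clifford.Basic
import Cfsg.Agent.Lib.PSolvable.Basic

/-!
# Canonical lifts in `p`-solvable groups

For a `p`-solvable group there is a set `L` of irreducible characters whose restrictions to the
`p`-regular elements span all class functions there, and which are told apart by elements of the
group ring over the local ring (a form of the Fong-Swan theorem).
-/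

set_option autoImplicit false
set_option linter.style.haveILetI false
set_option linter.unusedSectionVars false

open scoped ComplexConjugate
open Cfsg CfsgLib.CharTheory

namespace CfsgLib.CharDegreesTheory

noncomputable section

universe u

/-- A set of characters over `φ` spanning on the elements regular modulo the image and separated
by local group ring elements. -/
def HasLifts (p : ℕ) (M : Ideal AlgInt) {K G : Type u} [Group K] [Fintype K] [Group G] [Fintype G]
    [Fintype (IrrCharacter G)] (ι : K →* G) (φ : K → ℂ) : Prop :=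
  ∃ L : Set (IrrCharacter G), (∀ χ ∈ L, OverAlong ι φ (χ : G → ℂ)) ∧
    (∀ c : IrrCharacter G → ℂ, (∀ χ, c χ ≠ 0 → OverAlong ι φ (χ : G → ℂ) ∧ χ ∉ L) →
      (∀ g, SingMod p ι.range g → ∑ χ, c χ * (χ : G → ℂ) g = 0) → ∀ χ, c χ = 0) ∧
    ∀ χ ∈ L, ∃ x : G → ℂ, (∀ h, MemLocalRing M (x h)) ∧
      (∀ a, ∑ h, x h * (χ : G → ℂ) (h * a) = (χ : G → ℂ) a) ∧
      ∀ ψ ∈ L, ψ ≠ χ → ∀ a, ∑ h, x h * (ψ : G → ℂ) (h * a) = 0

theorem SingMod.mul_left {G : Type u} [Group G] {p : ℕ} {J : Subgroup G} [J.Normal] {g : G}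
    (h : SingMod p J g) {x : G} (hx : x ∈ J) : SingMod p J (x * g) := by
  rw [singMod_iff] at h ⊢
  rwa [QuotientGroup.mk_mul, (QuotientGroup.eq_one_iff x).2 hx, one_mul]

theorem isClassFunction_sum_irr {G : Type u} [Group G] [Fintype (IrrCharacter G)]
    (c : IrrCharacter G → ℂ) (g h : G) :
    ∑ χ, c χ * (χ : G → ℂ) (h * g * h⁻¹) = ∑ χ, c χ * (χ : G → ℂ) g :=
  Finset.sum_congr rfl fun χ _ => by rw [IsIrrCharacter.isClassFunction χ.2 g h]

theorem eq_zero_of_forall_sum {G : Type u} [Group G] [Finite G] [Fintype (IrrCharacter G)]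
    (c : IrrCharacter G → ℂ) (h : ∀ g, ∑ χ, c χ * (χ : G → ℂ) g = 0) (χ : IrrCharacter G) :
    c χ = 0 := by
  refine Fintype.linearIndependent_iff.1 linearIndependent_irr c ?_ χ
  funext g
  simpa [Finset.sum_apply] using h g

section Steps

variable {K G : Type u} [Group K] [Fintype K] [Group G] [Fintype G] [Fintype (IrrCharacter G)]
  {p : ℕ} [hp : Fact p.Prime] {M : Ideal AlgInt} [M.IsPrime] {ι : K →* G} {φ : K → ℂ}

theorem hasLifts_of_top (hι : Function.Injective ι) (hφ : IsIrrCharacter K φ)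
    (hinv : InvariantAlong ι φ) (htop : ι.range = ⊤) : HasLifts p M ι φ := by
  classical
  refine ⟨{χ | OverAlong ι φ (χ : G → ℂ)}, fun χ h => h, fun c hc _ χ => ?_, fun χ hχ => ?_⟩
  · by_contra h
    exact (hc χ h).2 (hc χ h).1
  have huniq : ∀ ψ : IrrCharacter G, OverAlong ι φ (ψ : G → ℂ) → ψ = χ := fun ψ hψ => by
    by_contra hne
    have hfun : (χ : G → ℂ) = ((χ : G → ℂ) 1 / (ψ : G → ℂ) 1) • (ψ : G → ℂ) := funext fun g => by
      obtain ⟨k, rfl⟩ : g ∈ ι.range := htop ▸ Subgroup.mem_top g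
      have hχ' : OverAlong ι φ (χ : G → ℂ) := hχ
      rw [Pi.smul_apply, smul_eq_mul, hχ'.res_eq hφ hinv χ.2, hψ.res_eq hφ hinv ψ.2]
      have := apply_one_ne_zero_of_isIrr hφ
      have := apply_one_ne_zero_of_isIrr ψ.2
      field_simp
    have h0 := classInner_eq_zero_of_ne χ.2 ψ.2 fun e => hne (Subtype.ext e).symm
    rw [hfun, classInner_smul_left, classInner_self_of_isIrr ψ.2, mul_one] at h0
    exact div_ne_zero (apply_one_ne_zero_of_isIrr χ.2) (apply_one_ne_zero_of_isIrr ψ.2) h0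
  refine ⟨fun h => if h = 1 then 1 else 0, fun h => ?_, fun a => by simp, fun ψ hψ hne =>
    absurd (huniq ψ hψ) hne⟩
  dsimp only
  split_ifs
  · simpa using Blocks.memLocalRing_natCast (M := M) 1
  · simpa using Blocks.memLocalRing_natCast (M := M) 0

variable [∀ H : Subgroup G, Fintype H] [∀ H : Subgroup G, Fintype (IrrCharacter H)]

omit [∀ H : Subgroup G, Fintype (IrrCharacter H)] in
/-- A character of `J` invariant along the inclusion extends to `J ⊔ ⟨g⟩`. -/
theorem exists_extension_sup_zpowers {J : Subgroup G} [J.Normal] {θ : J → ℂ}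
    (hθ : IsIrrCharacter J θ) (hinv : InvariantAlong J.subtype θ) (g : G) :
    ∃ η : (J ⊔ Subgroup.zpowers g : Subgroup G) → ℂ,
      IsIrrCharacter (J ⊔ Subgroup.zpowers g : Subgroup G) η ∧
        ∀ x : J, η ⟨x, Subgroup.mem_sup_left x.2⟩ = θ x := by
  set H := J ⊔ Subgroup.zpowers g with hH
  set e := Subgroup.subgroupOfEquivOfLe (le_sup_left : J ≤ H)
  have hcyc : IsCyclic (H ⧸ J.subgroupOf H) := by
    refine ⟨⟨((⟨g, Subgroup.mem_sup_right (Subgroup.mem_zpowers g)⟩ : H) : H ⧸ J.subgroupOf H),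
      fun q => ?_⟩⟩
    obtain ⟨⟨h, hh⟩, rfl⟩ := QuotientGroup.mk_surjective q
    have hh' : h ∈ ((J ⊔ Subgroup.zpowers g : Subgroup G) : Set G) := hh
    rw [Subgroup.normal_mul] at hh'
    obtain ⟨x, hx, y, hy, rfl⟩ := Set.mem_mul.1 hh'
    obtain ⟨i, rfl⟩ := Subgroup.mem_zpowers_iff.1 hy
    refine Subgroup.mem_zpowers_iff.2 ⟨i, ?_⟩
    rw [← QuotientGroup.mk_zpow, eq_comm, QuotientGroup.eq, Subgroup.mem_subgroupOf]
    show (x * g ^ i)⁻¹ * (((⟨g, _⟩ : H) ^ i : H) : G) ∈ J
    rw [SubgroupClass.coe_zpow, mul_inv_rev, mul_assoc]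
    simpa [mul_assoc] using (inferInstance : J.Normal).conj_mem _ (J.inv_mem hx) (g ^ i)⁻¹
  obtain ⟨η, hη, hext⟩ := RealChar.exists_extension_character_of_cyclic (J.subgroupOf H) hcyc
    (fun x => θ (e x)) (isIrrCharacter_comp_mulEquiv hθ e) fun h x => by
      obtain ⟨c, hc1, hc2⟩ := hinv (h : G)
      refine Eq.trans (congrArg θ ?_) (hc2 (e x))
      refine Subtype.ext ?_
      have := hc1 (e x)
      rw [Subgroup.coe_subtype] at this
      rw [this]
      show (((MulAut.conjNormal h x : J.subgroupOf H) : H) : G) = _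
      rw [MulAut.conjNormal_apply]
      rfl
  exact ⟨η, hη, fun x => hext (e.symm x)⟩

theorem hasLifts_of_pSection (hι : Function.Injective ι) [hιn : ι.range.Normal]
    (hφ : IsIrrCharacter K φ) (hinv : InvariantAlong ι φ) (J : Subgroup G) [J.Normal]
    (hJ : ∀ k, ι k ∈ J) (hJp : IsPGroup p (J.map (QuotientGroup.mk' ι.range)))
    (θ : IrrCharacter J) (hθinv : InvariantAlong J.subtype (θ : J → ℂ))
    (hθK : ∀ k, (θ : J → ℂ) (ι.codRestrict J hJ k) = φ k)
    (ih : HasLifts p M J.subtype (θ : J → ℂ)) : HasLifts p M ι φ := by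
  classical
  set κ := ι.codRestrict J hJ with hκ
  have hκinv : InvariantAlong κ φ := InvariantAlong.of_comp (j := J.subtype) J.subtype_injective hinv
  have hκover : OverAlong κ φ (θ : J → ℂ) := by
    rw [OverAlong, show (fun k => (θ : J → ℂ) (κ k)) = φ from funext hθK,
      classInner_self_of_isIrr hφ]
    exact one_ne_zero
  have hle : ι.range ≤ J := by rintro _ ⟨k, rfl⟩; exact hJ k
  have hrange : J.subtype.range = J := J.range_subtype
  obtain ⟨L, hL, hspan, hsep⟩ := ih
  have hup : ∀ χ : IrrCharacter G, OverAlong J.subtype (θ : J → ℂ) (χ : G → ℂ) →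
      OverAlong ι φ (χ : G → ℂ) := fun χ h =>
    (overAlong_constituent_iff (j := J.subtype) hφ hκinv hinv rfl χ.2 θ.2 h).2 hκover
  refine ⟨L, fun χ hχ => hup χ (hL χ hχ), fun c hc hvan => ?_, hsep⟩
  set Δ : G → ℂ := fun g => ∑ χ, c χ * (χ : G → ℂ) g with hΔ
  have hproj : ∀ g, ∑ x, (θ : J → ℂ) x⁻¹ * Δ ((x : G) * g) =
      ∑ χ : IrrCharacter G, (if OverAlong J.subtype (θ : J → ℂ) (χ : G → ℂ) then
        (Nat.card J : ℂ) / (θ : J → ℂ) 1 * (c χ * (χ : G → ℂ) g) else 0) := fun g => by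
    simp only [hΔ, Finset.mul_sum]
    rw [Finset.sum_comm]
    refine Finset.sum_congr rfl fun χ _ => ?_
    split_ifs with h
    · rw [mul_left_comm, ← h.sum_mul_apply θ.2 hθinv χ.2, Finset.mul_sum]
      exact Finset.sum_congr rfl fun x _ => by rw [Subgroup.coe_subtype]; ring
    · rw [Finset.sum_congr rfl fun x _ => mul_left_comm ((θ : J → ℂ) x⁻¹) (c χ) _, ← Finset.mul_sum]
      have := sum_mul_apply_eq_zero θ.2 hθinv χ.2 h g
      simp only [Subgroup.coe_subtype] at this
      rw [this, mul_zero]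
  have hover0 : ∀ χ : IrrCharacter G, OverAlong J.subtype (θ : J → ℂ) (χ : G → ℂ) → c χ = 0 := by
    intro χ hχ
    have h := hspan (fun ψ => if OverAlong J.subtype (θ : J → ℂ) (ψ : G → ℂ) then c ψ else 0)
      (fun ψ hψ => by
        split_ifs at hψ with h'
        · exact ⟨h', (hc ψ hψ).2⟩
        · exact absurd rfl hψ)
      (fun g hg => by
        rw [hrange] at hg
        have h0 : ∑ x, (θ : J → ℂ) x⁻¹ * Δ ((x : G) * g) = 0 := Finset.sum_eq_zero fun x _ => by
          rw [hΔ]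
          dsimp only
          rw [hvan _ ((hg.mul_left x.2).of_le hle), mul_zero]
        rw [hproj, ← Finset.sum_filter, ← Finset.mul_sum, mul_eq_zero] at h0
        simp only [ite_mul, zero_mul, ← Finset.sum_filter]
        exact h0.resolve_left (div_ne_zero (Nat.cast_ne_zero.2 Nat.card_pos.ne')
          (apply_one_ne_zero_of_isIrr θ.2))) χ
    simpa [hχ] using h
  have hproj0 : ∀ g, ∑ x, (θ : J → ℂ) x⁻¹ * Δ ((x : G) * g) = 0 := fun g => by
    rw [hproj]
    refine Finset.sum_eq_zero fun χ _ => ?_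
    split_ifs with h
    · simp [hover0 χ h]
    · rfl
  refine eq_zero_of_forall_sum c fun g => ?_
  by_cases hg : SingMod p ι.range g
  · exact hvan g hg
  set H := J ⊔ Subgroup.zpowers g with hH
  obtain ⟨η, hη, hηθ⟩ : ∃ η : H → ℂ, IsIrrCharacter H η ∧
      ∀ x : J, η ⟨x, Subgroup.mem_sup_left x.2⟩ = (θ : J → ℂ) x :=
    exists_extension_sup_zpowers θ.2 hθinv g
  have hJH : J ≤ H := le_sup_left
  set ιH : K →* H := ι.codRestrict H fun k => hJH (hJ k) with hιH
  have hιHinv : InvariantAlong ιH φ := InvariantAlong.of_comp (j := H.subtype) H.subtype_injective hinv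
  have hηK : ∀ k, η (ιH k) = φ k := fun k => by rw [← hθK k, ← hηθ (κ k)]; rfl
  have hη1 : η 1 = φ 1 := by rw [← hηK, map_one]
  have hK : (Nat.card K : ℂ) ≠ 0 := Nat.cast_ne_zero.2 Nat.card_pos.ne'
  have hφ1 := apply_one_ne_zero_of_isIrr hφ
  have hfac : ∀ (χ : IrrCharacter G), OverAlong ι φ (χ : G → ℂ) → ∀ h : H,
      η h * ∑ k, (χ : G → ℂ) (ι k * h) * η ((ιH k * h)⁻¹) = (Nat.card K : ℂ) * (χ : G → ℂ) h := by
    intro χ hχ h
    obtain ⟨e, he1, he2⟩ := hιHinv h
    have hs : ∀ k, η h * η ((ιH k * h)⁻¹) =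
        φ 1 / (Nat.card K : ℂ) * ∑ u, φ (e u * k⁻¹ * u⁻¹) := fun k => by
      rw [show ∑ u, φ (e u * k⁻¹ * u⁻¹) = ∑ u, η (h * ιH u * (ιH k * h)⁻¹ * (ιH u)⁻¹) from
        Finset.sum_congr rfl fun u _ => by
          rw [← hηK, map_mul, map_mul, map_inv, map_inv, he1]
          congr 1
          group,
        sum_apply_conj_eq hφ hη hηK, hη1]
      field_simp
    calc η h * ∑ k, (χ : G → ℂ) (ι k * h) * η ((ιH k * h)⁻¹)
        = φ 1 / (Nat.card K : ℂ) * ∑ u, ∑ k, φ (e u * k⁻¹ * u⁻¹) * (χ : G → ℂ) (ι k * h) := by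
          rw [Finset.mul_sum, Finset.sum_comm, Finset.mul_sum]
          exact Finset.sum_congr rfl fun k _ => by
            rw [← mul_left_comm, mul_comm, hs, Finset.mul_sum, Finset.mul_sum, Finset.sum_mul]
            exact Finset.sum_congr rfl fun u _ => by ring
      _ = φ 1 / (Nat.card K : ℂ) * ∑ _u : K, (Nat.card K : ℂ) / φ 1 * (χ : G → ℂ) h := by
          congr 1
          refine Finset.sum_congr rfl fun u _ => ?_
          rw [← hχ.sum_mul_apply hφ hinv χ.2 (h : G)]
          refine (Fintype.sum_equiv ((Equiv.mulLeft u⁻¹).trans (Equiv.mulRight (e u))) _ _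
            fun v => ?_).symm
          simp only [Equiv.trans_apply, Equiv.coe_mulLeft, Equiv.coe_mulRight]
          congr 1
          · congr 1
            group
          · have h1 : ι (e u) = (h : G) * ι u * (h : G)⁻¹ := congrArg Subtype.val (he1 u)
            rw [map_mul, map_mul, map_inv, h1]
            refine ((IsIrrCharacter.isClassFunction χ.2 (ι v * (h : G)) (ι u)⁻¹).symm).trans ?_
            congr 1
            group
      _ = (Nat.card K : ℂ) * (χ : G → ℂ) h := by
          rw [Finset.sum_const, Finset.card_univ, nsmul_eq_mul, ← Nat.card_eq_fintype_card]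
          field_simp
  set δ : H → ℂ := fun h => (Nat.card K : ℂ)⁻¹ * ∑ k, Δ (ι k * h) * η ((ιH k * h)⁻¹) with hδ
  have hΔδ : ∀ h : H, Δ h = η h * δ h := fun h => by
    refine mul_left_cancel₀ hK ?_
    rw [hδ, mul_left_comm, ← mul_assoc (Nat.card K : ℂ), mul_inv_cancel₀ hK, one_mul]
    simp only [hΔ, Finset.mul_sum, Finset.sum_mul]
    rw [Finset.sum_comm]
    refine Finset.sum_congr rfl fun χ _ => ?_
    by_cases hcχ : c χ = 0
    · simp [hcχ]
    rw [mul_left_comm, ← hfac χ (hc χ hcχ).1 h, Finset.mul_sum, Finset.mul_sum]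
    exact Finset.sum_congr rfl fun k _ => by ring
  have hδK : ∀ (k₀ : K) (h : H), δ (ιH k₀ * h) = δ h := fun k₀ h => by
    rw [hδ]
    dsimp only
    congr 1
    refine Fintype.sum_equiv (Equiv.mulRight k₀) _ _ fun k => ?_
    simp only [Equiv.coe_mulRight, map_mul, Subgroup.coe_mul, mul_assoc]
    rfl
  have hδconj : ∀ c' h : H, δ (c' * h * c'⁻¹) = δ h := fun c' h => by
    rw [hδ]
    dsimp only
    congr 1
    obtain ⟨e, he1, -⟩ := hιHinv c'
    refine (Fintype.sum_equiv e.toEquiv _ _ fun k => ?_).symm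
    show _ = Δ (ι (e k) * ((c' * h * c'⁻¹ : H) : G)) * η ((ιH (e k) * (c' * h * c'⁻¹))⁻¹)
    have e1 : ι (e k) = (c' : G) * ι k * (c' : G)⁻¹ := congrArg Subtype.val (he1 k)
    congr 1
    · rw [hΔ]
      dsimp only
      rw [← isClassFunction_sum_irr c (ι k * (h : G)) (c' : G), e1]
      refine Finset.sum_congr rfl fun χ _ => ?_
      congr 2
      simp only [Subgroup.coe_mul, Subgroup.coe_inv]
      group
    · rw [← IsIrrCharacter.isClassFunction hη ((ιH k * h)⁻¹) c', he1 k]
      congr 1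
      group
  set jH : J →* H := Subgroup.inclusion hJH with hjH
  set gH : H := ⟨g, Subgroup.mem_sup_right (Subgroup.mem_zpowers g)⟩ with hgH
  have hsum : η gH * ∑ x : J, δ (jH x * gH) = 0 := by
    have hF : ∀ (k : K) (x : J), (θ : J → ℂ) (κ k * x)⁻¹ * Δ (((κ k * x : J) : G) * g) =
        δ (jH x * gH) * (η ((jH x)⁻¹ * (ιH k)⁻¹) * η (ιH k * (jH x * gH))) := fun k x => by
      rw [← hηθ, show ((κ k * x : J) : G) * g = ((ιH k * (jH x * gH) : H) : G) from by
        simp only [Subgroup.coe_mul]; exact mul_assoc _ _ _, hΔδ, hδK, ← mul_inv_rev]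
      rw [show (⟨(((κ k * x)⁻¹ : J) : G), Subgroup.mem_sup_left ((κ k * x)⁻¹).2⟩ : H) =
        (ιH k * jH x)⁻¹ from Subtype.ext rfl]
      ring
    have h1 : ∑ k : K, ∑ x : J, (θ : J → ℂ) (κ k * x)⁻¹ * Δ (((κ k * x : J) : G) * g) = 0 :=
      Finset.sum_eq_zero fun k _ => by
        rw [← hproj0 g]
        exact Fintype.sum_equiv (Equiv.mulLeft (κ k)) _ _ fun x => rfl
    simp only [hF] at h1
    rw [Finset.sum_comm] at h1
    simp only [← Finset.mul_sum, sum_apply_mul_apply_eq hφ hιHinv hη hηK, inv_mul_cancel_left,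
      ← Finset.sum_mul, hη1] at h1
    have h2 : (Nat.card K : ℂ) / φ 1 * (η gH * ∑ x : J, δ (jH x * gH)) = 0 := by
      rw [← h1]; ring
    exact (mul_eq_zero.1 h2).resolve_left (div_ne_zero hK hφ1)
  have hterm : ∀ x : J, δ (jH x * gH) = if SingMod p ι.range ((x : G) * g) then 0 else δ gH := by
    intro x
    split_ifs with hs
    · rw [hδ]
      dsimp only
      rw [Finset.sum_eq_zero fun k _ => ?_, mul_zero]
      rw [show ι k * ((jH x * gH : H) : G) = ι k * ((x : G) * g) from rfl, hΔ]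
      dsimp only
      rw [hvan _ (hs.mul_left (MonoidHom.mem_range.2 ⟨k, rfl⟩)), zero_mul]
    · obtain ⟨c', hc', hk⟩ := exists_conj_mod_of_regular hJp hg hs (by simp)
      obtain ⟨k, hk⟩ := hk
      have he : jH x * gH = ιH k * (⟨c', hJH hc'⟩ * gH * ⟨c', hJH hc'⟩⁻¹) := Subtype.ext (by
        show (x : G) * g = ι k * (c' * g * c'⁻¹)
        rw [hk, inv_mul_cancel_right])
      rw [he, hδK, hδconj]
  rw [Finset.sum_congr rfl fun x _ => hterm x, Finset.sum_ite, Finset.sum_const_zero, zero_add,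
    Finset.sum_const, nsmul_eq_mul, mul_left_comm, ← hΔδ gH, mul_eq_zero] at hsum
  refine hsum.resolve_left (Nat.cast_ne_zero.2 (Finset.card_ne_zero_of_mem (a := (1 : J))
    (Finset.mem_filter.2 ⟨Finset.mem_univ _, ?_⟩)))
  simpa using hg

/-- The action of an element of `J` isolating `θ` on a character induced from an inertia group. -/
theorem sum_isolating_apply {J : Subgroup G} [J.Normal] {θ θ' : IrrCharacter J} {y : J → ℂ}
    {χ : IrrCharacter G} {ψ : inertia J (θ' : J → ℂ) → ℂ}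
    (hJT : J ≤ inertia J (θ' : J → ℂ)) (hψ : IsIrrCharacter (inertia J (θ' : J → ℂ)) ψ)
    (hover : OverAlong (Subgroup.inclusion hJT) (θ' : J → ℂ) ψ)
    (hinv : InvariantAlong (Subgroup.inclusion hJT) (θ' : J → ℂ))
    (hind : indFun (inertia J (θ' : J → ℂ)) ψ = (χ : G → ℂ))
    (hy : ∀ η : IrrCharacter J, classInner (fun x : J => (χ : G → ℂ) x) (η : J → ℂ) ≠ 0 →
      ∀ a, ∑ x, y x * (η : J → ℂ) (x * a) = if η = θ then (η : J → ℂ) a else 0) :
    ∀ b : G, ∑ x : J, y x * (χ : G → ℂ) ((x : G) * b) =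
      (Nat.card (inertia J (θ' : J → ℂ)) : ℂ)⁻¹ * ∑ g : G,
        if Clifford.conjChar J (θ' : J → ℂ) g⁻¹ = (θ : J → ℂ)
          then extendByZero (inertia J (θ' : J → ℂ)) ψ (g⁻¹ * b * g) else 0 := by
  classical
  intro b
  have hcons : classInner (fun x : J => (χ : G → ℂ) x) (θ' : J → ℂ) ≠ 0 := by
    have h := (Clifford.isIrrCharacter_indFun_inertia θ'.2 (fun g => Iff.rfl) hJT hψ hover).2
    rw [hind] at h
    rw [h]
    exact hover
  rw [← hind]
  simp only [indFun, Finset.mul_sum]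
  rw [Finset.sum_comm]
  refine Finset.sum_congr rfl fun g _ => ?_
  rw [Finset.sum_congr rfl fun x _ => mul_left_comm (y x) _ _, ← Finset.mul_sum]
  congr 1
  by_cases hb : g⁻¹ * b * g ∈ (inertia J (θ' : J → ℂ))
  · set η : IrrCharacter J := ⟨_, Clifford.isIrrCharacter_conjChar J θ'.2 g⁻¹⟩ with hη
    have hηc : classInner (fun x : J => (χ : G → ℂ) x) (η : J → ℂ) ≠ 0 := by
      rw [hη, Clifford.classInner_conjChar J (IsIrrCharacter.isClassFunction χ.2)]
      exact hcons
    have hactη : ∀ a : J, ∑ u : J, y (MulAut.conjNormal g u) * (θ' : J → ℂ) (u * a) =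
        (if η = θ then (1 : ℂ) else 0) * (θ' : J → ℂ) a := fun a => by
      have h := hy η hηc (MulAut.conjNormal g a)
      rw [← Equiv.sum_comp (MulAut.conjNormal g).toEquiv] at h
      have e : ∀ u : J, (η : J → ℂ) (MulAut.conjNormal g u) = (θ' : J → ℂ) u := fun u => by
        rw [hη]
        show Clifford.conjChar J (θ' : J → ℂ) g⁻¹ (MulAut.conjNormal g u) = _
        rw [Clifford.conjChar_eq_comp]
        dsimp only
        rw [← MulAut.mul_apply, ← map_mul, inv_mul_cancel, map_one, MulAut.one_apply]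
      simp only [MulEquiv.toEquiv_eq_coe, EquivLike.coe_coe, ← map_mul, e] at h
      rw [h]
      split_ifs <;> simp
    have h := hover.transfer θ'.2 hinv hψ _ _ hactη ⟨_, hb⟩
    rw [← Equiv.sum_comp (MulAut.conjNormal g).toEquiv]
    have hrhs : (if Clifford.conjChar J (θ' : J → ℂ) g⁻¹ = (θ : J → ℂ) then
        extendByZero (inertia J (θ' : J → ℂ)) ψ (g⁻¹ * b * g) else 0) = (if η = θ then (1 : ℂ) else 0) * ψ ⟨_, hb⟩ := by
      rw [Frobenius.extendByZero_of_mem (inertia J (θ' : J → ℂ)) ψ hb]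
      by_cases he : η = θ
      · rw [if_pos (congrArg Subtype.val he), if_pos he, one_mul]
      · rw [if_neg fun e => he (Subtype.ext e), if_neg he, zero_mul]
    rw [hrhs, ← h]
    refine Finset.sum_congr rfl fun u _ => ?_
    simp only [MulEquiv.toEquiv_eq_coe, EquivLike.coe_coe]
    congr 1
    rw [MulAut.conjNormal_apply, show g⁻¹ * (g * (u : G) * g⁻¹ * b) * g =
      ((Subgroup.inclusion hJT u * ⟨_, hb⟩ : (inertia J (θ' : J → ℂ))) : G) from by
        show _ = (u : G) * (g⁻¹ * b * g)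
        group, Frobenius.extendByZero_coe]
  · rw [Finset.sum_eq_zero fun x _ => ?_, Frobenius.extendByZero_of_not_mem (inertia J (θ' : J → ℂ)) ψ hb]
    · simp
    rw [Frobenius.extendByZero_of_not_mem (inertia J (θ' : J → ℂ)) ψ, mul_zero]
    intro hm
    apply hb
    have hxJ : g⁻¹ * (x : G) * g ∈ (inertia J (θ' : J → ℂ)) :=
      hJT (by simpa using (inferInstance : J.Normal).conj_mem _ x.2 g⁻¹)
    have := (inertia J (θ' : J → ℂ)).mul_mem ((inertia J (θ' : J → ℂ)).inv_mem hxJ) hm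
    convert this using 1
    group

theorem hasLifts_of_pPrimeSection (hM : IsPModular p M) (hι : Function.Injective ι)
    [hιn : ι.range.Normal] (hφ : IsGood p M φ) (hinv : InvariantAlong ι φ)
    (J : Subgroup G) [J.Normal] (hJ : ∀ k, ι k ∈ J) (hidx : ¬ p ∣ (ι.codRestrict J hJ).range.index)
    [hκn : (ι.codRestrict J hJ).range.Normal]
    (ih : ∀ θ : IrrCharacter J, OverAlong (ι.codRestrict J hJ) φ (θ : J → ℂ) →
      HasLifts p M (Subgroup.inclusion (le_inertia J (IsIrrCharacter.isClassFunction θ.2)))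
        (θ : J → ℂ)) :
    HasLifts p M ι φ := by
  classical
  set κ := ι.codRestrict J hJ with hκdef
  have hκ : Function.Injective κ := fun a b h => hι (congrArg Subtype.val h)
  have hκinv : InvariantAlong κ φ := InvariantAlong.of_comp (j := J.subtype) J.subtype_injective hinv
  have hle : ι.range ≤ J := by rintro _ ⟨k, rfl⟩; exact hJ k
  choose L hL hspan hsep using ih
  have hjinv : ∀ θ : IrrCharacter J, InvariantAlong
      (Subgroup.inclusion (le_inertia J (IsIrrCharacter.isClassFunction θ.2))) (θ : J → ℂ) :=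
    fun θ t => ⟨MulAut.conjNormal (t : G), fun x => Subtype.ext (MulAut.conjNormal_apply _ x),
      fun x => by
        have h := congrFun ((mem_inertia J (θ : J → ℂ) (t : G)).1 t.2) x
        rwa [Clifford.conjChar_eq_comp] at h⟩
  -- constituents
  let C : IrrCharacter G → Set (IrrCharacter J) := fun χ =>
    {η | classInner (fun x : J => (χ : G → ℂ) x) (η : J → ℂ) ≠ 0}
  have hCne : ∀ χ, (C χ).Nonempty := fun χ =>
    CharTheory.exists_constituent J (IsIrrCharacter.isCharacter χ.2)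
      (apply_one_ne_zero_of_isIrr χ.2)
  have hCover : ∀ χ η, η ∈ C χ →
      (OverAlong ι φ (χ : G → ℂ) ↔ OverAlong κ φ (η : J → ℂ)) := fun χ η h =>
    overAlong_constituent_iff (j := J.subtype) hφ.irr hκinv hinv rfl χ.2 η.2 h
  have hCeq : ∀ χ χ' η, η ∈ C χ → η ∈ C χ' → C χ = C χ' := by
    suffices h : ∀ χ χ' η, η ∈ C χ → η ∈ C χ' → C χ ⊆ C χ' from fun χ χ' η h1 h2 =>
      (h χ χ' η h1 h2).antisymm (h χ' χ η h2 h1)
    intro χ χ' η h1 h2 ξ hξ
    obtain ⟨g, hg⟩ := Clifford.exists_conj_of_constituents J χ.2 η.2 ξ.2 h1 hξ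
    show classInner (fun x : J => (χ' : G → ℂ) x) (ξ : J → ℂ) ≠ 0
    rw [hg, Clifford.classInner_conjChar J (IsIrrCharacter.isClassFunction χ'.2)]
    exact h2
  let rep : IrrCharacter G → IrrCharacter J := fun χ => (hCne χ).some
  have hrep : ∀ χ, rep χ ∈ C χ := fun χ => (hCne χ).some_mem
  have hrep_congr : ∀ χ χ', C χ = C χ' → rep χ = rep χ' := by
    have key : ∀ (s t : Set (IrrCharacter J)) (hs : s.Nonempty) (ht : t.Nonempty),
        s = t → hs.some = ht.some := by
      intro s t hs ht h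
      subst h
      rfl
    exact fun χ χ' h => key _ _ _ _ h
  -- elements isolating the constituents
  have hy : ∀ θ : IrrCharacter J, OverAlong κ φ (θ : J → ℂ) → ∃ y : J → ℂ,
      (∀ x, MemLocalRing M (y x)) ∧ ∀ η : IrrCharacter J, OverAlong κ φ (η : J → ℂ) →
        ∀ a, ∑ x, y x * (η : J → ℂ) (x * a) = if η = θ then (η : J → ℂ) a else 0 := by
    intro θ _
    obtain ⟨y, hy, hact⟩ := exists_local_lift hM hκ hφ hκinv hidx
      (fun η x => if η = θ ∧ x = 1 then 1 else 0) fun η _ a => by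
        by_cases he : η = θ
        · simp [he, Blocks.memLocalRing_irr]
        · simpa [he] using Blocks.memLocalRing_natCast (M := M) 0
    refine ⟨y, hy, fun η hη a => ?_⟩
    rw [hact η hη a]
    by_cases he : η = θ <;> simp [he]
  choose y hyloc hyact using hy
  have hnot : ∀ (θ : IrrCharacter J) (h : OverAlong κ φ (θ : J → ℂ)) (χ : IrrCharacter G),
      OverAlong ι φ (χ : G → ℂ) → θ ∉ C χ →
      ∀ b : G, ∑ x : J, y θ h x * (χ : G → ℂ) ((x : G) * b) = 0 := by
    intro θ h χ hχ hθ b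
    obtain ⟨ψ, hψ, hψe, hψm⟩ := Clifford.exists_indFun_inertia_eq (rep χ).2
      (T := inertia J (rep χ : J → ℂ)) (fun g => Iff.rfl)
      (le_inertia J (IsIrrCharacter.isClassFunction (rep χ).2)) χ.2 (hrep χ)
    rw [sum_isolating_apply _ hψ (by rw [OverAlong]; exact hψm ▸ hrep χ) (hjinv _) hψe
      (fun η hη a => hyact θ h η ((hCover χ η hη).1 hχ) a) b]
    rw [Finset.sum_eq_zero fun g _ => if_neg fun e => hθ ?_, mul_zero]
    show classInner (fun x : J => (χ : G → ℂ) x) (θ : J → ℂ) ≠ 0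
    rw [← e, Clifford.classInner_conjChar J (IsIrrCharacter.isClassFunction χ.2)]
    exact hrep χ
  have hyes : ∀ (θ : IrrCharacter J) (h : OverAlong κ φ (θ : J → ℂ))
      (hJT : J ≤ inertia J (θ : J → ℂ)) (ψ : inertia J (θ : J → ℂ) → ℂ)
      (hψ : IsIrrCharacter (inertia J (θ : J → ℂ)) ψ)
      (hover : OverAlong (Subgroup.inclusion hJT) (θ : J → ℂ) ψ) (χ : IrrCharacter G),
      OverAlong ι φ (χ : G → ℂ) → indFun (inertia J (θ : J → ℂ)) ψ = (χ : G → ℂ) →
      ∀ b : G, ∑ x : J, y θ h x * (χ : G → ℂ) ((x : G) * b) =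
        extendByZero (inertia J (θ : J → ℂ)) ψ b := by
    intro θ h hJT ψ hψ hover χ hχ hψe b
    rw [sum_isolating_apply hJT hψ hover (hjinv θ) hψe
      (fun η hη a => hyact θ h η ((hCover χ η hη).1 hχ) a) b, ← Finset.sum_filter]
    rw [Finset.sum_congr rfl fun g hg => ?_, Finset.sum_const, nsmul_eq_mul,
      show (Finset.univ.filter fun g => Clifford.conjChar J (θ : J → ℂ) g⁻¹ = (θ : J → ℂ)) =
        Finset.univ.filter fun g => g ∈ (inertia J (θ : J → ℂ)) from Finset.filter_congr fun g _ => by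
          rw [← mem_inertia, inv_mem_iff]]
    · rw [show (Finset.univ.filter fun g => g ∈ (inertia J (θ : J → ℂ))).card = Nat.card (inertia J (θ : J → ℂ)) by
        rw [Nat.card_eq_fintype_card, Fintype.card_subtype], ← mul_assoc,
        inv_mul_cancel₀ (Nat.cast_ne_zero.2 Nat.card_pos.ne'), one_mul]
    · have hg' : g⁻¹ ∈ (inertia J (θ : J → ℂ)) := (Finset.mem_filter.1 hg).2
      have := Frobenius.extendByZero_conj_mem (inertia J (θ : J → ℂ)) ψ (IsIrrCharacter.isClassFunction hψ) b hg'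
      rwa [inv_inv] at this
  refine ⟨{χ | OverAlong ι φ (χ : G → ℂ) ∧ ∃ (θ : IrrCharacter J) (h : OverAlong κ φ (θ : J → ℂ)),
    θ = rep χ ∧ ∃ ψ ∈ L θ h, indFun _ (ψ : inertia J (θ : J → ℂ) → ℂ) = (χ : G → ℂ)},
    fun χ h => h.1, fun c hc hvan χ₀ => ?_, fun χ hχ => ?_⟩
  · -- spanning
    by_contra h0
    have hχ₀ := (hc χ₀ h0).1
    set θ := rep χ₀ with hθ
    have h : OverAlong κ φ (θ : J → ℂ) := (hCover χ₀ θ (hrep χ₀)).1 hχ₀
    set T := inertia J (θ : J → ℂ) with hT
    have hJT : J ≤ T := le_inertia J (IsIrrCharacter.isClassFunction θ.2)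
    let P : IrrCharacter T → Prop := fun ψ =>
      OverAlong (Subgroup.inclusion hJT) (θ : J → ℂ) (ψ : T → ℂ)
    have hindirr : ∀ ψ : IrrCharacter T, P ψ → IsIrrCharacter G (indFun T (ψ : T → ℂ)) :=
      fun ψ hψ => (Clifford.isIrrCharacter_indFun_inertia θ.2 (fun g => Iff.rfl) hJT ψ.2 hψ).1
    have hindC : ∀ ψ (hψ : P ψ), θ ∈ C ⟨_, hindirr ψ hψ⟩ := fun ψ hψ => by
      show classInner (fun x : J => indFun T (ψ : T → ℂ) x) (θ : J → ℂ) ≠ 0
      rw [(Clifford.isIrrCharacter_indFun_inertia θ.2 (fun g => Iff.rfl) hJT ψ.2 hψ).2]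
      exact hψ
    set c' : IrrCharacter T → ℂ := fun ψ => if hψ : P ψ then c ⟨_, hindirr ψ hψ⟩ else 0 with hc'
    have hsum : ∀ t : T, ∑ ψ, c' ψ * (ψ : T → ℂ) t =
        ∑ χ, c χ * ∑ x : J, y θ h x * (χ : G → ℂ) ((x : G) * t) := by
      intro t
      rw [← Finset.sum_filter_of_ne (p := fun ψ => P ψ) (fun ψ _ hne => by
          by_contra hn; exact hne (by rw [hc']; simp [hn])),
        ← Finset.sum_filter_of_ne (s := (Finset.univ : Finset (IrrCharacter G)))
          (p := fun χ => OverAlong ι φ (χ : G → ℂ) ∧ θ ∈ C χ) (fun χ _ hne => by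
          have hcχ : c χ ≠ 0 := fun e => hne (by rw [e, zero_mul])
          refine ⟨(hc χ hcχ).1, ?_⟩
          by_contra hn
          exact hne (by rw [hnot θ h χ (hc χ hcχ).1 hn, mul_zero]))]
      refine Finset.sum_bij (fun ψ hψ => ⟨_, hindirr ψ (Finset.mem_filter.1 hψ).2⟩)
        (fun ψ hψ => Finset.mem_filter.2 ⟨Finset.mem_univ _,
          (hCover _ θ (hindC ψ (Finset.mem_filter.1 hψ).2)).2 h,
          hindC ψ (Finset.mem_filter.1 hψ).2⟩)
        (fun a ha b hb hab => Subtype.ext (Clifford.indFun_inertia_injective θ.2 (fun g => Iff.rfl)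
          hJT a.2 b.2 (Finset.mem_filter.1 ha).2 (Finset.mem_filter.1 hb).2
          (congrArg Subtype.val hab)))
        (fun χ hχ => ?_) (fun ψ hψ => ?_)
      · obtain ⟨-, hχ1, hχ2⟩ := Finset.mem_filter.1 hχ
        obtain ⟨ψ, hψi, hψe, hψm⟩ :=
          Clifford.exists_indFun_inertia_eq θ.2 (fun g => Iff.rfl) hJT χ.2 hχ2
        exact ⟨⟨ψ, hψi⟩, Finset.mem_filter.2 ⟨Finset.mem_univ _, by
          show classInner _ _ ≠ 0; exact hψm ▸ hχ2⟩, Subtype.ext hψe⟩
      · have hP := (Finset.mem_filter.1 hψ).2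
        rw [hyes θ h hJT (ψ : T → ℂ) ψ.2 hP ⟨_, hindirr ψ hP⟩
          ((hCover _ θ (hindC ψ hP)).2 h) rfl, Frobenius.extendByZero_coe, hc']
        simp [hP]
    have hres := hspan θ h c' (fun ψ hψ => by
        rw [hc'] at hψ
        dsimp only at hψ
        split_ifs at hψ with hP
        · refine ⟨hP, fun hψL => (hc _ hψ).2 ⟨(hCover _ θ (hindC ψ hP)).2 h, θ, h, ?_, ψ, hψL, rfl⟩⟩
          exact hrep_congr _ _ (hCeq _ _ θ (hrep χ₀) (hindC ψ hP))
        · exact absurd rfl hψ)
      (fun t ht => by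
        rw [hsum]
        simp only [Finset.mul_sum]
        rw [Finset.sum_comm]
        refine Finset.sum_eq_zero fun x _ => ?_
        simp only [mul_left_comm (c _), ← Finset.mul_sum]
        have hs : SingMod p J (t : G) := fun n hn => ht n ⟨⟨_, hn⟩, Subtype.ext (by simp)⟩
        rw [hvan _ ((hs.mul_left x.2).of_le hle), mul_zero])
    obtain ⟨ψ, hψi, hψe, hψm⟩ :=
      Clifford.exists_indFun_inertia_eq θ.2 (fun g => Iff.rfl) hJT χ₀.2 (hrep χ₀)
    have hP : P ⟨ψ, hψi⟩ := by show classInner _ _ ≠ 0; exact hψm ▸ hrep χ₀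
    have := hres ⟨ψ, hψi⟩
    rw [hc'] at this
    dsimp only at this
    rw [dif_pos hP] at this
    exact h0 (by rw [← this]; exact congrArg c (Subtype.ext hψe.symm))
  · -- separation
    obtain ⟨hχover, θ, h, hθrep, hψex⟩ := hχ
    set T := inertia J (θ : J → ℂ) with hT
    obtain ⟨ψ, hψ, hψe⟩ := hψex
    have hJT : J ≤ T := le_inertia J (IsIrrCharacter.isClassFunction θ.2)
    obtain ⟨x, hx, hx1, hx0⟩ := hsep θ h ψ hψ
    set w : G → ℂ := fun g => ∑ t : T, x t * extendByZero J (y θ h) (g * (t : G)⁻¹) with hw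
    set X : G → ℂ := fun g => ∑ q : G ⧸ T, w (q.out⁻¹ * g * q.out) with hX
    have hwloc : ∀ g, MemLocalRing M (w g) := fun g => Blocks.memLocalRing_sum fun t _ =>
      Blocks.memLocalRing_mul (hx t) (by
        by_cases hg : g * (t : G)⁻¹ ∈ J
        · rw [Frobenius.extendByZero_of_mem J _ hg]; exact hyloc θ h _
        · rw [Frobenius.extendByZero_of_not_mem J _ hg]
          simpa using Blocks.memLocalRing_natCast (M := M) 0)
    have hwact : ∀ (χ' : IrrCharacter G) (b : G), ∑ g, w g * (χ' : G → ℂ) (g * b) =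
        ∑ t : T, x t * ∑ u : J, y θ h u * (χ' : G → ℂ) ((u : G) * ((t : G) * b)) := fun χ' b => by
      simp only [hw, Finset.sum_mul, mul_assoc]
      rw [Finset.sum_comm]
      simp only [← Finset.mul_sum]
      refine Finset.sum_congr rfl fun t _ => ?_
      congr 1
      rw [← Frobenius.sum_extendByZero_mul J (y θ h) fun u => (χ' : G → ℂ) (u * ((t : G) * b))]
      refine Fintype.sum_equiv (Equiv.mulRight (t : G)⁻¹) _ _ fun g => ?_
      simp [mul_assoc]
    have hXact : ∀ (χ' : IrrCharacter G) (a : G), ∑ g, X g * (χ' : G → ℂ) (g * a) =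
        ∑ q : G ⧸ T, ∑ g, w g * (χ' : G → ℂ) (g * (q.out⁻¹ * a * q.out)) := fun χ' a => by
      simp only [hX, Finset.sum_mul]
      rw [Finset.sum_comm]
      refine Finset.sum_congr rfl fun q _ => ?_
      refine Fintype.sum_equiv (MulAut.conj q.out⁻¹).toEquiv _ _ fun g => ?_
      simp only [MulEquiv.toEquiv_eq_coe, EquivLike.coe_coe, MulAut.conj_apply, inv_inv]
      congr 1
      rw [← IsIrrCharacter.isClassFunction χ'.2 (g * a) q.out⁻¹]
      congr 1
      group
    have hind : ∀ (f : T → ℂ), IsClassFunction T f → ∀ a,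
        ∑ q : G ⧸ T, extendByZero T f (q.out⁻¹ * a * q.out) = indFun T f a := by
      intro f hf a
      simp only [indFun]
      have hbij : Function.Bijective fun u : (G ⧸ T) × T => u.1.out * (u.2 : G) := by
        have hmk : ∀ u : (G ⧸ T) × T, ((u.1.out * (u.2 : G) : G) : G ⧸ T) = u.1 := fun u => by
          rw [QuotientGroup.mk_mul_of_mem _ u.2.2, QuotientGroup.out_eq']
        constructor
        · intro u v huv
          have h1 : u.1 = v.1 := by
            rw [← hmk u, ← hmk v]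
            exact congrArg (fun z : G => (z : G ⧸ T)) huv
          have h2 : u.1.out * (u.2 : G) = v.1.out * (v.2 : G) := huv
          rw [h1] at h2
          exact Prod.ext h1 (Subtype.ext (mul_left_cancel h2))
        · intro g
          exact ⟨((g : G ⧸ T), ⟨(g : G ⧸ T).out⁻¹ * g,
            QuotientGroup.eq.1 (QuotientGroup.out_eq' (g : G ⧸ T))⟩), mul_inv_cancel_left _ _⟩
      rw [← hbij.sum_comp, Fintype.sum_prod_type, Finset.mul_sum]
      refine Finset.sum_congr rfl fun q _ => ?_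
      dsimp only
      rw [Finset.sum_congr rfl fun (t : T) _ => show extendByZero T f
          ((q.out * (t : G))⁻¹ * a * (q.out * (t : G))) = extendByZero T f (q.out⁻¹ * a * q.out) by
        have := Frobenius.extendByZero_conj_mem T f hf (q.out⁻¹ * a * q.out) (T.inv_mem t.2)
        rw [← this]
        congr 1
        group, Finset.sum_const, Finset.card_univ, nsmul_eq_mul, ← Nat.card_eq_fintype_card,
        ← mul_assoc, inv_mul_cancel₀ (Nat.cast_ne_zero.2 Nat.card_pos.ne'), one_mul]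
    have hact : ∀ (χ' : IrrCharacter G) (ψ' : IrrCharacter T), OverAlong ι φ (χ' : G → ℂ) →
        OverAlong (Subgroup.inclusion hJT) (θ : J → ℂ) (ψ' : T → ℂ) →
        indFun T (ψ' : T → ℂ) = (χ' : G → ℂ) → ∀ c : ℂ,
        (∀ a, ∑ t, x t * (ψ' : T → ℂ) (t * a) = c * (ψ' : T → ℂ) a) →
        ∀ a, ∑ g, X g * (χ' : G → ℂ) (g * a) = c * (χ' : G → ℂ) a := by
      intro χ' ψ' hχ' hover he c hc a
      rw [hXact, ← he, ← hind _ (IsIrrCharacter.isClassFunction ψ'.2), Finset.mul_sum]
      refine Finset.sum_congr rfl fun q _ => ?_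
      rw [he, hwact]
      simp only [hyes θ h hJT (ψ' : T → ℂ) ψ'.2 hover χ' hχ' he]
      set b := q.out⁻¹ * a * q.out
      by_cases hb : b ∈ T
      · rw [Frobenius.extendByZero_of_mem T _ hb, ← hc]
        exact Finset.sum_congr rfl fun t _ => by
          rw [Frobenius.extendByZero_of_mem T _ (T.mul_mem t.2 hb)]; rfl
      · rw [Frobenius.extendByZero_of_not_mem T _ hb, mul_zero]
        refine Finset.sum_eq_zero fun t _ => ?_
        rw [Frobenius.extendByZero_of_not_mem T _ fun hm => hb (by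
          simpa using T.mul_mem (T.inv_mem t.2) hm), mul_zero]
    refine ⟨X, fun g => Blocks.memLocalRing_sum fun q _ => hwloc _, fun a => ?_,
      fun χ' hχ' hne a => ?_⟩
    · rw [hact χ ψ hχover (hL θ h ψ hψ) hψe 1 (fun b => by rw [one_mul]; exact hx1 b) a, one_mul]
    · obtain ⟨hχ'over, θ', h', hθ'rep, ψ', hψ', hψ'e⟩ := hχ'
      by_cases hθθ : θ' = θ
      · subst hθθ
        rw [hact χ' ψ' hχ'over (hL θ' h' ψ' hψ') hψ'e 0 (fun b => by
          rw [zero_mul]
          exact hx0 ψ' hψ' (fun e => hne (Subtype.ext (by rw [← hψ'e, ← hψe, e]))) b) a, zero_mul]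
      · have hC : θ ∉ C χ' := fun hm => hθθ (by
          rw [hθ'rep, hθrep]
          exact hrep_congr _ _ (hCeq _ _ θ hm (hθrep ▸ hrep χ)))
        rw [hXact]
        refine Finset.sum_eq_zero fun q _ => ?_
        rw [hwact, Finset.sum_eq_zero fun t _ => by rw [hnot θ h χ' hχ'over hC, mul_zero]]

end Steps

/-- Canonical lifts exist over every good invariant character in a `p`-solvable group. -/
theorem exists_lifts_aux {p : ℕ} [hp : Fact p.Prime] {M : Ideal AlgInt} [M.IsPrime]
    (hM : IsPModular p M) (n : ℕ) :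
    ∀ (K G : Type u) [Group K] [Fintype K] [Group G] [Fintype G] [Fintype (IrrCharacter G)]
      (ι : K →* G) (φ : K → ℂ), Function.Injective ι → ι.range.Normal → ι.range.index = n →
      IsPSolvable p G → IsGood p M φ → InvariantAlong ι φ → HasLifts p M ι φ := by
  induction n using Nat.strong_induction_on with
  | _ n ih =>
  intro K G _ _ _ _ _ ι φ hι hιn hn hsolv hφ hinv
  classical
  by_cases htop : ι.range = ⊤
  · exact hasLifts_of_top hι hφ.irr hinv htop
  let _ : ∀ H : Subgroup G, Fintype H := fun H => Fintype.ofFinite H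
  let _ : ∀ H : Subgroup G, Fintype (IrrCharacter H) := fun H => Fintype.ofFinite _
  set N := ι.range with hN
  set π := QuotientGroup.mk' N with hπ
  have hπs : Function.Surjective π := QuotientGroup.mk'_surjective N
  obtain ⟨Jb, hJbn, hJb, hcase⟩ : ∃ Jb : Subgroup (G ⧸ N), Jb.Normal ∧ Jb ≠ ⊥ ∧
      (IsPGroup p Jb ∨ ¬ p ∣ Nat.card Jb) := by
    rcases PSolvable.core_quotient_ne_bot hsolv N htop with h | h
    · exact ⟨_, inferInstance, h, Or.inl (Cores.isPGroup_pCore p (G ⧸ N))⟩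
    · exact ⟨_, inferInstance, h, Or.inr Cores.not_dvd_card_pPrimeCore⟩
  set J := Jb.comap π with hJdef
  have hJn : J.Normal := hJbn.comap π
  have hle : N ≤ J := fun x hx => by
    show π x ∈ Jb
    rw [show π x = 1 from (QuotientGroup.eq_one_iff x).2 hx]
    exact one_mem _
  have hJmap : J.map π = Jb := Subgroup.map_comap_eq_self_of_surjective hπs Jb
  have hJidx : J.index < n := by
    rw [← hn, hJdef, Jb.index_comap_of_surjective hπs, N.index_eq_card, ← Jb.card_mul_index]
    refine lt_mul_of_one_lt_left (Nat.pos_of_ne_zero Subgroup.index_ne_zero_of_finite) ?_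
    exact Jb.one_lt_card_iff_ne_bot.2 hJb
  have hιJ : ∀ k, ι k ∈ J := fun k => hle ⟨k, rfl⟩
  set κ := ι.codRestrict J hιJ with hκdef
  have hκ : Function.Injective κ := fun a b h => hι (congrArg Subtype.val h)
  have hκr : κ.range = N.subgroupOf J := by
    ext x
    constructor
    · rintro ⟨k, rfl⟩
      exact ⟨k, rfl⟩
    · rintro ⟨k, hk⟩
      exact ⟨k, Subtype.ext hk⟩
  have hκn : κ.range.Normal := by rw [hκr]; infer_instance
  have hκidx : κ.range.index = Nat.card Jb := by
    rw [hκr, ← hJmap, ← PSolvable.relIndex_eq_card_map]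
    rfl
  rcases hcase with hJp | hJp
  · obtain ⟨s, hs⟩ := IsPGroup.iff_card.1 hJp
    have hjn : J.subtype.range.Normal := by rw [J.range_subtype]; exact hJn
    obtain ⟨θ, hθ, hθinv, hθK⟩ := exists_good_extension hM hκ (j := J.subtype) J.subtype_injective
      hφ hinv (hκidx.trans hs)
    exact hasLifts_of_pSection hι hφ.irr hinv J hιJ (hJmap ▸ hJp) θ hθinv hθK
      (ih J.index hJidx J G J.subtype _ J.subtype_injective hjn
        (by rw [J.range_subtype]) hsolv hθ hθinv)
  · have hidx : ¬ p ∣ κ.range.index := by rwa [hκidx]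
    refine hasLifts_of_pPrimeSection hM hι hφ hinv J hιJ hidx fun θ hθ => ?_
    have hJT : J ≤ inertia J (θ : J → ℂ) := le_inertia J (IsIrrCharacter.isClassFunction θ.2)
    set T := inertia J (θ : J → ℂ) with hT
    have hjn : (Subgroup.inclusion hJT).range.Normal := by
      rw [Subgroup.inclusion_range]; infer_instance
    have hTidx : (Subgroup.inclusion hJT).range.index ≤ J.index := by
      rw [Subgroup.inclusion_range, ← Subgroup.relIndex_mul_index hJT]
      exact Nat.le_mul_of_pos_right _ (Nat.pos_of_ne_zero Subgroup.index_ne_zero_of_finite)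
    exact ih _ (lt_of_le_of_lt hTidx hJidx) J T (Subgroup.inclusion hJT) _
      (Subgroup.inclusion_injective hJT) hjn rfl (PSolvable.isPSolvable_subgroup hsolv T)
      (isGood_of_pPrime hM hκ hφ (InvariantAlong.of_comp (j := J.subtype) J.subtype_injective hinv)
        hidx θ hθ)
      (fun t => ⟨MulAut.conjNormal (t : G), fun x => Subtype.ext (MulAut.conjNormal_apply _ x),
        fun x => by
          have h := congrFun ((mem_inertia J (θ : J → ℂ) (t : G)).1 t.2) x
          rwa [Clifford.conjChar_eq_comp] at h⟩)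

/-- A set of irreducible characters spanning on the `p`-regular elements and separated by local
group ring elements. -/
theorem exists_lifts {G : Type u} [Group G] [Fintype G] [Fintype (IrrCharacter G)] {p : ℕ}
    [hp : Fact p.Prime] {M : Ideal AlgInt} [M.IsPrime] (hM : IsPModular p M)
    (hsolv : IsPSolvable p G) :
    ∃ L : Set (IrrCharacter G),
      (∀ c : IrrCharacter G → ℂ, (∀ χ ∈ L, c χ = 0) →
        (∀ g : G, p ∣ orderOf g → ∑ χ, c χ * (χ : G → ℂ) g = 0) → ∀ χ, c χ = 0) ∧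
      ∀ χ ∈ L, ∃ x : G → ℂ, (∀ h, MemLocalRing M (x h)) ∧
        (∀ a, ∑ h, x h * (χ : G → ℂ) (h * a) = (χ : G → ℂ) a) ∧
        ∀ ψ ∈ L, ψ ≠ χ → ∀ a, ∑ h, x h * (ψ : G → ℂ) (h * a) = 0 := by
  classical
  let _ : Fintype (⊥ : Subgroup G) := Fintype.ofFinite _
  set φ : (⊥ : Subgroup G) → ℂ := fun _ => 1
  obtain ⟨L, -, hspan, hsep⟩ := exists_lifts_aux hM _ (⊥ : Subgroup G) G (⊥ : Subgroup G).subtype φ
    Subtype.val_injective (by rw [Subgroup.range_subtype]; infer_instance) rfl hsolv isGood_one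
    (fun g => ⟨MulEquiv.refl _, fun k => by
      rw [show k = 1 from Subsingleton.elim k 1]; simp, fun k => rfl⟩)
  refine ⟨L, fun c hc hvan => hspan c (fun χ hχ => ⟨?_, fun h => hχ (hc χ h)⟩) fun g hg =>
    hvan g (hg _ (by rw [Subgroup.range_subtype, Subgroup.mem_bot, pow_orderOf_eq_one])), hsep⟩
  rw [OverAlong, classInner, Fintype.sum_subsingleton _ 1]
  simp [φ, apply_one_ne_zero_of_isIrr χ.2]

end

end CfsgLib.CharDegreesTheory
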