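import Mathlib
import Cfsg.Agent.Lib.CharDegreesTheory.SolvableAction
import Cfsg.Agent.Lib.CharDegreesTheory.CoprimeDegrees

/-!
Characters of degree prime to `|H|` of a coprime semidirect product `K H`.
-/

set_option autoImplicit false
set_option linter.style.haveILetI false
set_option linter.unusedSectionVars false

namespace CfsgLib.CharDegreesTheory

open Cfsg
open scoped Pointwise

/-- Conjugation by the elements of a complement on a normal subgroup. -/
noncomputable def conjOn {G : Type*} [Group G] (K H : Subgroup G) [K.Normal] : H →* MulAut K :=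
  (MulAut.conjNormal : G →* MulAut K).comp H.subtype

/-- The count of characters of degree prime to the order of a solvable complement. -/
theorem card_coprime_degree_complement {G : Type*} [Group G] [Finite G] (K H : Subgroup G)
    [K.Normal] (hKH : K ⊔ H = ⊤) (hcop : (Nat.card K).Coprime (Nat.card H))
    (hsolv : Group.IsSolvable H) :
    Nat.card {χ : IrrCharacter G // (charDegree (χ : G → ℂ)).Coprime (Nat.card H)} =
      Nat.card (ConjClasses (fixedSubgroup (conjOn K H) ⊤)) *
        Nat.card {β : IrrCharacter H // (β : H → ℂ) 1 = 1} := by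
  classical
  have hHK : H.IsComplement' K := Subgroup.isComplement'_of_disjoint_and_mul_eq_univ
    (Subgroup.disjoint_of_coprime_natCard hcop.symm)
    (by rw [← Subgroup.mul_normal H K, sup_comm, hKH]; rfl)
  have hidx : K.index = Nat.card H := hHK.index_eq_card
  rw [← hidx, card_coprime_degree K (hidx ▸ hcop)]
  congr 1
  · rw [← card_invariant_irr hsolv (conjOn K H) hcop]
    refine Nat.card_congr (Equiv.subtypeEquivRight fun θ => ⟨fun h s n => h s n, fun h g n => ?_⟩)
    obtain ⟨k, hk, x, hx, rfl⟩ := Set.mem_mul.mp
      (show g ∈ (K : Set G) * (H : Set G) by rw [← Subgroup.normal_mul K H, hKH]; trivial)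
    rw [map_mul, MulAut.mul_apply]
    refine Eq.trans ?_ (h ⟨x, hx⟩ n)
    have e1 : MulAut.conjNormal k (MulAut.conjNormal x n) =
        (⟨k, hk⟩ : K) * MulAut.conjNormal x n * (⟨k, hk⟩ : K)⁻¹ :=
      Subtype.ext (MulAut.conjNormal_apply k _)
    rw [e1]
    exact CfsgLib.CharTheory.IsIrrCharacter.isClassFunction θ.2 _ _
  · let e : G ⧸ K ≃* H := hHK.QuotientMulEquiv
    exact Nat.card_congr
      { toFun := fun β => ⟨irrComp e.symm β.1, by rw [irrComp_apply, map_one]; exact β.2⟩
        invFun := fun β => ⟨irrComp e β.1, by rw [irrComp_apply, map_one]; exact β.2⟩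
        left_inv := fun β => Subtype.ext (Subtype.ext (funext fun x => by simp))
        right_inv := fun β => Subtype.ext (Subtype.ext (funext fun x => by simp)) }

/-- The same count in a subgroup containing the complement. -/
theorem card_coprime_degree_subgroup {G : Type*} [Group G] [Finite G] (K H N : Subgroup G)
    [K.Normal] (hKH : K ⊔ H = ⊤) (hcop : (Nat.card K).Coprime (Nat.card H))
    (hsolv : Group.IsSolvable H) (hHN : H ≤ N)
    (hfix : ∀ k ∈ K, (∀ h ∈ H, h * k * h⁻¹ = k) → k ∈ N) :
    Nat.card {η : IrrCharacter N // (charDegree (η : N → ℂ)).Coprime (Nat.card H)} =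
      Nat.card (ConjClasses (fixedSubgroup (conjOn K H) ⊤)) *
        Nat.card {β : IrrCharacter H // (β : H → ℂ) 1 = 1} := by
  classical
  let e : H.subgroupOf N ≃* H := Subgroup.subgroupOfEquivOfLe hHN
  have hcard : Nat.card (H.subgroupOf N) = Nat.card H := Nat.card_congr e.toEquiv
  have hsup : K.subgroupOf N ⊔ H.subgroupOf N = ⊤ := by
    refine eq_top_iff.mpr fun n _ => ?_
    obtain ⟨k, hk, x, hx, he⟩ := Set.mem_mul.mp
      (show (n : G) ∈ (K : Set G) * (H : Set G) by rw [← Subgroup.normal_mul K H, hKH]; trivial)
    have hkN : k ∈ N := by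
      rw [show k = (n : G) * x⁻¹ by rw [← he, mul_inv_cancel_right]]
      exact N.mul_mem n.2 (N.inv_mem (hHN hx))
    rw [show n = (⟨k, hkN⟩ : N) * ⟨x, hHN hx⟩ from Subtype.ext he.symm]
    exact Subgroup.mul_mem_sup hk hx
  have hcop' : (Nat.card (K.subgroupOf N)).Coprime (Nat.card (H.subgroupOf N)) := by
    rw [hcard]
    exact Nat.Coprime.coprime_dvd_left (Subgroup.card_dvd_of_injective
      ({ toFun := fun k => ⟨((k : N) : G), k.2⟩
         map_one' := rfl
         map_mul' := fun _ _ => rfl } : K.subgroupOf N →* K)
      fun a b h => Subtype.ext (Subtype.ext (Subtype.ext_iff.mp h :))) hcop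
  haveI := hsolv
  have hsolv' : Group.IsSolvable (H.subgroupOf N) :=
    Group.isSolvable_of_isSolvable_injective (f := e.toMonoidHom) e.injective
  rw [← hcard, card_coprime_degree_complement _ _ hsup hcop' hsolv']
  congr 1
  · refine card_conjClasses_congr ?_
    exact
      { toFun := fun c => ⟨⟨(((c : K.subgroupOf N) : N) : G), (c : K.subgroupOf N).2⟩,
          fun h _ => Subtype.ext (congrArg (fun x : K.subgroupOf N => ((x : N) : G))
            (c.2 (e.symm h) trivial))⟩
        invFun := fun c => ⟨⟨⟨((c : K) : G), hfix _ (c : K).2 fun h hh => by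
            have := congrArg Subtype.val (c.2 ⟨h, hh⟩ trivial)
            simpa [conjOn] using this⟩, (c : K).2⟩, fun h _ => Subtype.ext (Subtype.ext
              (congrArg Subtype.val (c.2 (e h) trivial) :))⟩
        left_inv := fun c => rfl
        right_inv := fun c => rfl
        map_mul' := fun a b => rfl }
  · exact Nat.card_congr
      { toFun := fun β => ⟨irrComp e.symm β.1, by rw [irrComp_apply, map_one]; exact β.2⟩
        invFun := fun β => ⟨irrComp e β.1, by rw [irrComp_apply, map_one]; exact β.2⟩
        left_inv := fun β => Subtype.ext (Subtype.ext (funext fun x => by simp))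
        right_inv := fun β => Subtype.ext (Subtype.ext (funext fun x => by simp)) }

end CfsgLib.CharDegreesTheory
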