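import Cfsg.Agent.Lib.CharDegreesTheory.SmallDegreeMain

/-!
# Consequences of the small degree theorem
-/

set_option autoImplicit false
set_option linter.style.haveILetI false
set_option linter.unusedSectionVars false

noncomputable section

namespace CfsgLib.CharDegreesTheory.SmallDegree

open Cfsg CfsgLib CfsgLib.CharTheory

variable {G : Type*} [Group G] [Finite G] {p : ℕ} [hp : Fact p.Prime] {P : Sylow p G}

/-- When no proper normal subgroup contains `P`, only the trivial character has `P` in its
kernel. -/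
theorem eq_trivIrr_of_ker (htop : ∀ K : Subgroup G, K.Normal → (P : Subgroup G) ≤ K → K = ⊤)
    (η : IrrCharacter G)
    (hη : ∀ z ∈ (P : Subgroup G), (η : G → ℂ) z = (η : G → ℂ) 1) : η = trivIrr G := by
  have := Fintype.ofFinite G
  have hc := IsIrrCharacter.isCharacter η.2
  have hK := htop _ (Correspondences.charKer_normal hc)
    (fun z hz => (Correspondences.mem_charKer hc).2 (hη z hz))
  have hconst : ∀ g, (η : G → ℂ) g = (η : G → ℂ) 1 := fun g =>
    (Correspondences.mem_charKer hc).1 (hK ▸ Subgroup.mem_top g)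
  obtain ⟨n, hn, h1⟩ := exists_degree_of_isIrr η.2
  have hnorm := classInner_self_of_isIrr η.2
  rw [classInner, Finset.sum_congr rfl fun g _ => by rw [hconst g, h1, Complex.conj_natCast],
    Finset.sum_const, Finset.card_univ, ← Nat.card_eq_fintype_card, nsmul_eq_mul,
    inv_mul_cancel_left₀ (Nat.cast_ne_zero.2 Nat.card_pos.ne')] at hnorm
  have hn1 : n * n = 1 := by exact_mod_cast hnorm
  refine Subtype.ext (funext fun g => ?_)
  rw [hconst g, h1, Nat.eq_one_of_mul_eq_one_right hn1, trivIrr_apply, Nat.cast_one]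

theorem small_degree_of_top (h : StarHyp P)
    (htop : ∀ K : Subgroup G, K.Normal → (P : Subgroup G) ≤ K → K = ⊤) {χ : IrrCharacter G}
    (hdeg : charDegree (χ : G → ℂ) ^ 2 + 1 < Nat.card P) (hχ : χ ≠ trivIrr G) :
    charDegree (χ : G → ℂ) = 1 ∧ automizerOrder P = 1 := by
  classical
  have := Fintype.ofFinite G
  have := Fintype.ofFinite (cen P)
  have := Fintype.ofFinite (nor P)
  have := Fintype.ofFinite (IrrCharacter G)
  have := Fintype.ofFinite (IrrCharacter (cen P))
  exact small_degree h hdeg hχ (eq_trivIrr_of_ker htop)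

/-- A faithful character of small degree makes `P` normal. -/
theorem normal_of_faithful (h : StarHyp P) {χ : G → ℂ} (hχ : IsCharacter G χ)
    (hfaith : ∀ g : G, χ g = χ 1 → g = 1) (hdeg : charDegree χ ^ 2 + 1 < Nat.card P) :
    (P : Subgroup G).Normal := by
  classical
  set K : Subgroup G := Subgroup.normalClosure ((P : Subgroup G) : Set G) with hK
  have hPK : (P : Subgroup G) ≤ K := Subgroup.le_normalClosure
  set Q : Sylow p K := P.subtype hPK
  have hQmem : ∀ u : K, u ∈ (Q : Subgroup K) ↔ (u : G) ∈ (P : Subgroup G) := fun u => Iff.rfl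
  have hQcard : Nat.card Q = Nat.card P :=
    Nat.card_congr (Subgroup.subgroupOfEquivOfLe hPK).toEquiv
  have hQ : StarHyp Q := by
    intro u hu hu1
    ext c
    rw [Subgroup.mem_centralizer_singleton_iff, Subgroup.mem_centralizer_iff]
    constructor
    · intro hc z hz
      have hc' : (c : G) ∈ Subgroup.centralizer ({(u : G)} : Set G) :=
        Subgroup.mem_centralizer_singleton_iff.2 (congrArg Subtype.val hc)
      rw [h (u : G) hu (fun e => hu1 (Subtype.ext e))] at hc'
      exact Subtype.ext (Subgroup.mem_centralizer_iff.1 hc' z hz)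
    · intro hc
      exact (hc u hu).symm
  have htop : ∀ L : Subgroup K, L.Normal → (Q : Subgroup K) ≤ L → L = ⊤ := by
    intro L hL hQL
    have hsub : K ≤ L.map K.subtype := by
      refine (Subgroup.closure_le _).2 ?_
      intro y hy
      obtain ⟨z, hz, hzy⟩ := Group.mem_conjugatesOfSet_iff.1 hy
      obtain ⟨g, rfl⟩ := isConj_iff.1 hzy
      obtain ⟨k, hk⟩ := MulAction.exists_smul_eq K Q
        ((g • P).subtype (fun w hw => by
          rw [Sylow.coe_subgroup_smul, Subgroup.mem_pointwise_smul_iff_inv_smul_mem] at hw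
          have := Subgroup.normalClosure_normal (s := ((P : Subgroup G) : Set G))
          have hm := this.conj_mem _ (hPK hw) g
          simpa [MulAut.inv_def, MulAut.smul_def, mul_assoc, hK] using hm) : Sylow p K)
      have hgz : g * z * g⁻¹ ∈ K := (Subgroup.normalClosure_normal).conj_mem _ (hPK hz) g
      have hmem : (⟨g * z * g⁻¹, hgz⟩ : K) ∈ ((k • Q : Sylow p K) : Subgroup K) := by
        rw [hk]
        show g * z * g⁻¹ ∈ ((g • P : Sylow p G) : Subgroup G)
        rw [Sylow.coe_subgroup_smul, Subgroup.mem_pointwise_smul_iff_inv_smul_mem]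
        simp only [MulAut.inv_def, MulAut.smul_def, MulAut.conj_symm_apply]
        rw [show g⁻¹ * (g * z * g⁻¹) * g = z by group]
        exact hz
      rw [Sylow.coe_subgroup_smul, Subgroup.mem_pointwise_smul_iff_inv_smul_mem] at hmem
      have h2 := hL.conj_mem _ (hQL hmem) k
      refine ⟨_, h2, ?_⟩
      simp [MulAut.inv_def, MulAut.smul_def, mul_assoc]
    rw [eq_top_iff]
    intro u _
    obtain ⟨v, hv, hvu⟩ := hsub u.2
    rwa [Subtype.val_injective hvu] at hv
  have := Fintype.ofFinite K
  have := Fintype.ofFinite (IrrCharacter K)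
  have hres : IsCharacter K (fun u : K => χ u) := Coherence.isCharacter_comp hχ K.subtype
  obtain ⟨m, hm⟩ := IsCharacter.exists_sum hres
  have hlin : ∀ ψ : IrrCharacter K, m ψ ≠ 0 → ∀ a b : K,
      (ψ : K → ℂ) (a * b * a⁻¹ * b⁻¹) = (ψ : K → ℂ) 1 := by
    intro ψ hψ a b
    have hdψ : charDegree (ψ : K → ℂ) ≤ charDegree χ := by
      obtain ⟨n, hn⟩ := exists_degree_of_isCharacter hχ
      have h1 := congrFun hm 1
      simp only [Finset.sum_apply, Pi.smul_apply, smul_eq_mul,
        fun φ : IrrCharacter K => (BrauerCharacters.charDegree_spec φ).1] at h1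
      have h1' : n = ∑ φ : IrrCharacter K, m φ * charDegree (φ : K → ℂ) := by
        have : χ ((1 : K) : G) = (n : ℂ) := by simpa using hn
        rw [this] at h1
        exact_mod_cast h1
      rw [show charDegree χ = n by simp [charDegree, hn], h1']
      exact (Nat.le_mul_of_pos_left _ (Nat.pos_of_ne_zero hψ)).trans
        (Finset.single_le_sum (f := fun φ : IrrCharacter K => m φ * charDegree (φ : K → ℂ))
          (fun _ _ => Nat.zero_le _) (Finset.mem_univ ψ))
    have hψ1 : (ψ : K → ℂ) 1 = 1 := by
      by_cases he : ψ = trivIrr K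
      · rw [he, trivIrr_apply]
      · have hd : charDegree (ψ : K → ℂ) ^ 2 + 1 < Nat.card Q := by
          rw [hQcard]
          have := Nat.pow_le_pow_left hdψ 2
          omega
        rw [(BrauerCharacters.charDegree_spec ψ).1, (small_degree_of_top hQ htop hd he).1,
          Nat.cast_one]
    obtain ⟨μ, hμ⟩ := exists_hom_of_degree_one ψ.2 hψ1
    rw [hμ]
    simp [mul_comm]
  have hcomm : ∀ a b : G, a ∈ K → b ∈ K → a * b = b * a := by
    intro a b ha hb
    have h1 : χ (((⟨a, ha⟩ : K) * ⟨b, hb⟩ * (⟨a, ha⟩ : K)⁻¹ * (⟨b, hb⟩ : K)⁻¹ : K) : G) =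
        χ ((1 : K) : G) := by
      show (fun u : K => χ u) _ = (fun u : K => χ u) 1
      rw [hm, Finset.sum_apply, Finset.sum_apply]
      refine Finset.sum_congr rfl fun ψ _ => ?_
      simp only [Pi.smul_apply, smul_eq_mul]
      by_cases hψ : m ψ = 0
      · simp [hψ]
      · rw [hlin ψ hψ]
    have h2 := hfaith _ (by simpa using h1)
    calc a * b = (a * b * a⁻¹ * b⁻¹) * (b * a) := by group
      _ = b * a := by
        have h2' : a * b * a⁻¹ * b⁻¹ = 1 := by simpa using h2
        rw [h2', one_mul]
  refine ⟨fun z hz g => ?_⟩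
  have hgz : g * z * g⁻¹ ∈ K := (Subgroup.normalClosure_normal).conj_mem _ (hPK hz) g
  obtain ⟨k, hk⟩ := (IsPGroup.iff_orderOf.1 P.isPGroup') ⟨z, hz⟩
  rw [Subgroup.orderOf_mk] at hk
  refine mem_of_pElem (k := k) ?_ (((MulAut.conj g).orderOf_eq _).trans hk)
  rw [Subgroup.mem_centralizer_iff]
  exact fun w hw => hcomm w _ (hPK hw) hgz

end CfsgLib.CharDegreesTheory.SmallDegree
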