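import Cfsg.Agent.Lib.CharDegreesTheory.SmallDegreeTI
import Cfsg.Agent.Lib.Correspondences.CharKer

/-!
# Characters of degree below the square root of the Sylow order
-/

set_option autoImplicit false
set_option linter.style.haveILetI false
set_option linter.unusedSectionVars false

open scoped ComplexConjugate

noncomputable section

namespace CfsgLib.CharDegreesTheory.SmallDegree

open Cfsg CfsgLib CfsgLib.CharTheory

variable {G : Type*} [Group G] [Fintype G] {p : ℕ} [hp : Fact p.Prime] {P : Sylow p G}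
  [Fintype (cen P)] [Fintype (nor P)] [Fintype (IrrCharacter (cen P))]

variable (P) in
/-- The multiplicity of `ξ` in the restriction to `C`. -/
def mult (θ : G → ℂ) (ξ : IrrCharacter (cen P)) : ℕ :=
  ⌊(classInner (fun c : cen P => θ c) (ξ : cen P → ℂ)).re⌋₊

theorem mult_spec {θ : G → ℂ} (hθ : IsCharacter G θ) (ξ : IrrCharacter (cen P)) :
    (mult P θ ξ : ℂ) = classInner (fun c : cen P => θ c) (ξ : cen P → ℂ) := by
  obtain ⟨k, hk⟩ := IsCharacter.exists_classInner_eq_nat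
    (Coherence.isCharacter_comp hθ (cen P).subtype) ξ
  rw [mult, show classInner (fun c : cen P => θ c) (ξ : cen P → ℂ) = (k : ℂ) from hk,
    Complex.natCast_re, Nat.floor_natCast]

theorem res_eq_sum {θ : G → ℂ} (hθ : IsCharacter G θ) (c : cen P) :
    θ c = ∑ ξ : IrrCharacter (cen P), (mult P θ ξ : ℂ) * (ξ : cen P → ℂ) c := by
  have h := congrFun (eq_sum_classInner
    (IsCharacter.isClassFunction (Coherence.isCharacter_comp hθ (cen P).subtype))) c
  rw [Finset.sum_apply] at h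
  refine h.trans (Finset.sum_congr rfl fun ξ _ => ?_)
  rw [Pi.smul_apply, smul_eq_mul, mult_spec hθ]
  rfl

theorem mult_cIrr {θ : G → ℂ} (hθ : IsCharacter G θ) (x : nor P) (ξ : IrrCharacter (cen P)) :
    mult P θ (cIrr x ξ) = mult P θ ξ := by
  rw [← Nat.cast_inj (R := ℂ), mult_spec hθ, mult_spec hθ, classInner, classInner]
  congr 1
  refine Fintype.sum_equiv (cx x).toEquiv _ _ fun c => ?_
  show θ c * conj ((ξ : cen P → ℂ) (cx x c)) = θ (cx x c) * conj ((ξ : cen P → ℂ) (cx x c))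
  rw [cx_apply, IsCharacter.isClassFunction hθ]

theorem exists_lam_ne_one (h : StarHyp P) {θ : G → ℂ} (hθ : IsCharacter G θ)
    (hker : ¬ ∀ z ∈ (P : Subgroup G), θ z = θ 1) :
    ∃ ξ : IrrCharacter (cen P), mult P θ ξ ≠ 0 ∧ lam h ξ ≠ 1 := by
  by_contra hne
  push Not at hne
  apply hker
  intro z hz
  have h1 := res_eq_sum hθ (⟨z, le_cen h hz⟩ : cen P)
  have h2 := res_eq_sum hθ (1 : cen P)
  refine h1.trans (Eq.trans (Finset.sum_congr rfl fun ξ _ => ?_) h2.symm)
  by_cases hm : mult P θ ξ = 0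
  · simp [hm]
  have h3 := apply_eq_lam_mul h ξ ⟨z, hz⟩ 1
  rw [mul_one, hne ξ hm, MonoidHom.one_apply, Units.val_one, one_mul] at h3
  rw [h3]

theorem card_fiber (h : StarHyp P) {ξ : IrrCharacter (cen P)} (hξ : lam h ξ ≠ 1) (x : nor P) :
    Nat.card {y : nor P // cIrr y ξ = cIrr x ξ} = Nat.card (cen P) := by
  have h1 := pairJ_self h hξ
  rw [pairJ, inv_mul_eq_iff_eq_mul₀ (Nat.cast_ne_zero.2 Nat.card_pos.ne'), mul_one,
    Nat.cast_inj] at h1
  rw [← h1]
  refine Nat.card_congr (Equiv.subtypeEquiv (Equiv.mulRight x⁻¹) fun y => ?_)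
  simp only [Equiv.coe_mulRight]
  constructor
  · intro e
    rw [← cIrr_cIrr, e, cIrr_cIrr, mul_inv_cancel, cIrr_one]
  · intro e
    rw [← cIrr_cIrr] at e
    calc cIrr y ξ = cIrr x (cIrr x⁻¹ (cIrr y ξ)) := by
          rw [cIrr_cIrr x, inv_mul_cancel, cIrr_one]
      _ = cIrr x ξ := by rw [e]

open scoped Classical in
/-- A nontrivial character of small degree restricts to `C` as one free orbit. -/
theorem exists_orbit (h : StarHyp P) {χ : IrrCharacter G}
    (hdeg : charDegree (χ : G → ℂ) ^ 2 + 1 < Nat.card P)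
    (hker : ¬ ∀ z ∈ (P : Subgroup G), (χ : G → ℂ) z = (χ : G → ℂ) 1) :
    ∃ O : Finset (IrrCharacter (cen P)), O.card = automizerOrder P ∧
      (∀ ξ, mult P (χ : G → ℂ) ξ = if ξ ∈ O then 1 else 0) ∧
      automizerOrder P ≤ charDegree (χ : G → ℂ) := by
  have hχ := IsIrrCharacter.isCharacter χ.2
  obtain ⟨ξ₀, hm₀, hl₀⟩ := exists_lam_ne_one h hχ hker
  set E := automizerOrder P
  set O : Finset (IrrCharacter (cen P)) := Finset.univ.image fun x : nor P => cIrr x ξ₀
  have hO : O.card = E := by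
    have hfib := Finset.card_eq_sum_card_image (fun x : nor P => cIrr x ξ₀) Finset.univ
    rw [Finset.sum_congr rfl (g := fun _ => Nat.card (cen P)), Finset.sum_const, smul_eq_mul,
      Finset.card_univ, ← Nat.card_eq_fintype_card, card_nor_eq, mul_comm] at hfib
    · exact (Nat.eq_of_mul_eq_mul_right Nat.card_pos hfib).symm
    · intro ξ hξ
      obtain ⟨x, -, rfl⟩ := Finset.mem_image.1 hξ
      rw [← card_fiber h hl₀ x, Nat.card_eq_fintype_card, Fintype.card_subtype]
  set W := ∑ ξ : IrrCharacter (cen P), mult P (χ : G → ℂ) ξ ^ 2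
  obtain ⟨π, hπP, hπ⟩ := exists_proj h
  have hW : W ≤ E := by
    set x := charDegree (χ : G → ℂ)
    set q := Nat.card P
    set S := Finset.univ.filter fun s : cen P => p ∣ orderOf s
    have hnormC : ∑ c : cen P, Complex.normSq ((χ : G → ℂ) c) = (Nat.card (cen P) : ℝ) * W := by
      have h1 := RealChar.sum_normSq_eq (f := fun c : cen P => (χ : G → ℂ) c)
      have h2 : classInner (fun c : cen P => (χ : G → ℂ) c) (fun c : cen P => (χ : G → ℂ) c) =
          (W : ℂ) := by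
        have hres : (fun c : cen P => (χ : G → ℂ) c) = ∑ ξ : IrrCharacter (cen P),
            ((mult P (χ : G → ℂ) ξ : ℤ) : ℂ) • (ξ : cen P → ℂ) := by
          funext c
          rw [res_eq_sum hχ c, Finset.sum_apply]
          simp
        rw [hres, classInner_generalized_sum]
        simp [W, sq]
      rw [h2] at h1
      exact_mod_cast h1
    have hnormG : ∑ y : G, Complex.normSq ((χ : G → ℂ) y) = (Nat.card G : ℝ) := by
      have h1 := RealChar.sum_normSq_eq (f := (χ : G → ℂ))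
      rw [classInner_self_of_isIrr χ.2, mul_one] at h1
      exact_mod_cast h1
    have hS : ∑ s ∈ S, Complex.normSq ((χ : G → ℂ) s) ≤ (Nat.card (cen P) : ℝ) * E := by
      have h1 := sum_singular_le h (χ : G → ℂ) (IsIrrCharacter.isClassFunction χ.2)
      rw [hnormG, mul_comm (Nat.card (nor P) : ℝ), card_nor_eq, Nat.cast_mul] at h1
      exact le_of_mul_le_mul_left h1 (Nat.cast_pos.2 Nat.card_pos)
    have hreg : ∑ s ∈ Sᶜ, Complex.normSq ((χ : G → ℂ) s) ≤ (Sᶜ.card : ℝ) * (x : ℝ) ^ 2 := by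
      rw [← nsmul_eq_mul, ← Finset.sum_const]
      refine Finset.sum_le_sum fun s _ => ?_
      rw [Complex.normSq_eq_norm_sq]
      have hb := IsCharacter.norm_le hχ (s : G)
      rw [(BrauerCharacters.charDegree_spec χ).1, Complex.natCast_re] at hb
      exact pow_le_pow_left₀ (norm_nonneg _) hb 2
    have hcard : Sᶜ.card * q ≤ Nat.card (cen P) := by
      have hsurj : Function.Surjective π := fun z => ⟨⟨z, le_cen h z.2⟩, hπP z⟩
      rw [← π.ker.card_mul_index, Subgroup.index_ker, MonoidHom.range_eq_top.2 hsurj,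
        Subgroup.card_top]
      refine Nat.mul_le_mul_right _ ?_
      rw [Nat.card_eq_fintype_card, Fintype.card_subtype]
      exact Finset.card_le_card fun c hc =>
        Finset.mem_filter.2 ⟨Finset.mem_univ _, hπ c (by simpa [S] using hc)⟩
    have htot : (Nat.card (cen P) : ℝ) * W ≤
        (Nat.card (cen P) : ℝ) * E + (Sᶜ.card : ℝ) * (x : ℝ) ^ 2 := by
      rw [← hnormC, ← Finset.sum_add_sum_compl S]
      exact add_le_add hS hreg
    have htot' : Nat.card (cen P) * W ≤ Nat.card (cen P) * E + Sᶜ.card * x ^ 2 := by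
      exact_mod_cast htot
    have hc0 : 0 < Nat.card (cen P) := Nat.card_pos
    have h3 : Nat.card (cen P) * (W * q) ≤ Nat.card (cen P) * (E * q + x ^ 2) := by
      calc Nat.card (cen P) * (W * q) = Nat.card (cen P) * W * q := by ring
        _ ≤ (Nat.card (cen P) * E + Sᶜ.card * x ^ 2) * q := Nat.mul_le_mul_right _ htot'
        _ = Nat.card (cen P) * (E * q) + Sᶜ.card * q * x ^ 2 := by ring
        _ ≤ Nat.card (cen P) * (E * q) + Nat.card (cen P) * x ^ 2 :=
          Nat.add_le_add_left (Nat.mul_le_mul_right _ hcard) _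
        _ = _ := by ring
    have h4 := Nat.le_of_mul_le_mul_left h3 hc0
    by_contra hlt
    have h5 : (E + 1) * q ≤ W * q := Nat.mul_le_mul_right _ (Nat.lt_of_not_le hlt)
    nlinarith
  have hin : ∀ ξ ∈ O, mult P (χ : G → ℂ) ξ = mult P (χ : G → ℂ) ξ₀ := fun ξ hξ => by
    obtain ⟨x, -, rfl⟩ := Finset.mem_image.1 hξ
    exact mult_cIrr hχ x ξ₀
  have hsplit : W = E * mult P (χ : G → ℂ) ξ₀ ^ 2 +
      ∑ ξ ∈ Oᶜ, mult P (χ : G → ℂ) ξ ^ 2 := by
    show ∑ ξ : IrrCharacter (cen P), _ = _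
    rw [← Finset.sum_add_sum_compl O, Finset.sum_congr rfl fun ξ hξ => by rw [hin ξ hξ],
      Finset.sum_const, hO, smul_eq_mul]
  have hE := automizerOrder_pos (P := P)
  have h1 : 1 ≤ mult P (χ : G → ℂ) ξ₀ ^ 2 := Nat.one_le_pow _ _ (Nat.pos_of_ne_zero hm₀)
  have hm1 : mult P (χ : G → ℂ) ξ₀ ^ 2 = 1 := le_antisymm
    (Nat.le_of_mul_le_mul_left (show E * mult P (χ : G → ℂ) ξ₀ ^ 2 ≤ E * 1 by omega) hE) h1
  have hrest : ∑ ξ ∈ Oᶜ, mult P (χ : G → ℂ) ξ ^ 2 = 0 := by rw [hm1] at hsplit; omega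
  have hval : ∀ ξ, mult P (χ : G → ℂ) ξ = if ξ ∈ O then 1 else 0 := fun ξ => by
    split_ifs with hξ
    · rw [hin ξ hξ]
      exact (Nat.pow_eq_one.1 hm1).resolve_right two_ne_zero
    · exact (pow_eq_zero_iff two_ne_zero).1
        (Finset.sum_eq_zero_iff.1 hrest ξ (Finset.mem_compl.2 hξ))
  refine ⟨O, hO, hval, ?_⟩
  have hsum : (charDegree (χ : G → ℂ) : ℂ) =
      ((∑ ξ ∈ O, charDegree (ξ : cen P → ℂ) : ℕ) : ℂ) := by
    rw [← (BrauerCharacters.charDegree_spec χ).1, show (χ : G → ℂ) 1 = _ from res_eq_sum hχ (1 : cen P),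
      Nat.cast_sum]
    rw [← Finset.sum_add_sum_compl O]
    rw [Finset.sum_eq_zero (s := Oᶜ) fun ξ hξ => by
      simp [hval ξ, Finset.mem_compl.1 hξ], add_zero]
    exact Finset.sum_congr rfl fun ξ hξ => by
      simp [hval ξ, hξ, (BrauerCharacters.charDegree_spec ξ).1]
  rw [Nat.cast_inj] at hsum
  rw [hsum, ← hO, Finset.card_eq_sum_ones]
  exact Finset.sum_le_sum fun ξ _ => (BrauerCharacters.charDegree_spec ξ).2.1

theorem classInner_eq_sum_coef [Fintype (IrrCharacter G)] {u v : G → ℂ}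
    (hu : IsClassFunction G u) :
    classInner u v = ∑ θ : IrrCharacter G,
      classInner u (θ : G → ℂ) * conj (classInner v (θ : G → ℂ)) := by
  conv_lhs => rw [eq_sum_classInner hu]
  rw [classInner_sum_left]
  refine Finset.sum_congr rfl fun θ _ => ?_
  rw [classInner_smul_left, classInner_conj_symm (θ : G → ℂ) v]

/-- The coefficients of an induced difference. -/
theorem classInner_ind_irr (ξ ξ' : IrrCharacter (cen P)) (θ : IrrCharacter G) :
    classInner (indFun (cen P) ((ξ : cen P → ℂ) - (ξ' : cen P → ℂ))) (θ : G → ℂ) =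
      ((mult P (θ : G → ℂ) ξ : ℤ) - (mult P (θ : G → ℂ) ξ' : ℤ) : ℤ) := by
  have hθ := IsIrrCharacter.isCharacter θ.2
  rw [Frobenius.classInner_indFun _ _ _ (IsIrrCharacter.isClassFunction θ.2), classInner_sub_left,
    classInner_conj_symm (ξ : cen P → ℂ), classInner_conj_symm (ξ' : cen P → ℂ),
    ← mult_spec hθ, ← mult_spec hθ, Complex.conj_natCast, Complex.conj_natCast]
  push_cast
  rfl

theorem sum_coef_degree_eq_zero [Fintype (IrrCharacter G)] (ξ ξ' : IrrCharacter (cen P))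
    (h1 : (ξ : cen P → ℂ) 1 = (ξ' : cen P → ℂ) 1) :
    ∑ θ : IrrCharacter G, ((mult P (θ : G → ℂ) ξ : ℤ) - (mult P (θ : G → ℂ) ξ' : ℤ)) *
      (charDegree (θ : G → ℂ) : ℤ) = 0 := by
  have h := congrFun (eq_sum_classInner (Frobenius.indFun_isClassFunction (cen P)
    ((ξ : cen P → ℂ) - (ξ' : cen P → ℂ)))) 1
  rw [Frobenius.indFun_one, Pi.sub_apply, h1, sub_self, mul_zero, Finset.sum_apply] at h
  apply Int.cast_injective (α := ℂ)
  push_cast
  rw [h]
  refine Finset.sum_congr rfl fun θ _ => ?_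
  rw [Pi.smul_apply, smul_eq_mul, classInner_ind_irr, (BrauerCharacters.charDegree_spec θ).1]
  push_cast
  rfl

theorem sum_coef_mul [Fintype (IrrCharacter G)] (h : StarHyp P)
    (ξ₁ ξ₂ ξ₃ ξ₄ : IrrCharacter (cen P))
    (hv : ∀ c, ¬ p ∣ orderOf c → (ξ₁ : cen P → ℂ) c = (ξ₂ : cen P → ℂ) c) :
    (((∑ θ : IrrCharacter G, ((mult P (θ : G → ℂ) ξ₁ : ℤ) - (mult P (θ : G → ℂ) ξ₂ : ℤ)) *
        ((mult P (θ : G → ℂ) ξ₃ : ℤ) - (mult P (θ : G → ℂ) ξ₄ : ℤ))) : ℤ) : ℂ) =
      pairJ ξ₁ ξ₃ - pairJ ξ₁ ξ₄ - pairJ ξ₂ ξ₃ + pairJ ξ₂ ξ₄ := by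
  rw [← classInner_ind_sub h ξ₁ ξ₂ ξ₃ ξ₄ hv,
    classInner_eq_sum_coef (Frobenius.indFun_isClassFunction _ _)]
  push_cast
  refine Finset.sum_congr rfl fun θ _ => ?_
  rw [classInner_ind_irr, classInner_ind_irr, map_intCast]
  push_cast
  rfl

/-- An integer vector of square sum two, orthogonal to positive weights. -/
theorem exists_partner {ι : Type*} [Fintype ι] [DecidableEq ι] (c w : ι → ℤ) (hw : ∀ i, 0 < w i)
    (hnorm : ∑ i, c i * c i = 2) (hdeg : ∑ i, c i * w i = 0) {η : ι} (hη : 0 < c η) :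
    ∃ ζ, ζ ≠ η ∧ ∀ i, c i = (if i = η then 1 else 0) - (if i = ζ then 1 else 0) := by
  rw [← Finset.add_sum_erase _ _ (Finset.mem_univ η)] at hnorm hdeg
  have hrest0 : (0 : ℤ) ≤ ∑ i ∈ Finset.univ.erase η, c i * c i :=
    Finset.sum_nonneg fun i _ => mul_self_nonneg _
  have hc1 : c η = 1 := by nlinarith
  rw [hc1] at hnorm hdeg
  obtain ⟨ζ, hζ, hζ0⟩ : ∃ ζ ∈ Finset.univ.erase η, c ζ ≠ 0 := by
    by_contra hne
    push Not at hne
    rw [Finset.sum_eq_zero fun i hi => by rw [hne i hi, mul_zero]] at hnorm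
    norm_num at hnorm
  rw [← Finset.add_sum_erase _ _ hζ] at hnorm hdeg
  have hrest1 : (0 : ℤ) ≤ ∑ i ∈ (Finset.univ.erase η).erase ζ, c i * c i :=
    Finset.sum_nonneg fun i _ => mul_self_nonneg _
  have hz : ∀ i ∈ (Finset.univ.erase η).erase ζ, c i = 0 := fun i hi => by
    have hpos : 1 ≤ c ζ * c ζ := by
      rcases lt_or_gt_of_ne hζ0 with e | e <;> nlinarith
    exact mul_self_eq_zero.1 ((Finset.sum_eq_zero_iff_of_nonneg
      fun j _ => mul_self_nonneg (c j)).1 (by omega) i hi)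
  rw [Finset.sum_eq_zero fun i hi => by rw [hz i hi, zero_mul], add_zero] at hnorm hdeg
  have hcz : c ζ = -1 := by
    rcases mul_self_eq_one_iff.1 (by omega : c ζ * c ζ = 1) with e | e
    · rw [e] at hdeg
      have := hw η
      have := hw ζ
      omega
    · exact e
  refine ⟨ζ, Finset.ne_of_mem_erase hζ, fun i => ?_⟩
  by_cases h1 : i = η
  · subst h1
    rw [hc1, if_pos rfl, if_neg (Finset.ne_of_mem_erase hζ).symm, sub_zero]
  by_cases h2 : i = ζ
  · subst h2
    rw [hcz, if_neg h1, if_pos rfl]; norm_num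
  rw [if_neg h1, if_neg h2, sub_zero]
  exact hz i (Finset.mem_erase.2 ⟨h2, Finset.mem_erase.2 ⟨h1, Finset.mem_univ _⟩⟩)

open scoped Classical in
/-- A nontrivial character of small degree, when no other character has `P` in its kernel:
the degree is one and `N = C`. -/
theorem small_degree [Fintype (IrrCharacter G)] (h : StarHyp P) {χ : IrrCharacter G}
    (hdeg : charDegree (χ : G → ℂ) ^ 2 + 1 < Nat.card P) (hχ1 : χ ≠ trivIrr G)
    (honly : ∀ η : IrrCharacter G,
      (∀ z ∈ (P : Subgroup G), (η : G → ℂ) z = (η : G → ℂ) 1) → η = trivIrr G) :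
    charDegree (χ : G → ℂ) = 1 ∧ automizerOrder P = 1 := by
  have hχ := IsIrrCharacter.isCharacter χ.2
  obtain ⟨O, hO, hval, hEx⟩ := exists_orbit h hdeg fun hk => hχ1 (honly χ hk)
  set E := automizerOrder P
  set x := charDegree (χ : G → ℂ)
  have hE0 : 0 < E := automizerOrder_pos (P := P)
  have hEq : E * E + 1 < Nat.card P := by
    have := Nat.mul_le_mul hEx hEx
    rw [sq] at hdeg
    omega
  have hresχ : ∀ c : cen P, (χ : G → ℂ) c = ∑ ξ ∈ O, (ξ : cen P → ℂ) c := fun c => by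
    rw [res_eq_sum hχ c, ← Finset.sum_add_sum_compl O,
      Finset.sum_eq_zero (s := Oᶜ) fun ξ hξ => by simp [hval ξ, Finset.mem_compl.1 hξ], add_zero]
    exact Finset.sum_congr rfl fun ξ hξ => by simp [hval ξ, hξ]
  set ψ : G → ℂ := (χ : G → ℂ) * fun g => conj ((χ : G → ℂ) g) with hψ
  have hψc : IsCharacter G ψ := CharTheory.isCharacter_mul hχ (CharTheory.isCharacter_conj hχ)
  have hψtriv : mult P ψ (trivIrr (cen P)) = E := by
    rw [← Nat.cast_inj (R := ℂ), mult_spec hψc]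
    have hres : (fun c : cen P => (χ : G → ℂ) c) = ∑ ξ ∈ O, (ξ : cen P → ℂ) := funext fun c => by
      rw [hresχ c, Finset.sum_apply]
    calc classInner (fun c : cen P => ψ c) (trivIrr (cen P) : cen P → ℂ)
        = classInner (fun c : cen P => (χ : G → ℂ) c) (fun c : cen P => (χ : G → ℂ) c) := by
          simp [classInner, hψ, trivIrr_apply]
      _ = (E : ℂ) := by
          rw [hres, classInner_sum_left, Finset.sum_congr rfl (g := fun _ => (1 : ℂ))]
          · simp [hO, E]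
          intro a ha
          rw [classInner_sum_right, Finset.sum_congr rfl fun b _ => classInner_irrCharacter a b,
            Finset.sum_ite_eq, if_pos ha]
  have hψone : classInner ψ (trivIrr G : G → ℂ) = 1 := by
    rw [← classInner_self_of_isIrr χ.2]
    simp [classInner, hψ, trivIrr_apply]
  -- degree one when `N = C`
  by_cases hE1 : E = 1
  · refine ⟨?_, hE1⟩
    obtain ⟨ξ₀, hξ₀⟩ := Finset.card_eq_one.1 (hO.trans hE1)
    have hP : ∀ z ∈ (P : Subgroup G), ψ z = ψ 1 := by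
      intro z hz
      have h1 := apply_eq_lam_mul h ξ₀ ⟨z, hz⟩ 1
      rw [mul_one] at h1
      have hχz : (χ : G → ℂ) z = (lam h ξ₀ ⟨z, hz⟩ : ℂ) * (χ : G → ℂ) 1 := by
        rw [show (χ : G → ℂ) z = _ from hresχ ⟨z, le_cen h hz⟩,
          show (χ : G → ℂ) 1 = _ from hresχ 1, hξ₀, Finset.sum_singleton, Finset.sum_singleton, h1]
      show (χ : G → ℂ) z * conj ((χ : G → ℂ) z) = (χ : G → ℂ) 1 * conj ((χ : G → ℂ) 1)
      rw [hχz, map_mul, conj_lam, mul_mul_mul_comm, ← Units.val_mul, mul_inv_cancel, Units.val_one,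
        one_mul]
    obtain ⟨m, hm⟩ := IsCharacter.exists_sum hψc
    have hker : ∀ η : IrrCharacter G, m η ≠ 0 → η = trivIrr G := by
      intro η hη
      refine honly η fun z hz => ?_
      have h1 := hP z hz
      rw [hm, Finset.sum_apply, Finset.sum_apply] at h1
      simp only [Pi.smul_apply, smul_eq_mul] at h1
      -- equality in the triangle inequality
      have hre : ∀ θ : IrrCharacter G, ((m θ : ℂ) * (θ : G → ℂ) z).re ≤
          ((m θ : ℂ) * (θ : G → ℂ) 1).re := fun θ => by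
        simp only [Complex.mul_re, Complex.natCast_re, Complex.natCast_im, zero_mul, sub_zero]
        exact mul_le_mul_of_nonneg_left ((Complex.re_le_norm _).trans
          (IsCharacter.norm_le (IsIrrCharacter.isCharacter θ.2) z)) (Nat.cast_nonneg _)
      have h2 := congrArg Complex.re h1
      rw [Complex.re_sum, Complex.re_sum] at h2
      have h3 := (Finset.sum_eq_sum_iff_of_le fun θ _ => hre θ).1 h2 η (Finset.mem_univ _)
      simp only [Complex.mul_re, Complex.natCast_re, Complex.natCast_im, zero_mul, sub_zero] at h3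
      have h4 := mul_left_cancel₀ (Nat.cast_ne_zero.2 hη) h3
      have hb := IsCharacter.norm_le (IsIrrCharacter.isCharacter η.2) z
      rw [(BrauerCharacters.charDegree_spec η).1, Complex.natCast_re] at hb h4
      rw [(BrauerCharacters.charDegree_spec η).1]
      apply Complex.ext
      · rw [h4, Complex.natCast_re]
      · have h5 : ((η : G → ℂ) z).re * ((η : G → ℂ) z).re +
            ((η : G → ℂ) z).im * ((η : G → ℂ) z).im ≤
            ((charDegree (η : G → ℂ) : ℕ) : ℝ) ^ 2 := by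
          rw [← Complex.normSq_apply, Complex.normSq_eq_norm_sq]
          exact pow_le_pow_left₀ (norm_nonneg _) hb 2
        rw [h4] at h5
        rw [Complex.natCast_im]
        nlinarith [sq_nonneg ((η : G → ℂ) z).im]
    have hm1 : (m (trivIrr G) : ℂ) = 1 := by rw [← hψone, hm, classInner_sum_irr]
    have hone : ψ 1 = 1 := by
      rw [hm, Finset.sum_apply, Finset.sum_eq_single (trivIrr G)]
      · simp [trivIrr_apply, hm1]
      · intro η _ hne
        rw [not_not.1 fun h' => hne (hker η h')]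
        simp
      · simp
    rw [hψ, Pi.mul_apply, (BrauerCharacters.charDegree_spec χ).1, map_natCast] at hone
    exact Nat.eq_one_of_mul_eq_one_right (show x * x = 1 by exact_mod_cast hone)
  exfalso
  obtain ⟨π, hπP, hπ⟩ := exists_proj h
  have := finite_hom h
  have := Fintype.ofFinite ((P : Subgroup G) →* ℂˣ)
  have hq : Fintype.card ((P : Subgroup G) →* ℂˣ) = Nat.card P := by
    rw [← Nat.card_eq_fintype_card, card_hom_eq h]
  -- the ratios
  set R : Finset ((P : Subgroup G) →* ℂˣ) :=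
    (O ×ˢ O).image fun ab => lam h ab.1 * (lam h ab.2)⁻¹
  have hRcard : R.card + E ≤ E * E + 1 := by
    have hsub : R ⊆ insert 1 (O.offDiag.image fun ab => lam h ab.1 * (lam h ab.2)⁻¹) := by
      intro ν hν
      obtain ⟨⟨a, b⟩, hab, rfl⟩ := Finset.mem_image.1 hν
      obtain ⟨ha, hb⟩ := Finset.mem_product.1 hab
      by_cases hne : a = b
      · subst hne; exact Finset.mem_insert.2 (Or.inl (MonoidHom.ext fun w => mul_inv_cancel (lam h a w)))
      · exact Finset.mem_insert_of_mem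
          (Finset.mem_image.2 ⟨(a, b), Finset.mem_offDiag.2 ⟨ha, hb, hne⟩, rfl⟩)
    have h1 := (Finset.card_le_card hsub).trans
      ((Finset.card_insert_le _ _).trans (Nat.add_le_add_right Finset.card_image_le 1))
    rw [Finset.offDiag_card, hO] at h1
    have : E ≤ E * E := Nat.le_mul_self E
    omega
  have hR1 : (1 : (P : Subgroup G) →* ℂˣ) ∈ R := by
    obtain ⟨a, ha⟩ := Finset.card_pos.1 (hO ▸ hE0 : 0 < O.card)
    exact Finset.mem_image.2 ⟨(a, a), Finset.mem_product.2 ⟨ha, ha⟩,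
      MonoidHom.ext fun w => mul_inv_cancel (lam h a w)⟩
  have hψzero : ∀ ξ : IrrCharacter (cen P), lam h ξ ∉ R → mult P ψ ξ = 0 := by
    intro ξ hξ
    rw [← Nat.cast_inj (R := ℂ), mult_spec hψc, Nat.cast_zero, classInner]
    refine mul_eq_zero_of_right _ ?_
    have hexp : ∀ c : cen P, ψ c * conj ((ξ : cen P → ℂ) c) = ∑ a ∈ O, ∑ b ∈ O,
        (a : cen P → ℂ) c * conj ((b : cen P → ℂ) c) * conj ((ξ : cen P → ℂ) c) := fun c => by
      show (χ : G → ℂ) c * conj ((χ : G → ℂ) c) * _ = _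
      rw [hresχ c, map_sum, Finset.sum_mul_sum, Finset.sum_mul]
      exact Finset.sum_congr rfl fun a _ => Finset.sum_mul _ _ _
    rw [Finset.sum_congr rfl fun c _ => hexp c, Finset.sum_comm]
    refine Finset.sum_eq_zero fun a ha => ?_
    rw [Finset.sum_comm]
    refine Finset.sum_eq_zero fun b hb => ?_
    have hne : lam h a * (lam h b)⁻¹ * (lam h ξ)⁻¹ ≠ 1 := fun e => hξ (by
      rw [← show lam h a * (lam h b)⁻¹ = lam h ξ from
        MonoidHom.ext fun w => mul_inv_eq_one.1 (DFunLike.congr_fun e w)]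
      exact Finset.mem_image.2 ⟨(a, b), Finset.mem_product.2 ⟨ha, hb⟩, rfl⟩)
    obtain ⟨z, hz⟩ := DFunLike.ne_iff.1 hne
    set F : cen P → ℂ := fun c =>
      (a : cen P → ℂ) c * conj ((b : cen P → ℂ) c) * conj ((ξ : cen P → ℂ) c)
    set k : ℂˣ := lam h a z * (lam h b z)⁻¹ * (lam h ξ z)⁻¹
    have hk : (k : ℂ) ≠ 1 := fun e => hz (Units.ext e)
    have hshift : ∀ c, F (⟨z, le_cen h z.2⟩ * c) = (k : ℂ) * F c := fun c => by
      simp only [F, k, apply_eq_lam_mul h, map_mul, conj_lam, Units.val_mul]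
      ring
    have hS : ∑ c, F c = (k : ℂ) * ∑ c, F c := by
      rw [Finset.mul_sum, ← Finset.sum_congr rfl fun c _ => hshift c]
      exact (Fintype.sum_equiv (Equiv.mulLeft _) _ _ fun c => rfl).symm
    have : (1 - (k : ℂ)) * ∑ c, F c = 0 := by linear_combination hS
    exact (mul_eq_zero.1 this).resolve_left (sub_ne_zero.2 (Ne.symm hk))
  obtain ⟨m, hm⟩ := IsCharacter.exists_sum hψc
  have hψmult : ∀ ξ, (mult P ψ ξ : ℕ) = ∑ θ : IrrCharacter G, m θ * mult P (θ : G → ℂ) ξ := by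
    intro ξ
    apply Nat.cast_injective (R := ℂ)
    push_cast
    rw [mult_spec hψc, Finset.sum_congr rfl (g := fun θ : IrrCharacter G =>
      classInner ((m θ : ℂ) • fun c : cen P => (θ : G → ℂ) c) (ξ : cen P → ℂ))]
    · rw [← classInner_sum_left]
      congr 1
      funext c
      rw [hm, Finset.sum_apply, Finset.sum_apply]
      rfl
    · intro θ _
      rw [classInner_smul_left, ← mult_spec (IsIrrCharacter.isCharacter θ.2)]
  obtain ⟨η, hη1, hηm, hηtriv⟩ : ∃ η : IrrCharacter G, η ≠ trivIrr G ∧ m η ≠ 0 ∧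
      mult P (η : G → ℂ) (trivIrr (cen P)) ≠ 0 := by
    by_contra hne
    push Not at hne
    have h1 := hψmult (trivIrr (cen P))
    rw [hψtriv, Finset.sum_eq_single (trivIrr G)] at h1
    · have hm1 : m (trivIrr G) = 1 := by
        have : (m (trivIrr G) : ℂ) = 1 := by rw [← hψone, hm, classInner_sum_irr]
        exact_mod_cast this
      have ht : mult P (trivIrr G : G → ℂ) (trivIrr (cen P)) = 1 := by
        rw [← Nat.cast_inj (R := ℂ), mult_spec (IsIrrCharacter.isCharacter (trivIrr G).2),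
          Nat.cast_one, ← classInner_self_of_isIrr (trivIrr (cen P)).2]
        congr 1
      rw [hm1, ht, mul_one] at h1
      exact hE1 h1
    · intro θ _ hθ
      by_cases hm0 : m θ = 0
      · rw [hm0, zero_mul]
      · rw [hne θ hθ hm0, mul_zero]
    · simp
  have hηc := IsIrrCharacter.isCharacter η.2
  have hηR : ∀ ξ, lam h ξ ∉ R → mult P (η : G → ℂ) ξ = 0 := by
    intro ξ hξ
    have h1 := hψzero ξ hξ
    rw [hψmult, Finset.sum_eq_zero_iff] at h1
    exact (Nat.mul_eq_zero.1 (h1 η (Finset.mem_univ _))).resolve_left hηm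
  have hsep : ∀ ξ, mult P (η : G → ℂ) ξ ≠ 0 → ∀ ν, ν ∉ R → ¬ SameOrbit (lam h ξ) ν := by
    rintro ξ hξ ν hν ⟨y, hy⟩
    have hl : lam h (cIrr y ξ) = ν := MonoidHom.ext fun z => (lam_cIrr h y ξ z).trans (hy z).symm
    exact hξ ((mult_cIrr hηc y ξ).symm.trans (hηR _ (hl ▸ hν)))
  obtain ⟨ξl, hξl, hl1⟩ := exists_lam_ne_one h hηc fun hk => hη1 (honly η hk)
  set νl := lam h ξl
  obtain ⟨μ, hμR⟩ : ∃ μ, μ ∉ R := by
    by_contra hne
    push Not at hne
    have : Finset.univ ⊆ R := fun ν _ => hne ν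
    have h1 := Finset.card_le_card this
    rw [Finset.card_univ, hq] at h1
    omega
  obtain ⟨μ', hμ'R, hμμ'⟩ : ∃ μ', μ' ∉ R ∧ ¬ SameOrbit μ μ' := by
    by_contra hne
    push Not at hne
    have : Finset.univ ⊆ R ∪ Finset.univ.filter (SameOrbit μ) := fun ν _ => by
      by_cases hν : ν ∈ R
      · exact Finset.mem_union_left _ hν
      · exact Finset.mem_union_right _ (Finset.mem_filter.2 ⟨Finset.mem_univ _, hne ν hν⟩)
    have h1 := (Finset.card_le_card this).trans (Finset.card_union_le _ _)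
    rw [Finset.card_univ, hq] at h1
    have := card_orbit_mul_le (P := P) μ
    omega
  have hμ1 : μ ≠ 1 := fun e => hμR (e ▸ hR1)
  have hμ'1 : μ' ≠ 1 := fun e => hμ'R (e ▸ hR1)
  have hlμ : ¬ SameOrbit νl μ := hsep ξl hξl μ hμR
  have hlμ' : ¬ SameOrbit νl μ' := hsep ξl hξl μ' hμ'R
  set tw : ((P : Subgroup G) →* ℂˣ) → IrrCharacter (cen P) := fun ν => twist π (ν * νl⁻¹) ξl
  have htwl : ∀ ν, lam h (tw ν) = ν := fun ν => by
    rw [lam_twist h hπP]
    exact MonoidHom.ext fun w => inv_mul_cancel_right (ν w) (νl w)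
  have htwv : ∀ ν, ∀ c, ¬ p ∣ orderOf c →
      (tw ν : cen P → ℂ) c = (ξl : cen P → ℂ) c := fun ν c hc => by
    rw [twist_apply, hπ c hc, map_one, Units.val_one, one_mul]
  have hJ0 : ∀ a b, ¬ SameOrbit (lam h b) (lam h a) → pairJ a b = 0 :=
    fun a b hab => pairJ_eq_zero h hab
  have hnosym : ∀ {ν ν' : (P : Subgroup G) →* ℂˣ}, ¬ SameOrbit ν ν' → ¬ SameOrbit ν' ν :=
    fun hab hba => hab hba.symm
  -- differences with a separated partner
  have hpartner : ∀ a b : IrrCharacter (cen P), lam h a ≠ 1 → lam h b ≠ 1 →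
      ¬ SameOrbit (lam h a) (lam h b) →
      (∀ c, ¬ p ∣ orderOf c → (a : cen P → ℂ) c = (b : cen P → ℂ) c) →
      mult P (η : G → ℂ) a ≠ 0 → mult P (η : G → ℂ) b = 0 →
      ∃ ζ : IrrCharacter G, ζ ≠ η ∧ ∀ θ : IrrCharacter G,
        (mult P (θ : G → ℂ) a : ℤ) - (mult P (θ : G → ℂ) b : ℤ) =
          (if θ = η then 1 else 0) - (if θ = ζ then 1 else 0) := by
    intro a b ha hb hab hv hma hmb
    refine exists_partner (fun θ : IrrCharacter G =>
      (mult P (θ : G → ℂ) a : ℤ) - (mult P (θ : G → ℂ) b : ℤ))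
      (fun θ => (charDegree (θ : G → ℂ) : ℤ))
      (fun θ => by exact_mod_cast (BrauerCharacters.charDegree_spec θ).2.1) ?_
      (sum_coef_degree_eq_zero a b (hv 1 (by rw [orderOf_one]; exact hp.out.not_dvd_one))) ?_
    · have h1 := sum_coef_mul h a b a b hv
      rw [pairJ_self h ha, pairJ_self h hb, hJ0 a b (hnosym hab), hJ0 b a hab] at h1
      rw [← Int.cast_inj (α := ℂ), h1]
      norm_num
    · show (0 : ℤ) < _
      rw [hmb]
      simpa using Nat.pos_of_ne_zero hma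
  set D : Finset ((P : Subgroup G) →* ℂˣ) :=
    Finset.univ.filter fun ν => ν ≠ 1 ∧ ¬ SameOrbit νl ν ∧ ¬ SameOrbit μ ν
  have hDcard : Nat.card P ≤ 1 + E + E + D.card := by
    have hsub : Finset.univ ⊆ ({1} ∪ Finset.univ.filter (SameOrbit νl)) ∪
        Finset.univ.filter (SameOrbit μ) ∪ D := by
      intro ν _
      by_cases h1 : ν = 1
      · simp [h1]
      by_cases h2 : SameOrbit νl ν
      · simp [h2]
      by_cases h3 : SameOrbit μ ν
      · simp [h3]
      simp [D, h1, h2, h3]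
    have h1 := Finset.card_le_card hsub
    rw [Finset.card_univ, hq] at h1
    refine h1.trans ((Finset.card_union_le _ _).trans (Nat.add_le_add_right ?_ _))
    refine (Finset.card_union_le _ _).trans (Nat.add_le_add ?_ (card_orbit_mul_le μ))
    exact (Finset.card_union_le _ _).trans
      (Nat.add_le_add (Finset.card_singleton _).le (card_orbit_mul_le νl))
  have hDmult : ∀ ν ∈ D, mult P (η : G → ℂ) (tw ν) = 0 := by
    intro ν hν
    obtain ⟨-, hν1, hνl, hνμ⟩ := Finset.mem_filter.1 hν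
    by_contra hm0
    have hνμ' : ¬ SameOrbit ν μ' := htwl ν ▸ hsep (tw ν) hm0 μ' hμ'R
    obtain ⟨ζ₁, hζ₁, e1⟩ := hpartner ξl (tw μ) hl1 (by rwa [htwl]) (by rwa [htwl])
      (fun c hc => (htwv μ c hc).symm) hξl (hηR _ (by rwa [htwl]))
    obtain ⟨ζ₂, hζ₂, e2⟩ := hpartner (tw ν) (tw μ') (by rwa [htwl]) (by rwa [htwl])
      (by rwa [htwl, htwl]) (fun c hc => (htwv ν c hc).trans (htwv μ' c hc).symm) hm0
      (hηR _ (by rwa [htwl]))
    have h1 := sum_coef_mul h ξl (tw μ) (tw ν) (tw μ') (fun c hc => (htwv μ c hc).symm)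
    rw [hJ0 ξl (tw ν) (by rw [htwl]; exact hnosym hνl),
      hJ0 ξl (tw μ') (by rw [htwl]; exact hnosym hlμ'),
      hJ0 (tw μ) (tw ν) (by rw [htwl, htwl]; exact hnosym hνμ),
      hJ0 (tw μ) (tw μ') (by rw [htwl, htwl]; exact hnosym hμμ'),
      Finset.sum_congr rfl fun θ _ => by rw [e1 θ, e2 θ]] at h1
    simp only [sub_mul, mul_sub, Finset.sum_sub_distrib, ite_mul, one_mul, zero_mul,
      Finset.sum_ite_eq', Finset.mem_univ, if_true, if_neg hζ₁, if_neg (Ne.symm hζ₁),
      if_neg hζ₂, if_neg (Ne.symm hζ₂)] at h1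
    split_ifs at h1 <;> norm_num at h1
  have hDpartner : ∀ ν ∈ D, ∃ ζ : IrrCharacter G, ζ ≠ η ∧ ∀ θ : IrrCharacter G,
        (mult P (θ : G → ℂ) ξl : ℤ) - (mult P (θ : G → ℂ) (tw ν) : ℤ) =
          (if θ = η then 1 else 0) - (if θ = ζ then 1 else 0) := by
    intro ν hν
    obtain ⟨-, hν1, hνl, -⟩ := Finset.mem_filter.1 hν
    exact hpartner ξl (tw ν) hl1 (by rwa [htwl]) (by rwa [htwl])
      (fun c hc => (htwv ν c hc).symm) hξl (hDmult ν hν)
  have : Nonempty (IrrCharacter G) := ⟨trivIrr G⟩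
  choose! ζ hζη hζ using hDpartner
  -- the induced function
  set μ₀ := twist π μ (trivIrr (cen P))
  have hμ₀l : lam h μ₀ = μ := by
    rw [lam_twist h hπP, lam_trivIrr]
    exact MonoidHom.ext fun w => mul_one (μ w)
  have hμ₀v : ∀ c, ¬ p ∣ orderOf c →
      (trivIrr (cen P) : cen P → ℂ) c = (μ₀ : cen P → ℂ) c := fun c hc => by
    rw [twist_apply, hπ c hc, map_one, Units.val_one, one_mul]
  set cα : IrrCharacter G → ℤ := fun θ =>
    (mult P (θ : G → ℂ) (trivIrr (cen P)) : ℤ) - (mult P (θ : G → ℂ) μ₀ : ℤ) with hcα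
  have hαnorm : ∑ θ, cα θ * cα θ = (E : ℤ) + 1 := by
    have h1 := sum_coef_mul h (trivIrr (cen P)) μ₀ (trivIrr (cen P)) μ₀ hμ₀v
    rw [pairJ_self_triv, pairJ_self h (hμ₀l ▸ hμ1),
      hJ0 (trivIrr (cen P)) μ₀ (by rw [hμ₀l, lam_trivIrr]; exact hnosym (fun hs => hμ1 (sameOrbit_one_iff.1 hs))),
      hJ0 μ₀ (trivIrr (cen P)) (by rw [hμ₀l, lam_trivIrr]; exact fun hs => hμ1 (sameOrbit_one_iff.1 hs))]
      at h1
    rw [← Int.cast_inj (α := ℂ), h1]
    push_cast
    ring
  have hαdeg : ∑ θ, cα θ * (charDegree (θ : G → ℂ) : ℤ) = 0 :=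
    sum_coef_degree_eq_zero (trivIrr (cen P)) μ₀ (by simp [trivIrr_apply, μ₀, twist_apply])
  have hcη : 1 ≤ cα η := by
    simp only [hcα]
    rw [hηR μ₀ (by rwa [hμ₀l])]
    have := Nat.pos_of_ne_zero hηtriv
    omega
  have hcD : ∀ ν ∈ D, cα (ζ ν) = cα η := by
    intro ν hν
    obtain ⟨-, hν1, hνl, hνμ⟩ := Finset.mem_filter.1 hν
    have h1 := sum_coef_mul h (trivIrr (cen P)) μ₀ ξl (tw ν) hμ₀v
    rw [hJ0 (trivIrr (cen P)) ξl (by rw [lam_trivIrr]; exact hnosym fun hs => hl1 (sameOrbit_one_iff.1 hs)),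
      hJ0 (trivIrr (cen P)) (tw ν) (by rw [lam_trivIrr, htwl]; exact hnosym fun hs => hν1 (sameOrbit_one_iff.1 hs)),
      hJ0 μ₀ ξl (by rw [hμ₀l]; exact hlμ),
      hJ0 μ₀ (tw ν) (by rw [hμ₀l, htwl]; exact hnosym hνμ),
      Finset.sum_congr rfl fun θ _ => by rw [hζ ν hν θ]] at h1
    simp only [mul_sub, Finset.sum_sub_distrib, mul_ite, mul_one, mul_zero, Finset.sum_ite_eq',
      Finset.mem_univ, if_true, sub_zero, add_zero] at h1
    have h2 : cα η - cα (ζ ν) = 0 := by
      apply Int.cast_injective (α := ℂ)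
      simpa [hcα] using h1
    omega
  have htriv0 : ∀ ξ : IrrCharacter (cen P), lam h ξ ≠ 1 → mult P (trivIrr G : G → ℂ) ξ = 0 := by
    intro ξ hξ
    rw [← Nat.cast_inj (R := ℂ), mult_spec (IsIrrCharacter.isCharacter (trivIrr G).2), Nat.cast_zero]
    show classInner (trivIrr (cen P) : cen P → ℂ) (ξ : cen P → ℂ) = 0
    rw [classInner_irrCharacter, if_neg]
    exact fun e => hξ (e ▸ lam_trivIrr h)
  have hζ1 : ∀ ν ∈ D, ζ ν ≠ trivIrr G := by
    intro ν hν e
    have h1 := hζ ν hν (trivIrr G)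
    rw [htriv0 ξl hl1, htriv0 (tw ν) (by rw [htwl]; exact (Finset.mem_filter.1 hν).2.1),
      if_neg (Ne.symm hη1), if_pos e.symm] at h1
    norm_num at h1
  have hc1 : cα (trivIrr G) = 1 := by
    simp only [hcα]
    rw [htriv0 μ₀ (hμ₀l ▸ hμ1)]
    have : mult P (trivIrr G : G → ℂ) (trivIrr (cen P)) = 1 := by
      rw [← Nat.cast_inj (R := ℂ), mult_spec (IsIrrCharacter.isCharacter (trivIrr G).2),
        Nat.cast_one, ← classInner_self_of_isIrr (trivIrr (cen P)).2]
      congr 1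
    omega
  -- the fibres lie in orbits
  have hfib : ∀ θ ∈ D.image ζ, (D.filter fun ν => ζ ν = θ).card ≤ E := by
    intro θ hθ
    obtain ⟨ν₀, hν₀, rfl⟩ := Finset.mem_image.1 hθ
    refine (Finset.card_le_card fun ν hν => ?_).trans (card_orbit_mul_le ν₀)
    obtain ⟨hνD, he⟩ := Finset.mem_filter.1 hν
    refine Finset.mem_filter.2 ⟨Finset.mem_univ _, ?_⟩
    by_contra hne
    obtain ⟨-, -, hl₀, -⟩ := Finset.mem_filter.1 hν₀
    obtain ⟨-, -, hlν, -⟩ := Finset.mem_filter.1 hνD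
    have h1 := sum_coef_mul h ξl (tw ν₀) ξl (tw ν) (fun c hc => (htwv ν₀ c hc).symm)
    rw [pairJ_self h hl1, hJ0 ξl (tw ν) (by rw [htwl]; exact hnosym hlν),
      hJ0 (tw ν₀) ξl (by rw [htwl]; exact hl₀),
      hJ0 (tw ν₀) (tw ν) (by rw [htwl, htwl]; exact hnosym hne),
      Finset.sum_congr rfl fun θ _ => by rw [hζ ν₀ hν₀ θ, hζ ν hνD θ, he]] at h1
    simp only [sub_mul, mul_sub, Finset.sum_sub_distrib, ite_mul, one_mul, zero_mul,
      Finset.sum_ite_eq', Finset.mem_univ, if_true, if_neg (hζη ν₀ hν₀),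
      if_neg (Ne.symm (hζη ν₀ hν₀))] at h1
    norm_num at h1
  have hDim : D.card ≤ E * (D.image ζ).card := Finset.card_le_mul_card_image D E hfib
  set T : Finset (IrrCharacter G) := insert (trivIrr G) (insert η (D.image ζ))
  have hTcard : E + 1 ≤ T.card := by
    have hη' : η ∉ D.image ζ := fun h' => by
      obtain ⟨ν, hν, e⟩ := Finset.mem_image.1 h'
      exact hζη ν hν e
    have ht' : trivIrr G ∉ insert η (D.image ζ) := fun h' => by
      rcases Finset.mem_insert.1 h' with e | h''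
      · exact hη1 e.symm
      · obtain ⟨ν, hν, e⟩ := Finset.mem_image.1 h''
        exact hζ1 ν hν e
    rw [Finset.card_insert_of_notMem ht', Finset.card_insert_of_notMem hη']
    by_contra hlt
    have hle : (D.image ζ).card + 2 ≤ E := by omega
    have := Nat.mul_le_mul_left E hle
    nlinarith
  have hT : ∀ θ ∈ T, 1 ≤ cα θ := by
    intro θ hθ
    rcases Finset.mem_insert.1 hθ with rfl | hθ
    · omega
    rcases Finset.mem_insert.1 hθ with rfl | hθ
    · exact hcη
    obtain ⟨ν, hν, rfl⟩ := Finset.mem_image.1 hθ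
    rw [hcD ν hν]
    exact hcη
  rw [← Finset.sum_add_sum_compl T] at hαnorm hαdeg
  have hTsum : (T.card : ℤ) ≤ ∑ θ ∈ T, cα θ * cα θ := by
    rw [Finset.card_eq_sum_ones, Nat.cast_sum]
    exact Finset.sum_le_sum fun θ hθ => by have := hT θ hθ; push_cast; nlinarith
  have hout0 : 0 ≤ ∑ θ ∈ Tᶜ, cα θ * cα θ := Finset.sum_nonneg fun θ _ => mul_self_nonneg _
  have hout : ∀ θ ∈ Tᶜ, cα θ = 0 := fun θ hθ => mul_self_eq_zero.1
    ((Finset.sum_eq_zero_iff_of_nonneg fun i _ => mul_self_nonneg (cα i)).1 (by omega) θ hθ)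
  rw [Finset.sum_eq_zero (s := Tᶜ) fun θ hθ => by rw [hout θ hθ, zero_mul], add_zero] at hαdeg
  have hpos : 0 < ∑ θ ∈ T, cα θ * (charDegree (θ : G → ℂ) : ℤ) :=
    Finset.sum_pos (fun θ hθ => mul_pos (hT θ hθ) (by
      exact_mod_cast (BrauerCharacters.charDegree_spec θ).2.1))
      ⟨trivIrr G, Finset.mem_insert_self _ _⟩
  omega

end CfsgLib.CharDegreesTheory.SmallDegree
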