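import Cfsg.Agent.Lib.CharTheory.Orthogonality
import Cfsg.Agent.Lib.CharTheory.Linear
import Cfsg.Agent.Lib.CharTheory.Inflation
import Cfsg.Agent.Lib.RealChar.FeitThompson
import Cfsg.Agent.Lib.Frobenius.Induce
import Cfsg.Agent.Lib.Coherence.Virtual
import Cfsg.Agent.Lib.BrauerCharacters.ClassMul
import Mathlib.GroupTheory.Transfer
import Mathlib.GroupTheory.FiniteAbelian.Duality
import Mathlib.FieldTheory.IsAlgClosed.Basic
import Mathlib.Analysis.Complex.Polynomial.Basic

/-!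
# An abelian Sylow subgroup with constant centralizers: the local character theory

`P` is a Sylow `p`-subgroup all of whose non-identity elements have centralizer `C = C(P)`.
-/

set_option autoImplicit false
set_option linter.style.haveILetI false
set_option linter.unusedSectionVars false

open scoped ComplexConjugate

noncomputable section

namespace CfsgLib.CharDegreesTheory.SmallDegree

open Cfsg CfsgLib CfsgLib.CharTheory

variable {G : Type*} [Group G] [Finite G] {p : ℕ} [hp : Fact p.Prime] (P : Sylow p G)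

/-- The centralizer of `P`. -/
abbrev cen : Subgroup G := Subgroup.centralizer ((P : Subgroup G) : Set G)

/-- The normalizer of `P`. -/
abbrev nor : Subgroup G := Subgroup.normalizer ((P : Subgroup G) : Set G)

/-- The hypothesis on the centralizers. -/
def StarHyp : Prop :=
  ∀ x ∈ (P : Subgroup G), x ≠ 1 → Subgroup.centralizer ({x} : Set G) = cen P

variable {P}

theorem le_cen (h : StarHyp P) : (P : Subgroup G) ≤ cen P := by
  intro x hx
  by_cases hx1 : x = 1
  · rw [hx1]; exact one_mem _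
  rw [← h x hx hx1]
  exact Subgroup.mem_centralizer_singleton_iff.2 rfl

/-- A `p`-element centralizing `P` lies in `P`. -/
theorem mem_of_pElem {c : G} (hc : c ∈ cen P) {k : ℕ} (hk : orderOf c = p ^ k) :
    c ∈ (P : Subgroup G) := by
  have hZ : IsPGroup p (Subgroup.zpowers c) :=
    IsPGroup.of_card (n := k) (by rw [Nat.card_zpowers, hk])
  have hle : Subgroup.zpowers c ≤ nor P :=
    (Subgroup.zpowers_le.2 hc).trans (Subgroup.centralizer_le_normalizer _)
  rw [← P.is_maximal' (hZ.to_sup_of_normal_right' P.isPGroup' hle) le_sup_right]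
  exact Subgroup.mem_sup_left (Subgroup.mem_zpowers c)

theorem conj_mem_cen {x c : G} (hx : x ∈ nor P) (hc : c ∈ cen P) : x * c * x⁻¹ ∈ cen P := by
  rw [Subgroup.mem_centralizer_iff]
  intro z hz
  have hz' : x⁻¹ * z * x ∈ (P : Subgroup G) := by
    have := (Subgroup.mem_normalizer_iff.1 (inv_mem hx) z).1 hz
    rwa [inv_inv] at this
  have h := Subgroup.mem_centralizer_iff.1 hc _ hz'
  calc z * (x * c * x⁻¹) = x * (x⁻¹ * z * x * c) * x⁻¹ := by group
    _ = x * c * x⁻¹ * z := by rw [h]; group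

/-- Conjugation by an element of the normalizer, on the centralizer. -/
def cx (x : nor P) : cen P ≃* cen P where
  toFun c := ⟨(x : G) * c * (x : G)⁻¹, conj_mem_cen x.2 c.2⟩
  invFun c := ⟨(x : G)⁻¹ * c * (x : G), by
    simpa using conj_mem_cen (inv_mem x.2) c.2⟩
  left_inv c := Subtype.ext (by simp [mul_assoc])
  right_inv c := Subtype.ext (by simp [mul_assoc])
  map_mul' a b := Subtype.ext (by simp [mul_assoc])

theorem cx_apply (x : nor P) (c : cen P) : ((cx x c : cen P) : G) = (x : G) * c * (x : G)⁻¹ := rfl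

theorem orderOf_cx (x : nor P) (c : cen P) : orderOf (cx x c) = orderOf c :=
  MulEquiv.orderOf_eq _ _

/-- A conjugation bringing a `p`-singular element of `C` into `C` normalizes `P`. -/
theorem mem_nor_of_conj (h : StarHyp P) {s x : G} (hs : s ∈ cen P) (hps : p ∣ orderOf s)
    (hxs : x * s * x⁻¹ ∈ cen P) : x ∈ nor P := by
  set m := ordCompl[p] (orderOf s)
  have hw : orderOf (s ^ m) = p ^ (orderOf s).factorization p := by
    rw [orderOf_pow, Nat.gcd_eq_right (Nat.ordCompl_dvd _ _),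
      Nat.div_div_self (Nat.ordProj_dvd _ _) (orderOf_pos s).ne']
  have hwP : s ^ m ∈ (P : Subgroup G) := mem_of_pElem (pow_mem hs m) hw
  have hw1 : s ^ m ≠ 1 := by
    intro e
    rw [e, orderOf_one] at hw
    have := hp.out.factorization_pos_of_dvd (orderOf_pos s).ne' hps
    exact absurd hw.symm (Nat.one_lt_pow this.ne' hp.out.one_lt).ne'
  have hconj : x * s ^ m * x⁻¹ ∈ cen P := by rw [← conj_pow]; exact pow_mem hxs m
  have hconjP : x * s ^ m * x⁻¹ ∈ (P : Subgroup G) :=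
    mem_of_pElem (k := (orderOf s).factorization p) hconj
      (((MulAut.conj x).orderOf_eq _).trans hw)
  have h1 := h _ hwP hw1
  have h2 := h _ hconjP (fun e => hw1 (by
    calc s ^ m = x⁻¹ * (x * s ^ m * x⁻¹) * x := by group
      _ = 1 := by rw [e]; group))
  rw [Subgroup.mem_normalizer_iff]
  have hmap : ∀ z, z ∈ (P : Subgroup G) → x * z * x⁻¹ ∈ (P : Subgroup G) := by
    intro z hz
    obtain ⟨k, hk⟩ := (IsPGroup.iff_orderOf.1 P.isPGroup') ⟨z, hz⟩
    rw [Subgroup.orderOf_mk] at hk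
    refine mem_of_pElem (k := k) ?_ (((MulAut.conj x).orderOf_eq _).trans hk)
    rw [← h2, Subgroup.mem_centralizer_singleton_iff]
    have hz2 : z ∈ Subgroup.centralizer ({s ^ m} : Set G) := by rw [h1]; exact le_cen h hz
    rw [Subgroup.mem_centralizer_singleton_iff] at hz2
    calc x * z * x⁻¹ * (x * s ^ m * x⁻¹) = x * (z * s ^ m) * x⁻¹ := by group
      _ = x * s ^ m * x⁻¹ * (x * z * x⁻¹) := by rw [hz2]; group
  intro z
  refine ⟨hmap z, fun hz => ?_⟩
  let f : ↥(P : Subgroup G) → ↥(P : Subgroup G) := fun u => ⟨x * u * x⁻¹, hmap u u.2⟩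
  have hf : Function.Injective f := fun a b e => by
    have e' : x * (a : G) * x⁻¹ = x * (b : G) * x⁻¹ := congrArg Subtype.val e
    exact Subtype.ext (mul_left_cancel (mul_right_cancel e'))
  obtain ⟨u, hu⟩ := Finite.injective_iff_surjective.1 hf ⟨_, hz⟩
  have hu' : x * (u : G) * x⁻¹ = x * z * x⁻¹ := congrArg Subtype.val hu
  exact mul_left_cancel (mul_right_cancel hu') ▸ u.2

/-- An element of `N` fixing a nontrivial character of `P` lies in `C`. -/
theorem mem_cen_of_fix (h : StarHyp P) {A : Type*} [CommGroup A]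
    (ν : (P : Subgroup G) →* A) (hν : ν ≠ 1) {x : G} (hx : x ∈ nor P)
    (hfix : ∀ z : (P : Subgroup G),
      ν ⟨x * z * x⁻¹, (Subgroup.mem_normalizer_iff.1 hx z).1 z.2⟩ = ν z) :
    x ∈ cen P := by
  by_contra hxC
  apply hν
  let f : ↥(P : Subgroup G) → ↥(P : Subgroup G) := fun z =>
    ⟨x * z * x⁻¹, (Subgroup.mem_normalizer_iff.1 hx z).1 z.2⟩ * z⁻¹
  have hf : Function.Injective f := by
    intro a b e
    have e' : x * (a : G) * x⁻¹ * (a : G)⁻¹ = x * (b : G) * x⁻¹ * (b : G)⁻¹ :=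
      congrArg Subtype.val e
    by_contra hne
    apply hxC
    have hcP : (b : G)⁻¹ * a ∈ (P : Subgroup G) := mul_mem (inv_mem b.2) a.2
    have hc1 : (b : G)⁻¹ * a ≠ 1 := fun e1 => hne (Subtype.ext (inv_mul_eq_one.1 e1).symm)
    rw [← h _ hcP hc1, Subgroup.mem_centralizer_singleton_iff]
    have hab : (a : G) * b = b * a := (Subgroup.mem_centralizer_iff.1 (le_cen h b.2) a a.2)
    have e2 : x * ((b : G)⁻¹ * a) * x⁻¹ = (b : G)⁻¹ * a := by
      calc x * ((b : G)⁻¹ * a) * x⁻¹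
          = (x * b * x⁻¹)⁻¹ * (x * a * x⁻¹ * (a : G)⁻¹) * a := by group
        _ = (x * b * x⁻¹)⁻¹ * (x * b * x⁻¹ * (b : G)⁻¹) * a := by rw [e']
        _ = (b : G)⁻¹ * a := by group
    exact mul_inv_eq_iff_eq_mul.1 e2
  refine MonoidHom.ext fun w => ?_
  obtain ⟨z, rfl⟩ := Finite.injective_iff_surjective.1 hf w
  rw [map_mul, map_inv, hfix z, mul_inv_cancel, MonoidHom.one_apply]

theorem exists_proj (h : StarHyp P) : ∃ π : cen P →* (P : Subgroup G),
    (∀ z : (P : Subgroup G), π ⟨z, le_cen h z.2⟩ = z) ∧ ∀ c, ¬ p ∣ orderOf c → π c = 1 := by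
  set PC : Sylow p (cen P) := P.subtype (le_cen h)
  have hnc : Subgroup.normalizer ((PC : Subgroup (cen P)) : Set (cen P)) ≤
      Subgroup.centralizer ((PC : Subgroup (cen P)) : Set (cen P)) := fun c _ => by
    rw [Subgroup.mem_centralizer_iff]
    exact fun z hz => Subtype.ext (Subgroup.mem_centralizer_iff.1 c.2 z hz)
  set T := MonoidHom.transferSylow PC hnc
  set j : (P : Subgroup G) →* cen P := Subgroup.inclusion (le_cen h)
  let e : (PC : Subgroup (cen P)) ≃* (P : Subgroup G) := Subgroup.subgroupOfEquivOfLe (le_cen h)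
  let φ : (P : Subgroup G) →* (P : Subgroup G) := e.toMonoidHom.comp (T.comp j)
  have hφ : Function.Bijective φ := by
    have hpow : φ = fun z : (P : Subgroup G) => z ^ (PC : Subgroup (cen P)).index := by
      funext z
      show e (T (j z)) = _
      rw [MonoidHom.transferSylow_eq_pow PC hnc (j z) z.2]
      exact Subtype.ext rfl
    rw [hpow]
    exact (P.isPGroup'.powEquiv' PC.not_dvd_index).bijective
  let φe : (P : Subgroup G) ≃* (P : Subgroup G) := MulEquiv.ofBijective φ hφ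
  refine ⟨φe.symm.toMonoidHom.comp (e.toMonoidHom.comp T), fun z => ?_, fun c hc => ?_⟩
  · exact φe.symm_apply_eq.2 rfl
  · set w := φe.symm.toMonoidHom.comp (e.toMonoidHom.comp T) c
    obtain ⟨k, hk⟩ := (IsPGroup.iff_orderOf.1 P.isPGroup') w
    have hd : orderOf w ∣ orderOf c := orderOf_map_dvd _ c
    rw [hk] at hd
    rcases k with _ | k
    · exact orderOf_eq_one_iff.1 (by rw [hk, pow_zero])
    · exact absurd ((dvd_pow_self p (Nat.succ_ne_zero k)).trans hd) hc

/-! ## The central character of a character of `C` on `P` -/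

theorem center_of_mem (h : StarHyp P) (z : (P : Subgroup G)) :
    (⟨z, le_cen h z.2⟩ : cen P) ∈ Subgroup.center (cen P) :=
  Subgroup.mem_center_iff.2 fun c => Subtype.ext
    (Subgroup.mem_centralizer_iff.1 c.2 z z.2).symm

theorem apply_mul_of_mem (h : StarHyp P) (ξ : IrrCharacter (cen P)) (z : (P : Subgroup G))
    (c : cen P) : (ξ : cen P → ℂ) (⟨z, le_cen h z.2⟩ * c) =
      (ξ : cen P → ℂ) ⟨z, le_cen h z.2⟩ / (ξ : cen P → ℂ) 1 * (ξ : cen P → ℂ) c := by
  obtain ⟨ω, -, hω⟩ := RealChar.exists_central_scalar ξ.2 (center_of_mem h z)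
  have h1 := hω 1
  rw [mul_one] at h1
  rw [hω c, h1, mul_div_assoc, div_self (apply_one_ne_zero_of_isIrr ξ.2), mul_one]

/-- The central character of `ξ` on `P`. -/
def lam (h : StarHyp P) (ξ : IrrCharacter (cen P)) : (P : Subgroup G) →* ℂˣ :=
  MonoidHom.toHomUnits
    { toFun := fun z => (ξ : cen P → ℂ) ⟨z, le_cen h z.2⟩ / (ξ : cen P → ℂ) 1
      map_one' := div_self (apply_one_ne_zero_of_isIrr ξ.2)
      map_mul' := fun a b => by
        rw [show (⟨((a * b : (P : Subgroup G)) : G), le_cen h (a * b).2⟩ : cen P) =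
          ⟨a, le_cen h a.2⟩ * ⟨b, le_cen h b.2⟩ from rfl, apply_mul_of_mem h ξ a]
        ring }

theorem lam_apply (h : StarHyp P) (ξ : IrrCharacter (cen P)) (z : (P : Subgroup G)) :
    (lam h ξ z : ℂ) = (ξ : cen P → ℂ) ⟨z, le_cen h z.2⟩ / (ξ : cen P → ℂ) 1 := rfl

theorem apply_eq_lam_mul (h : StarHyp P) (ξ : IrrCharacter (cen P)) (z : (P : Subgroup G))
    (c : cen P) :
    (ξ : cen P → ℂ) (⟨z, le_cen h z.2⟩ * c) = (lam h ξ z : ℂ) * (ξ : cen P → ℂ) c :=
  apply_mul_of_mem h ξ z c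

theorem lam_trivIrr (h : StarHyp P) : lam h (trivIrr (cen P)) = 1 :=
  MonoidHom.ext fun z => Units.ext (by simp [lam_apply, trivIrr_apply])

theorem conj_lam (h : StarHyp P) (ξ : IrrCharacter (cen P)) (z : (P : Subgroup G)) :
    conj (lam h ξ z : ℂ) = (((lam h ξ z)⁻¹ : ℂˣ) : ℂ) := by
  have hfin : IsOfFinOrder (lam h ξ z : ℂ) :=
    MonoidHom.isOfFinOrder ((Units.coeHom ℂ).comp (lam h ξ)) (isOfFinOrder_of_finite z)
  rw [Units.val_inv_eq_inv_val, Complex.inv_eq_conj hfin.norm_eq_one]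

/-- The conjugate of a character of `C` by an element of `N`. -/
def cIrr (x : nor P) (ξ : IrrCharacter (cen P)) : IrrCharacter (cen P) :=
  ⟨fun c => (ξ : cen P → ℂ) (cx x c), CharTheory.isIrrCharacter_comp_mulEquiv ξ.2 (cx x)⟩

theorem cIrr_apply (x : nor P) (ξ : IrrCharacter (cen P)) (c : cen P) :
    (cIrr x ξ : cen P → ℂ) c = (ξ : cen P → ℂ) (cx x c) := rfl

theorem cIrr_cIrr (x y : nor P) (ξ : IrrCharacter (cen P)) :
    cIrr x (cIrr y ξ) = cIrr (y * x) ξ := by
  refine Subtype.ext (funext fun c => congrArg (ξ : cen P → ℂ) (Subtype.ext ?_))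
  simp [cx_apply, mul_assoc]

theorem cIrr_one (ξ : IrrCharacter (cen P)) : cIrr 1 ξ = ξ := by
  refine Subtype.ext (funext fun c => congrArg (ξ : cen P → ℂ) (Subtype.ext ?_))
  simp [cx_apply]

theorem cIrr_of_mem_cen (x : nor P) (hx : (x : G) ∈ cen P) (ξ : IrrCharacter (cen P)) :
    cIrr x ξ = ξ := by
  refine Subtype.ext (funext fun c => ?_)
  have h := CharTheory.IsIrrCharacter.isClassFunction ξ.2 c ⟨x, hx⟩
  exact Eq.trans (congrArg (ξ : cen P → ℂ) (Subtype.ext rfl)) h

theorem lam_cIrr (h : StarHyp P) (x : nor P) (ξ : IrrCharacter (cen P))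
    (z : (P : Subgroup G)) : lam h (cIrr x ξ) z =
      lam h ξ ⟨(x : G) * z * (x : G)⁻¹, (Subgroup.mem_normalizer_iff.1 x.2 z).1 z.2⟩ := by
  refine Units.ext ?_
  rw [lam_apply, lam_apply, cIrr_apply, cIrr_apply, map_one]
  rfl

/-- Freeness of the action of `N/C`. -/
theorem mem_cen_of_cIrr_eq (h : StarHyp P) {ξ : IrrCharacter (cen P)} (hξ : lam h ξ ≠ 1)
    {x : nor P} (hx : cIrr x ξ = ξ) : (x : G) ∈ cen P :=
  mem_cen_of_fix h (lam h ξ) hξ x.2 fun z => by rw [← lam_cIrr h x ξ z, hx]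

/-- Two characters of `P` in one orbit of the normalizer. -/
def SameOrbit (ν ν' : (P : Subgroup G) →* ℂˣ) : Prop :=
  ∃ x : nor P, ∀ z : (P : Subgroup G),
    ν' z = ν ⟨(x : G) * z * (x : G)⁻¹, (Subgroup.mem_normalizer_iff.1 x.2 z).1 z.2⟩

theorem SameOrbit.refl (ν : (P : Subgroup G) →* ℂˣ) : SameOrbit ν ν :=
  ⟨1, fun z => congrArg ν (Subtype.ext (by simp))⟩

theorem SameOrbit.symm {ν ν' : (P : Subgroup G) →* ℂˣ} (h : SameOrbit ν ν') :
    SameOrbit ν' ν := by
  obtain ⟨x, hx⟩ := h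
  refine ⟨x⁻¹, fun z => ?_⟩
  rw [hx]
  exact congrArg ν (Subtype.ext (by simp [mul_assoc]))

theorem sameOrbit_one_iff {ν : (P : Subgroup G) →* ℂˣ} : SameOrbit 1 ν ↔ ν = 1 :=
  ⟨fun ⟨_, hx⟩ => MonoidHom.ext fun z => by rw [hx z]; rfl, fun h => h ▸ SameOrbit.refl _⟩

theorem sameOrbit_lam_cIrr (h : StarHyp P) (x : nor P) (ξ : IrrCharacter (cen P)) :
    SameOrbit (lam h ξ) (lam h (cIrr x ξ)) := ⟨x, fun z => lam_cIrr h x ξ z⟩

/-! ## Twists -/

/-- The twist of `ξ` by a character of `P`, through the projection of `C` on `P`. -/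
def twist (π : cen P →* (P : Subgroup G)) (ν : (P : Subgroup G) →* ℂˣ)
    (ξ : IrrCharacter (cen P)) : IrrCharacter (cen P) :=
  ⟨(fun c => ((ν (π c) : ℂˣ) : ℂ)) * (ξ : cen P → ℂ),
    CharTheory.isIrrCharacter_mul_of_norm ξ.2
      (CharTheory.IsIrrCharacter.isCharacter (CharTheory.isIrrCharacter_linear (ν.comp π)))
      fun c => IsOfFinOrder.norm_eq_one
        (MonoidHom.isOfFinOrder ((Units.coeHom ℂ).comp (ν.comp π)) (isOfFinOrder_of_finite c))⟩

theorem twist_apply (π : cen P →* (P : Subgroup G)) (ν : (P : Subgroup G) →* ℂˣ)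
    (ξ : IrrCharacter (cen P)) (c : cen P) :
    (twist π ν ξ : cen P → ℂ) c = (ν (π c) : ℂ) * (ξ : cen P → ℂ) c := rfl

theorem lam_twist (h : StarHyp P) {π : cen P →* (P : Subgroup G)}
    (hπ : ∀ z : (P : Subgroup G), π ⟨z, le_cen h z.2⟩ = z) (ν : (P : Subgroup G) →* ℂˣ)
    (ξ : IrrCharacter (cen P)) : lam h (twist π ν ξ) = ν * lam h ξ := by
  refine MonoidHom.ext fun z => Units.ext ?_
  rw [MonoidHom.mul_apply, Units.val_mul, lam_apply, lam_apply, twist_apply, twist_apply, hπ,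
    map_one, map_one, Units.val_one, one_mul, mul_div_assoc]

/-! ## Counting -/

theorem card_hom_eq (h : StarHyp P) :
    Nat.card ((P : Subgroup G) →* ℂˣ) = Nat.card P := by
  let _ : CommGroup (P : Subgroup G) := { (inferInstance : Group (P : Subgroup G)) with
    mul_comm := fun a b => Subtype.ext (Subgroup.mem_centralizer_iff.1 (le_cen h b.2) a a.2) }
  exact CommGroup.card_monoidHom_of_hasEnoughRootsOfUnity (P : Subgroup G) ℂ

theorem finite_hom (h : StarHyp P) : Finite ((P : Subgroup G) →* ℂˣ) :=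
  Nat.finite_of_card_ne_zero (by rw [card_hom_eq h]; exact Nat.card_pos.ne')

variable (P) in
/-- The order of `N/C`. -/
def automizerOrder : ℕ := (Subgroup.subgroupOf (cen P) (nor P)).index

theorem card_nor_eq : Nat.card (nor P) = Nat.card (cen P) * automizerOrder P := by
  rw [automizerOrder, ← Subgroup.card_mul_index ((cen P).subgroupOf (nor P))]
  congr 1
  exact Nat.card_congr (Subgroup.subgroupOfEquivOfLe (Subgroup.centralizer_le_normalizer _)).toEquiv

theorem automizerOrder_pos : 0 < automizerOrder P :=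
  Nat.pos_of_ne_zero Subgroup.index_ne_zero_of_finite

theorem normalizer_le_centralizer_of_one (hE : automizerOrder P = 1) :
    nor P ≤ cen P := by
  rw [automizerOrder, Subgroup.index_eq_one, Subgroup.subgroupOf_eq_top] at hE
  exact hE

open scoped Classical in
theorem card_orbit_mul_le [Fintype ((P : Subgroup G) →* ℂˣ)]
    (ν : (P : Subgroup G) →* ℂˣ) :
    (Finset.univ.filter (SameOrbit ν)).card ≤ automizerOrder P := by
  let act : nor P → ((P : Subgroup G) →* ℂˣ) := fun x => ν.comp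
    ({ toFun := fun z => ⟨(x : G) * z * (x : G)⁻¹, (Subgroup.mem_normalizer_iff.1 x.2 z).1 z.2⟩
       map_one' := Subtype.ext (by simp)
       map_mul' := fun a b => Subtype.ext (by simp [mul_assoc]) } :
      (P : Subgroup G) →* (P : Subgroup G))
  have : Fintype (nor P ⧸ (cen P).subgroupOf (nor P)) := Fintype.ofFinite _
  rw [automizerOrder, Subgroup.index_eq_card, Nat.card_eq_fintype_card, ← Finset.card_univ]
  refine Finset.card_le_card_of_surjOn
    (fun q : nor P ⧸ (cen P).subgroupOf (nor P) => act (Quotient.out q)⁻¹) ?_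
  intro ν' hν'
  obtain ⟨x, hx⟩ := (Finset.mem_filter.1 hν').2
  refine ⟨QuotientGroup.mk x⁻¹, Finset.mem_univ _, MonoidHom.ext fun z => ?_⟩
  obtain ⟨⟨c, hc⟩, hout⟩ := QuotientGroup.mk_out_eq_mul ((cen P).subgroupOf (nor P)) x⁻¹
  show act (Quotient.out (QuotientGroup.mk x⁻¹ : nor P ⧸ (cen P).subgroupOf (nor P)))⁻¹ z = _
  rw [hout, hx]
  refine congrArg ν (Subtype.ext ?_)
  have hcz : (c : G)⁻¹ * ((x : G) * (z : G) * (x : G)⁻¹) =
      ((x : G) * (z : G) * (x : G)⁻¹) * (c : G)⁻¹ :=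
    (Subgroup.mem_centralizer_iff.1 (inv_mem (Subgroup.mem_subgroupOf.1 hc) : (c : G)⁻¹ ∈ cen P)
      _ ((Subgroup.mem_normalizer_iff.1 x.2 z).1 z.2)).symm
  simp only [mul_inv_rev, inv_inv, Subgroup.coe_mul, InvMemClass.coe_inv]
  calc ((c : G)⁻¹ * (x : G)) * (z : G) * ((x : G)⁻¹ * (c : G)) =
      (c : G)⁻¹ * ((x : G) * (z : G) * (x : G)⁻¹) * (c : G) := by group
    _ = _ := by rw [hcz, inv_mul_cancel_right]

/-! ## Induced class functions vanishing on regular elements -/

/-- The average number of elements of `N` carrying `ξ'` to `ξ`. -/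
def pairJ (ξ ξ' : IrrCharacter (cen P)) : ℂ :=
  (Nat.card (cen P) : ℂ)⁻¹ * (Nat.card {x : nor P // cIrr x ξ' = ξ} : ℂ)

theorem pairJ_self_triv :
    pairJ (trivIrr (cen P)) (trivIrr (cen P)) = (automizerOrder P : ℂ) := by
  rw [pairJ, Nat.card_congr (Equiv.subtypeUnivEquiv fun x : nor P => ?_), card_nor_eq, Nat.cast_mul,
    inv_mul_cancel_left₀ (Nat.cast_ne_zero.2 Nat.card_pos.ne')]
  exact Subtype.ext (funext fun c => by simp [cIrr_apply, trivIrr_apply])

theorem pairJ_self (h : StarHyp P) {ξ : IrrCharacter (cen P)} (hξ : lam h ξ ≠ 1) :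
    pairJ ξ ξ = 1 := by
  rw [pairJ, show Nat.card {x : nor P // cIrr x ξ = ξ} = Nat.card (cen P) from ?_,
    inv_mul_cancel₀ (Nat.cast_ne_zero.2 Nat.card_pos.ne')]
  exact Nat.card_congr
    { toFun := fun x => ⟨x.1, mem_cen_of_cIrr_eq h hξ x.2⟩
      invFun := fun c => ⟨⟨c, Subgroup.centralizer_le_normalizer _ c.2⟩, cIrr_of_mem_cen _ c.2 ξ⟩
      left_inv := fun x => rfl
      right_inv := fun c => rfl }

theorem pairJ_eq_zero (h : StarHyp P) {ξ ξ' : IrrCharacter (cen P)}
    (hne : ¬ SameOrbit (lam h ξ') (lam h ξ)) : pairJ ξ ξ' = 0 := by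
  have : IsEmpty {x : nor P // cIrr x ξ' = ξ} :=
    ⟨fun x => hne (x.2 ▸ sameOrbit_lam_cIrr h x.1 ξ')⟩
  rw [pairJ, Nat.card_of_isEmpty (α := {x : nor P // cIrr x ξ' = ξ}), Nat.cast_zero, mul_zero]

variable [Fintype G] [Fintype (cen P)] [Fintype (nor P)]

theorem indFun_apply_singular (h : StarHyp P) (g : cen P → ℂ)
    (hg : IsClassFunction (cen P) g) {s : cen P} (hs : p ∣ orderOf s) :
    indFun (cen P) g (s : G) =
      (Nat.card (cen P) : ℂ)⁻¹ * ∑ x : nor P, g (cx x s) := by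
  classical
  rw [indFun]
  congr 1
  rw [← Equiv.sum_comp (Equiv.inv G)]
  simp only [Equiv.inv_apply, inv_inv]
  have hsubset : ∑ x : G, extendByZero (cen P) g (x * (s : G) * x⁻¹) =
      ∑ x ∈ Finset.univ.filter (fun x => x ∈ nor P),
        extendByZero (cen P) g (x * (s : G) * x⁻¹) := by
    rw [Finset.sum_filter]
    refine Finset.sum_congr rfl fun x _ => ?_
    split_ifs with hx
    · rfl
    · exact Frobenius.extendByZero_of_not_mem _ g fun hm => hx
        (mem_nor_of_conj h s.2 (by rwa [Subgroup.orderOf_coe]) hm)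
  rw [hsubset, Finset.sum_subtype _ (p := (· ∈ nor P)) (fun x => by simp)]
  exact Finset.sum_congr rfl fun x _ =>
    Frobenius.extendByZero_of_mem _ g (conj_mem_cen x.2 s.2)

/-- The inner product of two functions induced from `C`. -/
theorem classInner_ind_ind (h : StarHyp P) (f g : cen P → ℂ)
    (hg : IsClassFunction (cen P) g) (hfv : ∀ c, ¬ p ∣ orderOf c → f c = 0) :
    classInner (indFun (cen P) f) (indFun (cen P) g) =
      (Nat.card (cen P) : ℂ)⁻¹ * ∑ x : nor P, classInner f (fun c => g (cx x c)) := by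
  rw [Frobenius.classInner_indFun _ _ _ (Frobenius.indFun_isClassFunction _ _)]
  simp only [classInner, ← Finset.mul_sum]
  rw [mul_left_comm]
  congr 1
  rw [Finset.sum_comm, Finset.mul_sum]
  refine Finset.sum_congr rfl fun c _ => ?_
  rw [← Finset.mul_sum, ← map_sum]
  by_cases hc : p ∣ orderOf c
  · rw [indFun_apply_singular h g hg hc, map_mul, map_inv₀, map_natCast]
    ring
  · rw [hfv c hc, zero_mul, zero_mul, mul_zero]

/-- The inner product of two induced differences. -/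
theorem classInner_ind_sub (h : StarHyp P) (ξ₁ ξ₂ ξ₃ ξ₄ : IrrCharacter (cen P))
    (hv : ∀ c, ¬ p ∣ orderOf c → (ξ₁ : cen P → ℂ) c = (ξ₂ : cen P → ℂ) c) :
    classInner (indFun (cen P) ((ξ₁ : cen P → ℂ) - (ξ₂ : cen P → ℂ)))
        (indFun (cen P) ((ξ₃ : cen P → ℂ) - (ξ₄ : cen P → ℂ))) =
      pairJ ξ₁ ξ₃ - pairJ ξ₁ ξ₄ - pairJ ξ₂ ξ₃ + pairJ ξ₂ ξ₄ := by
  classical
  rw [classInner_ind_ind h _ _ ?_ fun c hc => by simp [hv c hc]]
  · have hJ : ∀ ξ ξ' : IrrCharacter (cen P), pairJ ξ ξ' =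
        (Nat.card (cen P) : ℂ)⁻¹ *
          ∑ x : nor P, classInner (ξ : cen P → ℂ) (cIrr x ξ' : cen P → ℂ) := by
      intro ξ ξ'
      rw [pairJ]
      congr 1
      simp only [CharTheory.classInner_irrCharacter, eq_comm (a := ξ)]
      rw [Finset.sum_boole, Nat.card_eq_fintype_card, Fintype.card_subtype]
    rw [hJ, hJ, hJ, hJ, ← mul_sub, ← mul_sub, ← mul_add, ← Finset.sum_sub_distrib,
      ← Finset.sum_sub_distrib, ← Finset.sum_add_distrib]
    congr 1
    refine Finset.sum_congr rfl fun x _ => ?_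
    rw [show (fun c => ((ξ₃ : cen P → ℂ) - (ξ₄ : cen P → ℂ)) (cx x c)) =
      (cIrr x ξ₃ : cen P → ℂ) - (cIrr x ξ₄ : cen P → ℂ) from rfl,
      classInner_sub_left, classInner_sub_right, classInner_sub_right]
    ring
  · intro a b
    simp only [Pi.sub_apply, CharTheory.IsIrrCharacter.isClassFunction ξ₃.2 a b,
      CharTheory.IsIrrCharacter.isClassFunction ξ₄.2 a b]

open scoped Classical in
/-- The norm of a class function on the singular elements of `C`, against its norm on `G`. -/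
theorem sum_singular_le (h : StarHyp P) (η : G → ℂ) (hη : IsClassFunction G η) :
    (Nat.card G : ℝ) *
        ∑ s ∈ Finset.univ.filter (fun s : cen P => p ∣ orderOf s), Complex.normSq (η s) ≤
      (Nat.card (nor P) : ℝ) * ∑ y : G, Complex.normSq (η y) := by
  set S := Finset.univ.filter (fun s : cen P => p ∣ orderOf s)
  have hlhs : (Nat.card G : ℝ) * ∑ s ∈ S, Complex.normSq (η s) =
      ∑ q ∈ (Finset.univ : Finset G) ×ˢ S,
        Complex.normSq (η (q.1⁻¹ * (q.2 : G) * q.1⁻¹⁻¹)) := by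
    rw [Finset.sum_product, Nat.card_eq_fintype_card, ← Finset.card_univ, ← nsmul_eq_mul,
      ← Finset.sum_const]
    refine Finset.sum_congr rfl fun x _ => Finset.sum_congr rfl fun s _ => ?_
    rw [hη]
  rw [hlhs, ← Finset.sum_fiberwise _ (fun q : G × cen P => q.1⁻¹ * (q.2 : G) * q.1⁻¹⁻¹),
    Finset.mul_sum]
  refine Finset.sum_le_sum fun y _ => ?_
  set F := ((Finset.univ : Finset G) ×ˢ S).filter
    (fun q : G × cen P => q.1⁻¹ * (q.2 : G) * q.1⁻¹⁻¹ = y)
  rw [Finset.sum_congr rfl (g := fun _ => Complex.normSq (η y))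
    (fun q hq => by rw [(Finset.mem_filter.1 hq).2]), Finset.sum_const, nsmul_eq_mul]
  refine mul_le_mul_of_nonneg_right ?_ (Complex.normSq_nonneg _)
  rw [Nat.cast_le]
  rcases F.eq_empty_or_nonempty with hF | ⟨q₀, hq₀⟩
  · simp [hF]
  rw [Nat.card_eq_fintype_card, ← Finset.card_univ]
  have hmem : ∀ q ∈ F, q.1 * q₀.1⁻¹ ∈ nor P := by
    intro q hq
    obtain ⟨hm₀, he₀⟩ := Finset.mem_filter.1 hq₀
    obtain ⟨hm, he⟩ := Finset.mem_filter.1 hq
    refine mem_nor_of_conj h q₀.2.2 (by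
      rw [Subgroup.orderOf_coe]; exact (Finset.mem_filter.1 (Finset.mem_product.1 hm₀).2).2) ?_
    have e : (q.2 : G) = q.1 * y * q.1⁻¹ := by rw [← he]; group
    have e₀ : (q₀.2 : G) = q₀.1 * y * q₀.1⁻¹ := by rw [← he₀]; group
    have : q.1 * q₀.1⁻¹ * (q₀.2 : G) * (q.1 * q₀.1⁻¹)⁻¹ = (q.2 : G) := by rw [e, e₀]; group
    rw [this]
    exact q.2.2
  refine Finset.card_le_card_of_injOn
    (fun q => if hq : q ∈ F then (⟨q.1 * q₀.1⁻¹, hmem q hq⟩ : nor P) else 1)
    (fun q _ => Finset.mem_univ _) ?_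
  intro a ha b hb e
  have ha' : a ∈ F := ha
  have hb' : b ∈ F := hb
  simp only [dif_pos ha', dif_pos hb', Subtype.mk.injEq] at e
  have e1 : a.1 = b.1 := mul_right_cancel e
  refine Prod.ext e1 (Subtype.ext ?_)
  have ea := (Finset.mem_filter.1 ha').2
  have eb := (Finset.mem_filter.1 hb').2
  rw [← eb, e1] at ea
  exact mul_left_cancel (mul_right_cancel ea)

end CfsgLib.CharDegreesTheory.SmallDegree
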