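/-
A finite solvable group all of whose irreducible degrees are squarefree has derived length at most `4`:
the Fitting subgroup is metabelian, and every `p`-core of the factor group by it has order at most `p`.
-/
import Cfsg.Agent.Lib.CharDegreesTheory.ItoSolvable
import Cfsg.Agent.Lib.PrimitiveChar.Metanilpotent
import Cfsg.Agent.Lib.CharTheory.Monomial
import Cfsg.Agent.Lib.RealChar.CliffordInvariant
import Cfsg.Agent.Lib.Brauer.Dual
import Cfsg.Agent.Lib.CoprimeAction.Aut
import Mathlib.Algebra.Group.Subgroup.Order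

set_option autoImplicit false
set_option linter.style.haveILetI false
set_option linter.unusedSectionVars false

open Cfsg CfsgLib.CharTheory
open scoped commutatorElement

namespace CfsgLib.CharDegreesTheory.SquarefreeDegrees

universe u

/-- Every degree is squarefree. -/
def SqfDeg (G : Type u) [Group G] : Prop :=
  ∀ χ : IrrCharacter G, Squarefree (charDegree (χ : G → ℂ))

variable {G : Type u} [Group G] [Finite G]

theorem SqfDeg.normalSubgroup (h : SqfDeg G) (N : Subgroup G) [N.Normal] : SqfDeg N := by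
  haveI := Fintype.ofFinite N
  intro θ
  obtain ⟨χ, hχ⟩ := SmallDegrees.exists_over N θ
  exact (h χ).squarefree_of_dvd (ItoSolvable.dvd_of_constituent N θ χ hχ)

/-- A `p`-group of squarefree degrees is metabelian. -/
theorem derived_two_of_isPGroup (h : SqfDeg G) {p : ℕ} [hp : Fact p.Prime] (hG : IsPGroup p G) :
    derivedSeries G 2 = ⊥ := by
  classical
  haveI := Fintype.ofFinite G
  haveI := hG.isNilpotent
  refine (Subgroup.eq_bot_iff_forall _).2 fun y hy => by_contra fun hy1 => ?_
  obtain ⟨χ, hχ⟩ := exists_irr_apply_ne hy1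
  obtain ⟨H, l, hl⟩ := exists_ind_of_nilpotent χ.2
  have hd : charDegree (χ : G → ℂ) = H.index := by
    have h1 := SmallDegrees.charDegree_one χ
    rw [congrFun hl 1, CfsgLib.Frobenius.indFun_one, map_one, Units.val_one, mul_one] at h1
    exact_mod_cast h1.symm
  obtain ⟨k, hk⟩ := IsPGroup.iff_card.1 hG
  obtain ⟨j, hj, hjH⟩ := (Nat.dvd_prime_pow hp.out).1 (hk ▸ H.index_dvd_card)
  have hj1 : j ≤ 1 := by
    by_contra hj2
    have h2 : p * p ∣ charDegree (χ : G → ℂ) := by
      rw [hd, hjH, ← sq]
      exact pow_dvd_pow p (by omega)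
    exact hp.out.not_isUnit (h χ p h2)
  haveI hHn : H.Normal := by
    rcases Nat.le_one_iff_eq_zero_or_eq_one.1 hj1 with rfl | rfl
    · rw [show H = ⊤ from Subgroup.index_eq_one.1 (by simpa using hjH)]
      infer_instance
    · refine Subgroup.normal_of_index_eq_minFac_card ?_
      rw [hk, hp.out.pow_minFac (by omega), hjH, pow_one]
  have hab : ∀ a b : G ⧸ H, a * b = b * a := by
    have hc : IsCyclic (G ⧸ H) := by
      rcases Nat.le_one_iff_eq_zero_or_eq_one.1 hj1 with rfl | rfl
      · haveI : Subsingleton (G ⧸ H) := Finite.card_le_one_iff_subsingleton.1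
          (by rw [← Subgroup.index_eq_card, hjH, pow_zero])
        infer_instance
      · exact isCyclic_of_prime_card (p := p) (by rw [← Subgroup.index_eq_card, hjH, pow_one])
    exact fun a b => (IsCyclic.commGroup (α := G ⧸ H)).mul_comm a b
  have h1 : derivedSeries G 1 ≤ H := by
    rw [derivedSeries_succ, derivedSeries_zero, Subgroup.commutator_le]
    intro a _ b _
    rw [← QuotientGroup.eq_one_iff]
    show QuotientGroup.mk' H ⁅a, b⁆ = 1
    rw [map_commutatorElement, commutatorElement_eq_one_iff_mul_comm]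
    exact hab _ _
  have h2 : derivedSeries G 2 ≤ ⁅H, H⁆ := by
    rw [derivedSeries_succ]
    exact Subgroup.commutator_mono h1 h1
  have h3 : ∀ z ∈ ⁅H, H⁆, extendByZero H (fun x => (l x : ℂ)) z = 1 := by
    intro z hz
    have hzH : z ∈ H := Subgroup.commutator_le_self H hz
    rw [show z = ((⟨z, hzH⟩ : H) : G) from rfl, CfsgLib.Frobenius.extendByZero_coe]
    have hker : ⁅H, H⁆ ≤ l.ker.map H.subtype := by
      rw [Subgroup.commutator_le]
      intro a ha b hb
      refine ⟨⁅(⟨a, ha⟩ : H), ⟨b, hb⟩⁆, MonoidHom.mem_ker.2 ?_, rfl⟩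
      rw [map_commutatorElement, commutatorElement_eq_one_iff_mul_comm]
      exact mul_comm _ _
    obtain ⟨w, hw, hwz⟩ := hker hz
    rw [show (⟨z, hzH⟩ : H) = w from Subtype.ext hwz.symm, MonoidHom.mem_ker.1 hw, Units.val_one]
  refine hχ ?_
  rw [hl]
  unfold Cfsg.indFun
  congr 1
  refine Finset.sum_congr rfl fun x _ => ?_
  rw [mul_one, inv_mul_cancel, h3 _ (one_mem _), h3]
  simpa using (inferInstance : ⁅H, H⁆.Normal).conj_mem y (h2 hy) x⁻¹

/-- In a nilpotent group the derived subgroup lies in the Frattini subgroup. -/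
theorem commutator_le_frattini_of_isNilpotent {X : Type*} [Group X] [Group.IsNilpotent X] :
    ⁅(⊤ : Subgroup X), ⊤⁆ ≤ frattini X := by
  refine le_iInf₂ fun M hM => ?_
  haveI : M.Normal := Subgroup.NormalizerCondition.normal_of_coatom M Group.normalizerCondition_of_isNilpotent hM
  haveI : Nontrivial (X ⧸ M) := by
    obtain ⟨x, -, hx⟩ := SetLike.exists_of_lt (lt_top_iff_ne_top.2 hM.1)
    exact ⟨(x : X ⧸ M), 1, fun e => hx ((QuotientGroup.eq_one_iff x).1 e)⟩
  haveI := CfsgLib.Brauer.nontrivial_center_of_nilpotent (Q := X ⧸ M)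
  have h1 : (Subgroup.center (X ⧸ M)).comap (QuotientGroup.mk' M) = ⊤ := by
    refine hM.2 _ (lt_of_le_of_ne ?_ fun h => ?_)
    · intro x hx
      show (x : X ⧸ M) ∈ Subgroup.center (X ⧸ M)
      rw [(QuotientGroup.eq_one_iff x).2 hx]
      exact one_mem _
    · obtain ⟨⟨c, hc⟩, hc1⟩ := exists_ne (1 : Subgroup.center (X ⧸ M))
      obtain ⟨x, rfl⟩ := QuotientGroup.mk'_surjective M c
      refine hc1 (Subtype.ext ((QuotientGroup.eq_one_iff x).2 ?_))
      exact h.ge hc
  rw [Subgroup.commutator_le]
  intro a _ b _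
  rw [← QuotientGroup.eq_one_iff]
  show QuotientGroup.mk' M ⁅a, b⁆ = 1
  rw [map_commutatorElement, commutatorElement_eq_one_iff_mul_comm]
  exact Subgroup.mem_center_iff.1 (show QuotientGroup.mk' M b ∈ Subgroup.center (X ⧸ M) from
    h1.ge (Subgroup.mem_top b)) _

/-- The Fitting subgroup of a group of squarefree degrees is metabelian. -/
theorem derived_two_fitting (h : SqfDeg G) : derivedSeries (fittingSubgroup G) 2 = ⊥ := by
  classical
  rw [CfsgLib.Cores.fittingSubgroup_eq_iSup_pCore]
  haveI hfact : ∀ p : (Nat.card G).primeFactors, Fact (p : ℕ).Prime :=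
    fun p => ⟨Nat.prime_of_mem_primeFactors p.2⟩
  have hcomm : Pairwise fun i j : (Nat.card G).primeFactors =>
      ∀ x y : G, x ∈ pCore (i : ℕ) G → y ∈ pCore (j : ℕ) G → Commute x y :=
    fun i j hij x y hx hy => CfsgLib.Cores.commute_pCore_of_ne (fun h => hij (Subtype.ext h)) hx hy
  rw [← Subgroup.noncommPiCoprod_range (hcomm := hcomm)]
  rw [← map_derivedSeries_eq (MonoidHom.rangeRestrict_surjective _) 2, Subgroup.map_eq_bot_iff]
  intro x hx
  rw [show x = 1 from funext fun p => by
    have h1 : x p ∈ derivedSeries (pCore (p : ℕ) G) 2 :=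
      map_derivedSeries_le_derivedSeries
        (Pi.evalMonoidHom (fun p : (Nat.card G).primeFactors => pCore (p : ℕ) G) p) 2 ⟨x, hx, rfl⟩
    rw [derived_two_of_isPGroup (h.normalSubgroup _) (CfsgLib.Cores.isPGroup_pCore (p : ℕ) G)] at h1
    exact Subgroup.mem_bot.1 h1]
  exact one_mem _

/-- The stabiliser of a point under an action by automorphisms. -/
def fixStab {P L : Type*} [Group P] [Mul L] (φ : P →* MulAut L) (l : L) : Subgroup P where
  carrier := {x | φ x l = l}
  one_mem' := by show φ 1 l = l; rw [map_one]; rfl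
  mul_mem' := fun {x y} hx hy => by
    show φ (x * y) l = l
    rw [map_mul, MulAut.mul_apply, show φ y l = l from hy, show φ x l = l from hx]
  inv_mem' := fun {x} hx => by
    show φ x⁻¹ l = l
    rw [map_inv]
    conv_lhs => rw [← show φ x l = l from hx]
    exact MulAut.inv_apply_self _ _ _

/-- A faithful `p`-group of automorphisms of an abelian `p'`-group, all of whose stabilisers have
index dividing `p`, has order dividing `p`. -/
theorem card_dvd_of_stabilizers {P L : Type*} [Group P] [Finite P] [CommGroup L] [Finite L] {p : ℕ}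
    [hp : Fact p.Prime] (hP : IsPGroup p P) (hL : p.Coprime (Nat.card L)) (φ : P →* MulAut L)
    (hinj : Function.Injective φ)
    (hidx : ∀ l : L, (fixStab φ l).index ∣ p) :
    Nat.card P ∣ p := by
  classical
  set T : L → Subgroup P := fixStab φ with hT
  have hmem : ∀ l x, x ∈ T l ↔ φ x l = l := fun l x => Iff.rfl
  have hprime : ∀ l, T l ≠ ⊤ → (T l).index = p := fun l hl => by
    rcases (Nat.dvd_prime hp.out).1 (hidx l) with h | h
    · exact absurd (Subgroup.index_eq_one.1 h) hl
    · exact h
  obtain ⟨k, hk⟩ := IsPGroup.iff_card.1 hP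
  have hnormal : ∀ l, T l ≠ ⊤ → (T l).Normal := fun l hl => by
    refine Subgroup.normal_of_index_eq_minFac_card ?_
    rw [hk, hprime l hl, hp.out.pow_minFac]
    rintro rfl
    rw [pow_zero] at hk
    exact hl (Subgroup.eq_top_of_card_eq _ (le_antisymm
      (Nat.le_of_dvd Nat.card_pos (Subgroup.card_subgroup_dvd_card _))
      (hk ▸ Nat.one_le_iff_ne_zero.2 Nat.card_pos.ne')))
  have hnorm : ∀ l, T l ≠ ⊤ → ∀ x j, j ∈ T l → φ j (φ x l) = φ x l := by
    intro l hl x j hj
    have h1 := (hmem l _).1 ((hnormal l hl).conj_mem j hj x⁻¹)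
    rw [inv_inv, map_mul, map_mul, map_inv, MulAut.mul_apply, MulAut.mul_apply] at h1
    have h2 := congrArg (φ x) h1
    rwa [MulAut.apply_inv_self] at h2
  have hsame : ∀ l m, T l ≠ ⊤ → T m ≠ ⊤ → T m ≤ T l := by
    intro l m hl hm j hj
    by_contra hjl
    obtain ⟨k, hkl, hkm⟩ : ∃ k ∈ T l, k ∉ T m := by
      by_contra hcon
      push Not at hcon
      have h1 := Subgroup.relIndex_mul_index (show T l ≤ T m from hcon)
      rw [hprime m hm, hprime l hl, Nat.mul_eq_right hp.out.ne_zero, Subgroup.relIndex_eq_one] at h1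
      exact hjl (h1 hj)
    rw [hmem] at hkl hkm hj
    have hk' : k ∉ T (l * m) := by
      intro h
      rw [hmem, map_mul, hkl] at h
      exact hkm (mul_left_cancel h)
    have hlm : T (l * m) ≠ ⊤ := fun h => hk' (h ▸ Subgroup.mem_top k)
    haveI := hnormal _ hlm
    -- `j` is a power of `k` modulo the stabiliser of the product
    obtain ⟨b, hb⟩ : ∃ b : ℕ, (k ^ b)⁻¹ * j ∈ T (l * m) := by
      have hcard : Nat.card (P ⧸ T (l * m)) = p := by rw [← Subgroup.index_eq_card]; exact hprime _ hlm
      obtain ⟨b, hb⟩ := mem_powers_of_prime_card hcard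
        (g := (k : P ⧸ T (l * m))) (g' := (j : P ⧸ T (l * m)))
        (fun h => hk' ((QuotientGroup.eq_one_iff k).1 h))
      refine ⟨b, QuotientGroup.eq.1 ?_⟩
      rw [QuotientGroup.mk_pow]
      exact hb
    set x := (k ^ b)⁻¹
    have hkb : x ∈ T l := inv_mem (pow_mem ((hmem l k).2 hkl) b)
    have hjl' : φ x (φ j l) = φ j l := hnorm l hl j x hkb
    rw [hmem, map_mul, map_mul, MulAut.mul_apply, MulAut.mul_apply, hjl', hj] at hb
    set c := φ j l * l⁻¹ with hc
    have hcj : φ j c = c := by
      have hc' : c = m * (φ x m)⁻¹ := by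
        rw [hc, mul_inv_eq_iff_eq_mul, mul_right_comm, eq_mul_inv_iff_mul_eq, hb, mul_comm]
      rw [hc', map_mul, map_inv, hj]
      congr 2
      exact hnorm m hm x j ((hmem m j).2 hj)
    have hpow : ∀ n : ℕ, φ (j ^ n) l = l * c ^ n := by
      intro n
      induction n with
      | zero => simp
      | succ n ih =>
        rw [pow_succ', map_mul, MulAut.mul_apply, ih, map_mul, map_pow, hcj, pow_succ', ← mul_assoc,
          show φ j l = l * c by rw [hc, mul_comm (φ j l), mul_inv_cancel_left], mul_assoc]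
    have hjp : j ^ p ∈ T l := by
      haveI := hnormal l hl
      have := Subgroup.pow_index_mem (T l) j
      rwa [hprime l hl] at this
    rw [hmem, hpow, mul_eq_left] at hjp
    have hc1 : c = 1 := by
      have h2 := pow_gcd_eq_one.mpr ⟨hjp, pow_card_eq_one' (x := c)⟩
      rwa [hL.gcd_eq_one, pow_one] at h2
    exact hjl ((hmem l j).2 (mul_inv_eq_one.1 hc1))
  by_cases hall : ∀ l, T l = ⊤
  · have h1 : ∀ x : P, x = 1 := fun x => hinj (by
      rw [map_one]
      exact MulEquiv.ext fun l => (hmem l x).1 (hall l ▸ Subgroup.mem_top x))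
    haveI : Subsingleton P := ⟨fun a b => (h1 a).trans (h1 b).symm⟩
    rw [Nat.card_of_subsingleton (1 : P)]
    exact one_dvd p
  · push Not at hall
    obtain ⟨l, hl⟩ := hall
    have hbot : T l = ⊥ := (Subgroup.eq_bot_iff_forall _).2 fun x hx => hinj (by
      rw [map_one]
      refine MulEquiv.ext fun m => (hmem m x).1 ?_
      by_cases hm : T m = ⊤
      · rw [hm]; trivial
      · exact hsame m l hm hl hx)
    rw [← Subgroup.index_bot, ← hbot, hprime l hl]

variable [Group.IsSolvable G]

/-- In the factor group by the Fitting subgroup every `p`-core has order dividing `p`. -/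
theorem card_pCore_quotient_dvd (h : SqfDeg G) (p : ℕ) [hp : Fact p.Prime]
    [hF : (fittingSubgroup G).Normal] :
    Nat.card (pCore p (G ⧸ fittingSubgroup G)) ∣ p := by
  classical
  haveI := Fintype.ofFinite G
  set F := fittingSubgroup G with hFdef
  set Q : Subgroup G := ⨆ q : {q : (Nat.card G).primeFactors // (q : ℕ) ≠ p}, pCore (q.1 : ℕ) G
    with hQdef
  haveI hQn : Q.Normal := Subgroup.iSup_normal _
  haveI := Fintype.ofFinite Q
  haveI hfact : ∀ q : (Nat.card G).primeFactors, Fact (q : ℕ).Prime :=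
    fun q => ⟨Nat.prime_of_mem_primeFactors q.2⟩
  have hQF : Q ≤ F := iSup_le fun q => CfsgLib.Cores.pCore_le_fittingSubgroup _
  have hQcop : p.Coprime (Nat.card Q) := by
    have hcomm : Pairwise fun i j : {q : (Nat.card G).primeFactors // (q : ℕ) ≠ p} =>
        ∀ x y : G, x ∈ pCore (i.1 : ℕ) G → y ∈ pCore (j.1 : ℕ) G → Commute x y :=
      fun i j hij x y hx hy => CfsgLib.Cores.commute_pCore_of_ne
        (fun h => hij (Subtype.ext (Subtype.ext h))) hx hy
    rw [hQdef, ← Subgroup.noncommPiCoprod_range (hcomm := hcomm)]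
    refine Nat.Coprime.coprime_dvd_right (Subgroup.card_range_dvd _) ?_
    rw [Nat.card_pi]
    refine Nat.Coprime.prod_right fun q _ => ?_
    obtain ⟨n, hn⟩ := IsPGroup.iff_card.1 (CfsgLib.Cores.isPGroup_pCore (q.1 : ℕ) G)
    rw [hn]
    exact ((Nat.coprime_primes hp.out (hfact q.1).out).2 q.2.symm).pow_right n
  have hFsplit : F ≤ pCore p G ⊔ Q := by
    rw [hFdef, CfsgLib.Cores.fittingSubgroup_eq_iSup_pCore]
    refine iSup_le fun q => ?_
    by_cases hq : (q : ℕ) = p
    · subst hq; exact le_sup_left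
    · exact le_sup_of_le_right (le_iSup
        (fun r : {q : (Nat.card G).primeFactors // (q : ℕ) ≠ p} => pCore (r.1 : ℕ) G) ⟨q, hq⟩)
  have hpQ : ∀ x ∈ pCore p G, ∀ y ∈ Q, x * y = y * x := by
    intro x hx y hy
    have hle : Q ≤ Subgroup.centralizer ({x} : Set G) := iSup_le fun q z hz =>
      Subgroup.mem_centralizer_singleton_iff.2
        (CfsgLib.Cores.commute_pCore_of_ne q.2 hz hx).eq
    exact (Subgroup.mem_centralizer_singleton_iff.1 (hle hy)).symm
  -- the action on the linear characters of `Q`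
  let φ : G →* MulAut (Q →* ℂˣ) :=
    { toFun := fun g => (MulAut.conjNormal g : MulAut Q).monoidHomCongrLeft
      map_one' := MulEquiv.ext fun l => MonoidHom.ext fun a => by
        show l ((MulAut.conjNormal (1 : G) : MulAut Q).symm a) = l a
        rw [map_one]; rfl
      map_mul' := fun g g' => MulEquiv.ext fun l => MonoidHom.ext fun a => by
        show l ((MulAut.conjNormal (g * g') : MulAut Q).symm a) = _
        rw [map_mul]; rfl }
  have hφ : ∀ (g : G) (l : Q →* ℂˣ) (a : Q), φ g l a = l (MulAut.conjNormal g⁻¹ a) := fun g l a => by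
    show l ((MulAut.conjNormal g : MulAut Q).symm a) = _
    rw [map_inv]
    rfl
  set T : (Q →* ℂˣ) → Subgroup G := fixStab φ
  -- the stabilisers have squarefree index
  have hTsq : ∀ l, Squarefree (T l).index := by
    intro l
    let θ : IrrCharacter Q := ⟨fun a => (l a : ℂ), isIrrCharacter_linear l⟩
    have hTθ : ∀ g : G, g ∈ T l ↔ CfsgLib.Clifford.conjChar Q (θ : Q → ℂ) g = θ := by
      intro g
      rw [show g ∈ T l ↔ g⁻¹ ∈ T l from (inv_mem_iff).symm]
      show φ g⁻¹ l = l ↔ _
      rw [MonoidHom.ext_iff, funext_iff]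
      refine forall_congr' fun a => ?_
      rw [hφ, inv_inv, CfsgLib.Clifford.conjChar_eq_comp]
      exact (Units.val_inj).symm
    obtain ⟨χ, hχ⟩ := SmallDegrees.exists_over Q θ
    obtain ⟨e, he⟩ := IsCharacter.exists_classInner_eq_nat (G := Q)
      (CfsgLib.Coherence.isCharacter_comp (IsIrrCharacter.isCharacter χ.2) Q.subtype) θ
    have h1 := CfsgLib.Clifford.apply_one_eq Q χ.2 θ.2 hχ
    erw [he] at h1
    rw [SmallDegrees.charDegree_one, SmallDegrees.charDegree_one,
      CfsgLib.Clifford.card_conjOrbit Q (θ : Q → ℂ) (T l) hTθ] at h1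
    refine (h χ).squarefree_of_dvd ⟨e * charDegree (θ : Q → ℂ), ?_⟩
    rw [← mul_assoc, mul_comm (T l).index e]
    exact_mod_cast h1
  -- the preimage of the `p`-core
  set C := pCore p (G ⧸ F)
  set N : Subgroup G := C.comap (QuotientGroup.mk' F)
  haveI : C.Normal := inferInstance
  haveI : N.Normal := Subgroup.Normal.comap inferInstance _
  obtain ⟨k, hk⟩ := IsPGroup.iff_card.1 (CfsgLib.Cores.isPGroup_pCore p (G ⧸ F))
  have hFN : F ≤ N := fun x hx => by
    show (x : G ⧸ F) ∈ C
    rw [(QuotientGroup.eq_one_iff x).2 hx]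
    exact one_mem C
  have hNidx : F.relIndex N = p ^ k := by
    rw [← hk, show F.relIndex N = (QuotientGroup.mk' F).ker.relIndex N by rw [QuotientGroup.ker_mk'],
      Subgroup.relIndex_ker,
      Subgroup.map_comap_eq_self_of_surjective (QuotientGroup.mk'_surjective F)]
  have hFT : ∀ l, F ≤ T l := by
    intro l
    refine hFsplit.trans (sup_le (fun x hx => ?_) fun x hx => ?_)
    · show φ x l = l
      refine MonoidHom.ext fun a => ?_
      rw [hφ]
      congr 1
      refine Subtype.ext ?_
      rw [MulAut.conjNormal_apply, inv_inv, mul_assoc, ← hpQ x hx a a.2, inv_mul_cancel_left]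
    · show φ x l = l
      refine MonoidHom.ext fun a => ?_
      rw [hφ, show MulAut.conjNormal x⁻¹ a = (⟨x, hx⟩ : Q)⁻¹ * a * ⟨x, hx⟩ from Subtype.ext (by
        rw [MulAut.conjNormal_apply, inv_inv]; rfl), map_mul, map_mul, map_inv]
      exact inv_mul_cancel_comm _ _
  have hTN : ∀ l, (T l).relIndex N ∣ p := by
    intro l
    have h1 : (T l).relIndex N ∣ p ^ k := hNidx ▸ Subgroup.relIndex_dvd_of_le_left N (hFT l)
    have h2 : Squarefree ((T l).relIndex N) := (hTsq l).squarefree_of_dvd
      (CfsgLib.PrimitiveChar.relIndex_dvd_index_of_normal_right (T l) N)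
    obtain ⟨j, -, hj⟩ := (Nat.dvd_prime_pow hp.out).1 h1
    rw [hj] at h2 ⊢
    by_contra hcon
    have hj2 : 2 ≤ j := by
      by_contra hj1
      exact hcon ((pow_dvd_pow p (by omega : j ≤ 1)).trans (dvd_of_eq (pow_one p)))
    exact hp.out.not_isUnit (h2 p (by rw [← sq]; exact pow_dvd_pow p hj2))
  -- only `F` fixes all the linear characters
  set K := φ.ker ⊓ N
  haveI : K.Normal := inferInstance
  have hK : K ≤ F := by
    have hcent : ∀ x ∈ K, (∃ i, x ^ p ^ i = 1) → ∀ a ∈ Q, x * a = a * x := by
      rintro x ⟨hx, -⟩ ⟨i, hi⟩ a ha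
      have hnil : Group.IsNilpotent Q :=
        CfsgLib.Cores.isNilpotent_of_le CfsgLib.Cores.isNilpotent_fittingSubgroup hQF
      have hcomm : ∀ b : Q, b⁻¹ * (MulAut.conjNormal x : MulAut Q) b ∈
          ⁅(⊤ : Subgroup Q), (⊤ : Subgroup Q)⁆ := by
        intro b
        rw [← commutator_def Q]
        by_contra hb
        obtain ⟨m, hm⟩ := CommGroup.exists_apply_ne_one_of_hasEnoughRootsOfUnity (Abelianization Q) ℂ
          (a := Abelianization.of (b⁻¹ * MulAut.conjNormal x b))
          (fun h0 => hb (by rwa [← MonoidHom.mem_ker, Abelianization.ker_of] at h0))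
        refine hm ?_
        have h1 := DFunLike.congr_fun (MulEquiv.congr_fun (show φ x⁻¹ = 1 by
          rw [map_inv, MonoidHom.mem_ker.1 hx, inv_one]) (m.comp Abelianization.of)) b
        rw [hφ, inv_inv] at h1
        simp only [MonoidHom.comp_apply, MulAut.one_apply] at h1
        rw [map_mul, map_mul, map_inv, map_inv, h1, inv_mul_cancel]
      haveI := hnil
      have haut : (MulAut.conjNormal x : MulAut Q) = 1 := by
        refine CfsgLib.CoprimeAction.aut_eq_one_of_frattini ?_ fun b => ?_
        · refine Nat.Coprime.coprime_dvd_right (Subgroup.card_subgroup_dvd_card _) ?_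
          exact Nat.Coprime.coprime_dvd_left
            ((orderOf_map_dvd _ x).trans (orderOf_dvd_of_pow_eq_one hi)) (hQcop.pow_left i)
        · exact commutator_le_frattini_of_isNilpotent (hcomm b)
      have h2 := congrArg (fun e : MulAut Q => ((e ⟨a, ha⟩ : Q) : G)) haut
      simp only [MulAut.conjNormal_apply, MulAut.one_apply] at h2
      exact mul_inv_eq_iff_eq_mul.1 h2
    -- the part centralising `Q` is nilpotent
    set M := K ⊓ Subgroup.centralizer (Q : Set G)
    haveI : M.Normal := inferInstance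
    have hpow : ∀ x ∈ N, x ^ p ^ k ∈ F := fun x hx => by
      rw [← QuotientGroup.eq_one_iff, QuotientGroup.mk_pow, ← hk]
      exact congrArg Subtype.val (pow_card_eq_one' (x := (⟨(x : G ⧸ F), hx⟩ : C)))
    obtain ⟨n, hn⟩ := IsPGroup.iff_card.1 (CfsgLib.Cores.isPGroup_pCore p G)
    have hFQ : ∀ y ∈ F, y ^ p ^ n ∈ Q := fun y hy => by
      obtain ⟨u, hu, a, ha, rfl⟩ := Subgroup.mem_sup_of_normal_left.1 (hFsplit hy)
      rw [(show Commute u a from hpQ u hu a ha).mul_pow,
        show u ^ p ^ n = 1 by
          rw [← hn]; exact congrArg Subtype.val (pow_card_eq_one' (x := (⟨u, hu⟩ : pCore p G))),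
        one_mul]
      exact pow_mem ha _
    have hMnil : Group.IsNilpotent M := by
      refine Group.of_quotient_center_nilpotent (IsPGroup.isNilpotent (p := p) fun z => ?_)
      obtain ⟨x, rfl⟩ := QuotientGroup.mk'_surjective _ z
      refine ⟨k + n, ?_⟩
      rw [← map_pow]
      refine (QuotientGroup.eq_one_iff _).2 (Subgroup.mem_center_iff.2 fun w => Subtype.ext ?_)
      show (w : G) * (x : G) ^ p ^ (k + n) = (x : G) ^ p ^ (k + n) * w
      have hxQ : (x : G) ^ p ^ (k + n) ∈ Q := by
        rw [pow_add, pow_mul]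
        exact hFQ _ (hpow _ x.2.1.2)
      exact (Subgroup.mem_centralizer_iff.1 w.2.2 _ hxQ).symm
    have hMF : M ≤ F := CfsgLib.Cores.le_fittingSubgroup hMnil
    intro x hx
    -- split `x` modulo `F` into its `p`-part
    obtain ⟨i, m, hm, hxm⟩ := Nat.exists_eq_pow_mul_and_not_dvd (orderOf_pos x).ne' p hp.out.ne_one
    have hxmF : x ^ m ∈ F := hMF ⟨pow_mem hx m, Subgroup.mem_centralizer_iff.2 fun a ha =>
      (hcent _ (pow_mem hx m) ⟨i, by rw [← pow_mul, mul_comm, ← hxm, pow_orderOf_eq_one]⟩ a ha).symm⟩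
    rw [← QuotientGroup.eq_one_iff] at hxmF ⊢
    have hxk := (QuotientGroup.eq_one_iff _).2 (hpow x hx.2)
    rw [QuotientGroup.mk_pow] at hxmF hxk
    have h3 := pow_gcd_eq_one.mpr ⟨hxk, hxmF⟩
    rwa [((hp.out.coprime_iff_not_dvd.2 hm).pow_left k).gcd_eq_one, pow_one] at h3
  let φN : N →* MulAut (Q →* ℂˣ) := φ.comp N.subtype
  have hkerN : F.subgroupOf N = φN.ker := by
    refine le_antisymm (fun x hx => ?_) fun x hx => hK ⟨hx, x.2⟩
    refine MulEquiv.ext fun l => ?_
    exact hFT l hx
  have hfin : Finite (Q →* ℂˣ) := Finite.of_fintype _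
  have hcard : Nat.card φN.range = p ^ k := by
    rw [← Subgroup.index_ker, ← hkerN]
    exact hNidx
  show Nat.card C ∣ p
  rw [hk, ← hcard]
  refine card_dvd_of_stabilizers (L := Q →* ℂˣ) (IsPGroup.of_card hcard) ?_
    (φN.range.subtype : φN.range →* MulAut (Q →* ℂˣ)) φN.range.subtype_injective fun l => ?_
  · let e : (Abelianization Q →* ℂˣ) ≃ (Q →* ℂˣ) := Abelianization.lift.symm
    rw [← Nat.card_congr e, CommGroup.card_monoidHom_of_hasEnoughRootsOfUnity]
    exact hQcop.coprime_dvd_right ⟨_, (Subgroup.card_eq_card_quotient_mul_card_subgroup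
      (commutator Q)).trans rfl⟩
  · rw [← Subgroup.index_comap_of_surjective _ φN.rangeRestrict_surjective]
    exact hTN l

/-- A solvable group of squarefree degrees has derived length at most four. -/
theorem derived_four (h : SqfDeg G) : derivedSeries G 4 = ⊥ := by
  classical
  set F := fittingSubgroup G
  have hq : derivedSeries (G ⧸ F) 2 = ⊥ := by
    haveI : Group.IsSolvable (G ⧸ F) := Group.isSolvable_of_surjective (QuotientGroup.mk'_surjective F)
    set H := G ⧸ F
    have hfact : ∀ q : (Nat.card H).primeFactors, Fact (q : ℕ).Prime :=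
      fun q => ⟨Nat.prime_of_mem_primeFactors q.2⟩
    have hcyc : ∀ q : (Nat.card H).primeFactors, IsCyclic (pCore (q : ℕ) H) := fun q => by
      haveI := hfact q
      rcases (Nat.dvd_prime (hfact q).out).1 (card_pCore_quotient_dvd h (q : ℕ)) with e | e
      · haveI : Subsingleton (pCore (q : ℕ) H) := Finite.card_le_one_iff_subsingleton.1 e.le
        infer_instance
      · exact isCyclic_of_prime_card e
    -- the Fitting subgroup of the quotient is abelian and the derived subgroup centralises it
    have hcent : ⁅(⊤ : Subgroup H), ⊤⁆ ≤ Subgroup.centralizer (fittingSubgroup H : Set H) := by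
      rw [Subgroup.commutator_le]
      intro a _ b _
      rw [Subgroup.mem_centralizer_iff]
      intro z hz
      have hle : fittingSubgroup H ≤ Subgroup.centralizer ({⁅a, b⁆} : Set H) := by
        rw [CfsgLib.Cores.fittingSubgroup_eq_iSup_pCore]
        refine iSup_le fun q c hc => Subgroup.mem_centralizer_singleton_iff.2 ?_
        haveI := hcyc q
        let φ : H →* MulAut (pCore (q : ℕ) H) := MulAut.conjNormal
        have hab : φ ⁅a, b⁆ = 1 := by
          rw [map_commutatorElement, commutatorElement_eq_one_iff_mul_comm]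
          exact (IsCyclic.mulAutMulEquiv (pCore (q : ℕ) H)).injective (by
            rw [map_mul, map_mul, mul_comm])
        have h2 := congrArg (fun e : MulAut (pCore (q : ℕ) H) => ((e ⟨c, hc⟩ : _) : H)) hab
        simp only [φ, MulAut.conjNormal_apply, MulAut.one_apply] at h2
        exact (mul_inv_eq_iff_eq_mul.1 h2).symm
      exact Subgroup.mem_centralizer_singleton_iff.1 (hle hz)
    have h1 : derivedSeries H 1 ≤ fittingSubgroup H := by
      rw [derivedSeries_succ, derivedSeries_zero]
      exact hcent.trans CfsgLib.Cores.centralizer_fittingSubgroup_le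
    rw [derivedSeries_succ, eq_bot_iff, Subgroup.commutator_le]
    intro a ha b hb
    rw [Subgroup.mem_bot, commutatorElement_eq_one_iff_mul_comm]
    refine (Subgroup.mem_centralizer_iff.1 (hcent ?_) b (h1 hb)).symm
    rw [← derivedSeries_zero H, ← derivedSeries_succ]
    exact ha
  have h2 : derivedSeries G 2 ≤ F := by
    rw [← QuotientGroup.ker_mk' F, ← Subgroup.map_eq_bot_iff,
      map_derivedSeries_eq (QuotientGroup.mk'_surjective F), hq]
  have h3 : ∀ n, derivedSeries G (2 + n) ≤ (derivedSeries F n).map F.subtype := by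
    intro n
    induction n with
    | zero =>
      intro x hx
      exact ⟨⟨x, h2 hx⟩, Subgroup.mem_top _, rfl⟩
    | succ n ih =>
      rw [← add_assoc, derivedSeries_succ, derivedSeries_succ, Subgroup.map_commutator]
      exact Subgroup.commutator_mono ih ih
  refine le_bot_iff.1 ((h3 2).trans ?_)
  rw [derived_two_fitting h, Subgroup.map_bot]

end CfsgLib.CharDegreesTheory.SquarefreeDegrees
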