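import Cfsg.Agent.Lib.CharDegreesTheory.TwoDegrees
import Cfsg.Agent.Lib.CoprimeAction.Abelian
import Cfsg.Agent.Lib.Clifford.Extension

/-!
# Groups with two irreducible degrees

Either there is an abelian normal subgroup of index the nonlinear degree, or the group is a
`p`-group times an abelian group. For a non-nilpotent group the subgroup `N = [E, R]`, where `E` is
the `r'`-part of the derived subgroup and `R` a non-normal Sylow `r`-subgroup, is complemented by
the normalizer of `R`; the inertia groups of the nontrivial linear characters of `N` all coincide.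
-/

set_option autoImplicit false
set_option linter.style.haveILetI false
set_option linter.unusedSectionVars false

namespace CfsgLib.CharDegreesTheory.TwoDegreesStructure

open Cfsg CfsgLib.CharTheory CfsgLib.Clifford CfsgLib.CharDegreesTheory.SmallDegrees Finset
open scoped commutatorElement

universe u

variable {G : Type u} [Group G]

/-- The inertia group of a linear character of a normal subgroup. -/
def inertia (N : Subgroup G) [hN : N.Normal] (l : N →* ℂˣ) : Subgroup G where
  carrier := {g | ∀ n : N, l ⟨g * n * g⁻¹, hN.conj_mem (n : G) n.2 g⟩ = l n}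
  one_mem' n := congrArg l (Subtype.ext (by simp))
  mul_mem' {a b} ha hb n := by
    refine Eq.trans ?_ (hb n)
    rw [← ha ⟨b * n * b⁻¹, hN.conj_mem (n : G) n.2 b⟩]
    exact congrArg l (Subtype.ext (by group))
  inv_mem' {a} ha n := by
    rw [← ha ⟨a⁻¹ * n * a⁻¹⁻¹, hN.conj_mem (n : G) n.2 a⁻¹⟩]
    exact congrArg l (Subtype.ext (by group))

theorem mem_inertia {N : Subgroup G} [hN : N.Normal] {l : N →* ℂˣ} {g : G} :
    g ∈ inertia N l ↔ ∀ n : N, l ⟨g * n * g⁻¹, hN.conj_mem (n : G) n.2 g⟩ = l n := Iff.rfl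

theorem mem_inertia_iff_conjChar {N : Subgroup G} [N.Normal] {l : N →* ℂˣ} {g : G} :
    g ∈ inertia N l ↔ conjChar N (fun n : N => (l n : ℂ)) g = fun n : N => (l n : ℂ) := by
  rw [mem_inertia, conjChar_eq_self_iff]
  exact forall_congr' fun n => Units.ext_iff

/-- A split normal abelian subgroup with no invariant linear character gives an abelian normal
subgroup of index the nonlinear degree. -/
theorem exists_abelian_of_complement [Finite G] {m : ℕ}
    (hcd : ∀ χ : IrrCharacter G, charDegree (χ : G → ℂ) = 1 ∨ charDegree (χ : G → ℂ) = m)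
    (N H : Subgroup G) [hN : N.Normal] (hNH : N ⊓ H = ⊥) (hsup : N ⊔ H = ⊤) (hN1 : N ≠ ⊥)
    (hDN : ∀ d ∈ commutator G, ∀ n ∈ N, d * n = n * d) (hND : N ≤ commutator G)
    (hgen : N ≤ ⁅N, H⁆) :
    ∃ A : Subgroup G, A.Normal ∧ (∀ a ∈ A, ∀ b ∈ A, a * b = b * a) ∧ A.index = m := by
  classical
  haveI := Fintype.ofFinite G
  haveI := Fintype.ofFinite N
  have hNc : ∀ a ∈ N, ∀ b ∈ N, a * b = b * a := fun a ha b hb => hDN a (hND ha) b hb
  -- the projection onto `H`
  have hbij : Function.Bijective ((QuotientGroup.mk' N).comp H.subtype) := by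
    constructor
    · refine (injective_iff_map_eq_one _).2 fun h hh => ?_
      have h1 : (h : G) ∈ N ⊓ H := ⟨(QuotientGroup.eq_one_iff (h : G)).1 hh, h.2⟩
      rw [hNH, Subgroup.mem_bot] at h1
      exact Subtype.ext h1
    · intro q
      obtain ⟨g, rfl⟩ := QuotientGroup.mk'_surjective N q
      have hg : g ∈ N ⊔ H := hsup ▸ Subgroup.mem_top g
      obtain ⟨n, hn, h, hh, rfl⟩ := Subgroup.mem_sup_of_normal_left.1 hg
      refine ⟨⟨h, hh⟩, ?_⟩
      show QuotientGroup.mk' N h = QuotientGroup.mk' N (n * h)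
      rw [map_mul, show QuotientGroup.mk' N n = 1 from (QuotientGroup.eq_one_iff n).2 hn, one_mul]
  let pr : G →* H := (MulEquiv.ofBijective _ hbij).symm.toMonoidHom.comp (QuotientGroup.mk' N)
  have hpr : ∀ h : H, pr h = h := fun h => (MulEquiv.ofBijective _ hbij).symm_apply_apply h
  have hmem : ∀ g : G, g * (pr g : G)⁻¹ ∈ N := by
    intro g
    rw [← QuotientGroup.eq_one_iff (N := N)]
    show QuotientGroup.mk' N (g * (pr g : G)⁻¹) = 1
    rw [map_mul, map_inv, mul_inv_eq_one]
    exact ((MulEquiv.ofBijective _ hbij).apply_symm_apply (QuotientGroup.mk' N g)).symm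
  have hprN : ∀ n ∈ N, pr n = 1 := fun n hn => by
    show (MulEquiv.ofBijective _ hbij).symm (QuotientGroup.mk' N n) = 1
    rw [show QuotientGroup.mk' N n = 1 from (QuotientGroup.eq_one_iff n).2 hn, map_one]
  have hDT : ∀ l : N →* ℂˣ, commutator G ≤ inertia N l := fun l d hd n =>
    congrArg l (Subtype.ext (mul_inv_eq_iff_eq_mul.2 (hDN d hd n n.2)))
  have hTn : ∀ l : N →* ℂˣ, (inertia N l).Normal := fun l => Subgroup.Normal.of_commutator_le G (hDT l)
  have hNT : ∀ l : N →* ℂˣ, N ≤ inertia N l := fun l => hND.trans (hDT l)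
  -- no nontrivial invariant linear character
  have htop : ∀ l : N →* ℂˣ, l ≠ 1 → inertia N l ≠ ⊤ := by
    intro l hl htop
    refine hl (MonoidHom.ext fun n => ?_)
    have h1 : N ≤ l.ker.map N.subtype := hgen.trans (Subgroup.commutator_le.2 fun a ha h _ => by
      have hmem' : ⁅a, h⁆ ∈ N := by
        rw [commutatorElement_def, show a * h * a⁻¹ * h⁻¹ = a * (h * a⁻¹ * h⁻¹) by group]
        exact N.mul_mem ha (hN.conj_mem _ (N.inv_mem ha) h)
      refine ⟨⟨_, hmem'⟩, ?_, rfl⟩
      show l ⟨_, hmem'⟩ = 1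
      have e := (htop ▸ Subgroup.mem_top h : h ∈ inertia N l) (⟨a, ha⟩⁻¹ : N)
      have e2 : (⟨⁅a, h⁆, hmem'⟩ : N) =
          ⟨a, ha⟩ * ⟨h * ((⟨a, ha⟩⁻¹ : N) : G) * h⁻¹, hN.conj_mem _ (⟨a, ha⟩⁻¹ : N).2 h⟩ :=
        Subtype.ext (by simp [commutatorElement_def, mul_assoc])
      rw [e2, map_mul, e, map_inv, mul_inv_cancel])
    obtain ⟨k, hk, hkn⟩ := h1 n.2
    rw [← show k = n from Subtype.ext hkn]
    exact hk
  -- inertia groups have index `m` and abelian intersection with `H`
  have key : ∀ l : N →* ℂˣ, l ≠ 1 → (inertia N l).index = m ∧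
      ∀ a ∈ inertia N l ⊓ H, ∀ b ∈ inertia N l ⊓ H, a * b = b * a := by
    intro l hl
    set T := inertia N l with hT
    haveI := Fintype.ofFinite T
    set K := T ⊓ H with hK
    haveI := Fintype.ofFinite K
    have hprT : ∀ t : T, (pr t : G) ∈ K := fun t => by
      refine ⟨?_, (pr t).2⟩
      have : (pr t : G) = ((t : G) * (pr t : G)⁻¹)⁻¹ * t := by group
      rw [this]
      exact T.mul_mem (T.inv_mem (hNT l (hmem _))) t.2
    let π : T →* K :=
      { toFun := fun t => ⟨(pr t : G), hprT t⟩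
        map_one' := Subtype.ext (by simp)
        map_mul' := fun s t => Subtype.ext (by simp) }
    have hπ : Function.Surjective π := fun k => ⟨⟨k, k.2.1⟩, Subtype.ext (by
      show (pr (k : G) : G) = k
      rw [show ((k : G)) = ((⟨(k : G), k.2.2⟩ : H) : G) from rfl, hpr])⟩
    let μ : T →* ℂˣ :=
      { toFun := fun t => l ⟨(t : G) * (pr t : G)⁻¹, hmem t⟩
        map_one' := by
          rw [← map_one l]
          exact congrArg l (Subtype.ext (by simp))
        map_mul' := fun s t => by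
          have hs : (pr s : G) ∈ T := (hprT s).1
          rw [← hs ⟨(t : G) * (pr t : G)⁻¹, hmem t⟩, ← map_mul]
          exact congrArg l (Subtype.ext (by simp [mul_assoc])) }
    have hdeg : ∀ θ : IrrCharacter K, (θ : K → ℂ) 1 * (T.index : ℂ) = (m : ℂ) := by
      intro θ
      let ψ : T → ℂ := linFun μ * fun t => (θ : K → ℂ) (π t)
      have hψ : IsIrrCharacter T ψ := isIrrCharacter_linFun_mul μ (isIrrCharacter_comp θ.2 hπ)
      have hψn : ∀ n : N, ψ ⟨n, hNT l n.2⟩ = (θ : K → ℂ) 1 * (l n : ℂ) := by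
        intro n
        show linFun μ _ * (θ : K → ℂ) (π ⟨n, hNT l n.2⟩) = _
        rw [show π ⟨(n : G), hNT l n.2⟩ = 1 from Subtype.ext (by
          show (pr (n : G) : G) = 1
          rw [hprN _ n.2, OneMemClass.coe_one]), linFun_apply, mul_comm]
        congr 2
        exact congrArg l (Subtype.ext (by
          show (n : G) * (pr (n : G) : G)⁻¹ = n
          rw [hprN _ n.2, OneMemClass.coe_one, inv_one, mul_one]))
      have h1 : classInner (fun n : N => ψ ⟨(n : G), hNT l n.2⟩) (fun n => (l n : ℂ)) ≠ 0 := by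
        rw [show (fun n : N => ψ ⟨(n : G), hNT l n.2⟩) =
          (θ : K → ℂ) 1 • fun n : N => (l n : ℂ) from funext hψn, classInner_smul_left,
          classInner_self_of_isIrr (isIrrCharacter_linear l), mul_one, charDegree_one]
        exact Nat.cast_ne_zero.2 (CfsgLib.BrauerCharacters.charDegree_spec θ).2.1.ne'
      obtain ⟨hirr, -⟩ := isIrrCharacter_indFun_inertia (isIrrCharacter_linear l)
        (fun g => mem_inertia_iff_conjChar) (hNT l) hψ h1
      have hone := CfsgLib.Frobenius.indFun_one T ψ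
      have hψ1 : ψ 1 = (θ : K → ℂ) 1 := by
        show linFun μ 1 * (θ : K → ℂ) (π 1) = _
        rw [linFun_apply, map_one, map_one, Units.val_one, one_mul]
      rw [hψ1, show indFun T ψ 1 = ((⟨_, hirr⟩ : IrrCharacter G) : G → ℂ) 1 from rfl,
        charDegree_one] at hone
      have hidx : 1 < T.index := Subgroup.one_lt_index_of_ne_top (htop l hl)
      rcases hcd ⟨_, hirr⟩ with e | e
      · rw [e, charDegree_one] at hone
        have h2 : 1 = T.index * charDegree (θ : K → ℂ) := by exact_mod_cast hone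
        have := Nat.le_mul_of_pos_right T.index (CfsgLib.BrauerCharacters.charDegree_spec θ).2.1
        omega
      · rw [mul_comm, ← hone, e]
    have hidx : T.index = m := by
      have := hdeg (trivIrr K)
      rw [trivIrr_apply, one_mul] at this
      exact_mod_cast this
    refine ⟨hidx, fun a ha b hb => congrArg Subtype.val (comm_of_linear (fun θ => ?_)
      (⟨a, ha⟩ : K) ⟨b, hb⟩)⟩
    have h := hdeg θ
    rw [hidx] at h
    exact mul_right_cancel₀ (by
      rw [← hidx]; exact Nat.cast_ne_zero.2 Subgroup.index_ne_zero_of_finite) (h.trans (one_mul _).symm)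
  -- linear characters separate the points of `N`
  letI : CommGroup N := { mul_comm := fun a b => Subtype.ext (hNc a a.2 b b.2) }
  have hsep : ∀ x : N, x ≠ 1 → ∃ l : N →* ℂˣ, l x ≠ 1 := fun x hx =>
    CommGroup.exists_apply_ne_one_of_hasEnoughRootsOfUnity N ℂ hx
  haveI : Nontrivial N := (Subgroup.nontrivial_iff_ne_bot N).2 hN1
  obtain ⟨x₀, hx₀⟩ := exists_ne (1 : N)
  obtain ⟨l₀, hl₀⟩ := hsep x₀ hx₀
  have hl₀1 : l₀ ≠ 1 := fun e => hl₀ (by rw [e]; rfl)
  -- all inertia groups coincide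
  have heq : ∀ l : N →* ℂˣ, l ≠ 1 → inertia N l = inertia N l₀ := by
    intro l hl
    by_contra hne
    set T := inertia N l
    set T' := inertia N l₀
    have hcard : ∀ U : Subgroup G, U.index = m → ∀ V : Subgroup G, V.index = m → U ≤ V → U = V := by
      intro U hU V hV hle
      refine Subgroup.eq_of_le_of_card_ge hle ?_
      have h1 := U.card_mul_index
      have h2 := V.card_mul_index
      rw [hU] at h1
      rw [hV] at h2
      have hm : m ≠ 0 := fun e => Subgroup.index_ne_zero_of_finite (H := U) (hU.trans e)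
      exact (Nat.eq_of_mul_eq_mul_right (Nat.pos_of_ne_zero hm) (h1.trans h2.symm)).ge
    set ν := l * l₀ with hν
    have hν1 : ν ≠ 1 := by
      intro e
      refine hne (Subgroup.ext fun g => ?_)
      have hl' : ∀ n, l n = (l₀ n)⁻¹ := fun n => eq_inv_of_mul_eq_one_left (DFunLike.congr_fun e n)
      rw [mem_inertia, mem_inertia]
      simp only [hl', inv_inj]
    have hle : inertia N ν ≤ T ⊓ T' := by
      intro s hs
      let ω : N →* ℂˣ :=
        { toFun := fun n => l ⟨s * n * s⁻¹, hN.conj_mem (n : G) n.2 s⟩ / l n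
          map_one' := by
            rw [show (⟨s * ((1 : N) : G) * s⁻¹, hN.conj_mem _ (1 : N).2 s⟩ : N) = 1 from
              Subtype.ext (by simp), div_self']
          map_mul' := fun a b => by
            rw [show (⟨s * ((a * b : N) : G) * s⁻¹, hN.conj_mem _ (a * b).2 s⟩ : N) =
              ⟨s * a * s⁻¹, hN.conj_mem _ a.2 s⟩ * ⟨s * b * s⁻¹, hN.conj_mem _ b.2 s⟩ from
              Subtype.ext (by simp [mul_assoc]), map_mul, map_mul, div_mul_div_comm] }
      have hω : ∀ n : N, ω n = l₀ n / l₀ ⟨s * n * s⁻¹, hN.conj_mem (n : G) n.2 s⟩ := by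
        intro n
        have h := hs n
        simp only [hν, MonoidHom.mul_apply] at h
        show l _ / l n = _
        rw [div_eq_div_iff_mul_eq_mul, h, mul_comm]
      have hT1 : T ≤ inertia N ω := by
        intro t ht n
        show l _ / l _ = l _ / l _
        congr 1
        · have ht' : s * t * s⁻¹ ∈ T := (hTn l).conj_mem t ht s
          rw [← ht' ⟨s * n * s⁻¹, hN.conj_mem (n : G) n.2 s⟩]
          exact congrArg l (Subtype.ext (by simp [mul_assoc]))
        · exact ht n
      have hT2 : T' ≤ inertia N ω := by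
        intro t ht n
        rw [hω, hω]
        congr 1
        · exact ht n
        · have ht' : s * t * s⁻¹ ∈ T' := (hTn l₀).conj_mem t ht s
          rw [← ht' ⟨s * n * s⁻¹, hN.conj_mem (n : G) n.2 s⟩]
          exact congrArg l₀ (Subtype.ext (by simp [mul_assoc]))
      by_cases hω1 : ω = 1
      · refine ⟨fun n => div_eq_one.1 (DFunLike.congr_fun hω1 n), fun n => ?_⟩
        have h := hω n
        rw [DFunLike.congr_fun hω1 n, MonoidHom.one_apply, eq_comm, div_eq_one] at h
        exact h.symm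
      · exact absurd ((hcard T (key l hl).1 _ (key ω hω1).1 hT1).trans
          (hcard T' (key l₀ hl₀1).1 _ (key ω hω1).1 hT2).symm) hne
    exact hne (((hcard _ (key ν hν1).1 T (key l hl).1 (hle.trans inf_le_left)).symm).trans
      (hcard _ (key ν hν1).1 T' (key l₀ hl₀1).1 (hle.trans inf_le_right)))
  refine ⟨inertia N l₀, hTn l₀, ?_, (key l₀ hl₀1).1⟩
  have hcen : ∀ t ∈ inertia N l₀, ∀ n ∈ N, t * n = n * t := by
    intro t ht n hn
    by_contra hne
    obtain ⟨l, hl⟩ := hsep (⟨t * n * t⁻¹, hN.conj_mem n hn t⟩ * (⟨n, hn⟩ : N)⁻¹) (fun e => hne (by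
      have := congrArg Subtype.val e
      rw [Subgroup.coe_mul, Subgroup.coe_inv, OneMemClass.coe_one, mul_inv_eq_one] at this
      exact mul_inv_eq_iff_eq_mul.1 this))
    have hl1 : l ≠ 1 := fun e => hl (by rw [e]; rfl)
    apply hl
    rw [map_mul, map_inv, mul_inv_eq_one]
    exact (heq l hl1 ▸ ht : t ∈ inertia N l) ⟨n, hn⟩
  intro a ha b hb
  have hka : (pr a : G) ∈ inertia N l₀ ⊓ H := by
    refine ⟨?_, (pr a).2⟩
    rw [show (pr a : G) = (a * (pr a : G)⁻¹)⁻¹ * a by group]
    exact Subgroup.mul_mem _ (Subgroup.inv_mem _ (hNT l₀ (hmem a))) ha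
  have hkb : (pr b : G) ∈ inertia N l₀ ⊓ H := by
    refine ⟨?_, (pr b).2⟩
    rw [show (pr b : G) = (b * (pr b : G)⁻¹)⁻¹ * b by group]
    exact Subgroup.mul_mem _ (Subgroup.inv_mem _ (hNT l₀ (hmem b))) hb
  have hab : Commute (pr a : G) (pr b : G) := (key l₀ hl₀1).2 _ hka _ hkb
  have h1 : Commute a (b * (pr b : G)⁻¹) := hcen a ha _ (hmem b)
  have h2 : Commute (a * (pr a : G)⁻¹) (pr b : G) := (hcen _ hkb.1 _ (hmem a)).symm
  have h3 : Commute a (pr b : G) := by
    have := h2.mul_left hab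
    rwa [inv_mul_cancel_right] at this
  have h4 := h1.mul_right h3
  rwa [inv_mul_cancel_right] at h4

variable [Finite G]

/-- The elements of an abelian subgroup whose order satisfies a condition closed under divisors
and least common multiples. -/
def orderPart (D : Subgroup G) (hD : ∀ a ∈ D, ∀ b ∈ D, a * b = b * a) (c : ℕ → Prop) (h1 : c 1)
    (hdvd : ∀ a b, a ∣ b → c b → c a) (hlcm : ∀ a b, c a → c b → c (Nat.lcm a b)) : Subgroup G where
  carrier := {x | x ∈ D ∧ c (orderOf x)}
  one_mem' := ⟨D.one_mem, by rw [orderOf_one]; exact h1⟩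
  mul_mem' {a b} ha hb := ⟨D.mul_mem ha.1 hb.1,
    hdvd _ _ (Commute.orderOf_mul_dvd_lcm (hD a ha.1 b hb.1)) (hlcm _ _ ha.2 hb.2)⟩
  inv_mem' {a} ha := ⟨D.inv_mem ha.1, by rw [orderOf_inv]; exact ha.2⟩

/-- A group with two degrees that has a non-normal Sylow subgroup. -/
theorem exists_abelian_of_not_normal {m : ℕ} (hm : 2 ≤ m)
    (hcd : ∀ χ : IrrCharacter G, charDegree (χ : G → ℂ) = 1 ∨ charDegree (χ : G → ℂ) = m)
    {r : ℕ} [hr : Fact r.Prime] (R : Sylow r G) (hR : ¬ (R : Subgroup G).Normal) :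
    ∃ A : Subgroup G, A.Normal ∧ (∀ a ∈ A, ∀ b ∈ A, a * b = b * a) ∧ A.index = m := by
  classical
  set D := commutator G with hDdef
  have hD : ∀ a ∈ D, ∀ b ∈ D, a * b = b * a := TwoDegrees.commutator_comm m hm hcd
  set E := orderPart D hD (fun n => ¬ r ∣ n) hr.out.not_dvd_one
    (fun a b hab hb ha => hb (ha.trans hab))
    (fun a b ha hb h => (hr.out.dvd_mul.1 (h.trans (Nat.lcm_dvd_mul a b))).elim ha hb) with hE
  set F := orderPart D hD (fun n => ∃ k, n ∣ r ^ k) ⟨0, one_dvd _⟩
    (fun a b hab hb => hb.imp fun k hk => hab.trans hk)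
    (fun a b ha hb => by
      obtain ⟨i, hi⟩ := ha
      obtain ⟨j, hj⟩ := hb
      exact ⟨i + j, (Nat.lcm_dvd_mul a b).trans (pow_add r i j ▸ Nat.mul_dvd_mul hi hj)⟩) with hF
  haveI hDn : D.Normal := by rw [hDdef]; infer_instance
  have hconj : ∀ g x : G, orderOf (g * x * g⁻¹) = orderOf x := fun g x =>
    (MulAut.conj g).orderOf_eq x
  haveI hEn : E.Normal := ⟨fun x hx g => ⟨hDn.conj_mem x hx.1 g, by rw [hconj]; exact hx.2⟩⟩
  haveI hFn : F.Normal := ⟨fun x hx g => ⟨hDn.conj_mem x hx.1 g, by rw [hconj]; exact hx.2⟩⟩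
  have hFR : F ≤ (R : Subgroup G) := by
    refine IsPGroup.le_sylow_of_normal ?_ R
    rintro ⟨x, hx⟩
    obtain ⟨k, hk⟩ := hx.2
    exact ⟨k, Subtype.ext (orderOf_dvd_iff_pow_eq_one.1 hk)⟩
  have hDEF : D ≤ E ⊔ F := by
    intro x hx
    obtain ⟨a, k, hk, hn⟩ := Nat.exists_eq_pow_mul_and_not_dvd (orderOf_pos x).ne' r hr.out.ne_one
    have hcop : IsCoprime ((r ^ a : ℕ) : ℤ) (k : ℤ) :=
      Nat.isCoprime_iff_coprime.2 ((hr.out.coprime_iff_not_dvd.2 hk).pow_left a)
    obtain ⟨u, v, huv⟩ := hcop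
    have e1 : (x ^ (r ^ a)) ^ k = 1 := by rw [← pow_mul, ← hn, pow_orderOf_eq_one]
    have e2 : (x ^ k) ^ (r ^ a) = 1 := by rw [← pow_mul, mul_comm, ← hn, pow_orderOf_eq_one]
    have hxE : x ^ (r ^ a) ∈ E :=
      ⟨D.pow_mem hx _, fun h => hk (h.trans (orderOf_dvd_of_pow_eq_one e1))⟩
    have hxF : x ^ k ∈ F := ⟨D.pow_mem hx _, a, orderOf_dvd_of_pow_eq_one e2⟩
    have : x = (x ^ (r ^ a)) ^ u * (x ^ k) ^ v := by
      rw [← zpow_natCast x (r ^ a), ← zpow_natCast x k, ← zpow_mul, ← zpow_mul, ← zpow_add,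
        mul_comm _ u, mul_comm _ v, huv, zpow_one]
    rw [this]
    exact Subgroup.mul_mem_sup (E.zpow_mem hxE u) (F.zpow_mem hxF v)
  haveI : IsMulCommutative E := ⟨⟨fun a b => Subtype.ext (hD a a.2.1 b b.2.1)⟩⟩
  have hRE : (R : Subgroup G) ≤ Subgroup.normalizer (E : Set G) := by
    rw [Subgroup.normalizer_eq_top_iff.2 hEn]; exact le_top
  have hcop : (Nat.card (R : Subgroup G)).Coprime (Nat.card E) := by
    obtain ⟨k, hk⟩ := IsPGroup.iff_card.1 R.2
    rw [hk]
    refine (hr.out.coprime_iff_not_dvd.2 fun h => ?_).pow_left k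
    obtain ⟨x, hx⟩ := exists_prime_orderOf_dvd_card' (G := E) r h
    exact x.2.2 (by rw [Subgroup.orderOf_coe, hx])
  have hEsolv : Group.IsSolvable E := Group.isSolvable_of_comm fun a b => mul_comm' a b
  set N := ⁅E, (R : Subgroup G)⁆ with hN
  have hNE : N ≤ E := CfsgLib.CoprimeAction.commutator_le_left hRE
  have hNn : N.Normal := by
    refine ⟨fun x hx g => ?_⟩
    have hMn : (D ⊔ (R : Subgroup G)).Normal := Subgroup.Normal.of_commutator_le G le_sup_left
    suffices h : N ≤ N.comap (MulAut.conj g).toMonoidHom from h hx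
    refine Subgroup.commutator_le.2 fun e he s hs => ?_
    show g * ⁅e, s⁆ * g⁻¹ ∈ N
    obtain ⟨d, hd, s', hs', hds⟩ := Subgroup.mem_sup_of_normal_left.1
      (hMn.conj_mem s (Subgroup.mem_sup_right hs) g)
    have he' : g * e * g⁻¹ ∈ E := hEn.conj_mem e he g
    have hcom : ⁅g * e * g⁻¹, s'⁆ ∈ E := hNE (Subgroup.commutator_mem_commutator he' hs')
    have e1 : g * ⁅e, s⁆ * g⁻¹ = ⁅g * e * g⁻¹, s'⁆ := by
      rw [show g * ⁅e, s⁆ * g⁻¹ = ⁅g * e * g⁻¹, g * s * g⁻¹⁆ by
        simp [commutatorElement_def, mul_assoc], ← hds]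
      have c1 : g * e * g⁻¹ * d = d * (g * e * g⁻¹) := hD _ he'.1 d hd
      have c2 : d * ⁅g * e * g⁻¹, s'⁆ = ⁅g * e * g⁻¹, s'⁆ * d := hD d hd _ hcom.1
      calc ⁅g * e * g⁻¹, d * s'⁆
          = g * e * g⁻¹ * d * (s' * (g * e * g⁻¹)⁻¹ * s'⁻¹) * d⁻¹ := by
            rw [commutatorElement_def]; group
        _ = d * ⁅g * e * g⁻¹, s'⁆ * d⁻¹ := by rw [c1, commutatorElement_def]; group
        _ = ⁅g * e * g⁻¹, s'⁆ := by rw [c2, mul_inv_cancel_right]
    rw [e1]
    exact Subgroup.commutator_mem_commutator he' hs'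
  haveI := hNn
  set H := Subgroup.normalizer ((R : Subgroup G) : Set G) with hH
  have hCH : E ⊓ Subgroup.centralizer ((R : Subgroup G) : Set G) ≤ H :=
    inf_le_right.trans (Subgroup.centralizer_le_normalizer _)
  have hRH : (R : Subgroup G) ≤ H := Subgroup.le_normalizer
  have hDNH : D ≤ N ⊔ H := by
    refine hDEF.trans (sup_le ?_ ((hFR.trans hRH).trans le_sup_right))
    conv_lhs => rw [← CfsgLib.CoprimeAction.commutator_sup_centralizer hRE hcop (Or.inr hEsolv)]
    exact sup_le_sup le_rfl hCH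
  have hsup : N ⊔ H = ⊤ := by
    haveI hMn : (D ⊔ (R : Subgroup G)).Normal := Subgroup.Normal.of_commutator_le G le_sup_left
    rw [eq_top_iff, ← R.normalizer_sup_eq_top' (N := D ⊔ (R : Subgroup G)) le_sup_right]
    exact sup_le le_sup_right (sup_le hDNH (hRH.trans le_sup_right))
  have hdis : E ⊓ (R : Subgroup G) = ⊥ :=
    Subgroup.inf_eq_bot_of_coprime hcop.symm
  have hNH : N ⊓ H = ⊥ := by
    refine eq_bot_iff.2 fun n hn => ?_
    rw [Subgroup.mem_bot]
    have hc : n ∈ Subgroup.centralizer ((R : Subgroup G) : Set G) := by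
      refine Subgroup.mem_centralizer_iff.2 fun s hs => ?_
      have h1 : ⁅n, s⁆ ∈ E ⊓ (R : Subgroup G) := by
        refine ⟨?_, ?_⟩
        · exact hNE (Subgroup.commutator_mem_commutator (hNE hn.1) hs)
        · rw [commutatorElement_def]
          exact (R : Subgroup G).mul_mem ((Subgroup.mem_normalizer_iff.1 hn.2 s).1 hs)
            ((R : Subgroup G).inv_mem hs)
      rw [hdis, Subgroup.mem_bot, commutatorElement_eq_one_iff_mul_comm] at h1
      exact h1.symm
    have h2 : n ∈ (E ⊓ Subgroup.centralizer ((R : Subgroup G) : Set G)) ⊓ N :=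
      ⟨⟨hNE hn.1, hc⟩, hn.1⟩
    rw [hN, CfsgLib.CoprimeAction.inf_commutator_eq_bot hRE hcop, Subgroup.mem_bot] at h2
    exact h2
  have hN1 : N ≠ ⊥ := by
    intro e
    rw [e, bot_sup_eq] at hsup
    exact hR (Subgroup.normalizer_eq_top_iff.1 hsup)
  refine exists_abelian_of_complement hcd N H hNH hsup hN1
    (fun d hd n hn => hD d hd n (hNE hn).1) (fun n hn => (hNE hn).1) ?_
  calc N = ⁅N, (R : Subgroup G)⁆ :=
        (CfsgLib.CoprimeAction.commutator_commutator_eq hRE hcop (Or.inr hEsolv)).symm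
    _ ≤ ⁅N, H⁆ := Subgroup.commutator_mono le_rfl hRH

/-- A nilpotent group with two degrees is a `p`-group times an abelian group. -/
theorem exists_split_of_normal {m : ℕ} (hm : 2 ≤ m)
    (hcd : ∀ χ : IrrCharacter G, charDegree (χ : G → ℂ) = 1 ∨ charDegree (χ : G → ℂ) = m)
    (hex : ∃ χ : IrrCharacter G, charDegree (χ : G → ℂ) = m)
    (hn : ∀ {p : ℕ} [Fact p.Prime] (P : Sylow p G), (P : Subgroup G).Normal) :
    ∃ p e : ℕ, p.Prime ∧ m = p ^ e ∧ ∃ P A : Subgroup G, P.Normal ∧ A.Normal ∧ IsPGroup p P ∧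
      (∀ a ∈ A, ∀ b ∈ A, a * b = b * a) ∧ P ⊓ A = ⊥ ∧ P ⊔ A = ⊤ := by
  classical
  haveI := Fintype.ofFinite G
  let eqv := Sylow.directProductOfNormal (G := G) hn
  let π : ∀ (q : (Nat.card G).primeFactors) (Q : Sylow q G), G →* (Q : Subgroup G) := fun q Q =>
    { toFun := fun g => eqv.symm g q Q
      map_one' := by simp
      map_mul' := fun a b => by simp }
  have hπ : ∀ q Q, Function.Surjective (π q Q) := fun q Q x => by
    let f : ∀ q : (Nat.card G).primeFactors, ∀ Q : Sylow q G, Q := Function.update 1 q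
      (Function.update (1 : ∀ Q : Sylow (q : ℕ) G, Q) Q x)
    refine ⟨eqv f, ?_⟩
    show eqv.symm (eqv f) q Q = x
    rw [eqv.symm_apply_apply]
    simp [f]
  -- each nonabelian Sylow subgroup gives the prime of `m`
  have hkey : ∀ (q : (Nat.card G).primeFactors) (Q : Sylow q G),
      (∀ a b : (Q : Subgroup G), a * b = b * a) ∨ ∃ e, m = (q : ℕ) ^ e := by
    intro q Q
    haveI := Fact.mk (Nat.prime_of_mem_primeFactors q.2)
    haveI := Fintype.ofFinite (Q : Subgroup G)
    by_cases h : ∀ θ : IrrCharacter (Q : Subgroup G), (θ : ↥(Q : Subgroup G) → ℂ) 1 = 1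
    · exact Or.inl fun a b => comm_of_linear h a b
    · push Not at h
      obtain ⟨θ, hθ⟩ := h
      let χ : IrrCharacter G := ⟨_, isIrrCharacter_comp θ.2 (hπ q Q)⟩
      have hχ : charDegree (χ : G → ℂ) = charDegree (θ : ↥(Q : Subgroup G) → ℂ) := by
        have h1 := charDegree_one χ
        rw [show (χ : G → ℂ) 1 = (θ : ↥(Q : Subgroup G) → ℂ) (π q Q 1) from rfl, map_one,
          charDegree_one] at h1
        exact_mod_cast h1.symm
      rcases hcd χ with e | e
      · rw [charDegree_one, ← hχ, e, Nat.cast_one] at hθ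
        exact absurd rfl hθ
      · obtain ⟨j, hj⟩ := IsPGroup.iff_card.1 Q.2
        obtain ⟨i, -, hi⟩ := (Nat.dvd_prime_pow (Nat.prime_of_mem_primeFactors q.2)).1
          (hj ▸ (CfsgLib.BrauerCharacters.charDegree_spec θ).2.2)
        exact Or.inr ⟨i, by rw [← e, hχ, hi]⟩
  have hcomm : ∀ a b : G, (∀ q Q, π q Q a * π q Q b = π q Q b * π q Q a) → a * b = b * a := by
    intro a b h
    have : eqv.symm (a * b) = eqv.symm (b * a) := by
      funext q Q
      rw [map_mul, map_mul]
      exact h q Q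
    exact eqv.symm.injective this
  -- some Sylow subgroup is not abelian
  obtain ⟨p, P, hP⟩ : ∃ (p : (Nat.card G).primeFactors) (P : Sylow p G),
      ¬ ∀ a b : (P : Subgroup G), a * b = b * a := by
    by_contra hcon
    push Not at hcon
    obtain ⟨χ, hχ⟩ := hex
    have hab : ∀ a b : G, a * b = b * a := fun a b => hcomm a b fun q Q => hcon q Q _ _
    obtain ⟨d, hd, hdvd⟩ := exists_degree_dvd_index_of_abelian χ.2 ⊤ (fun a _ b _ => hab a b)
    rw [charDegree_one, Nat.cast_inj] at hd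
    rw [Subgroup.index_top, Nat.dvd_one] at hdvd
    omega
  obtain ⟨e, he⟩ := (hkey p P).resolve_left hP
  haveI hpp := Fact.mk (Nat.prime_of_mem_primeFactors p.2)
  refine ⟨p, e, hpp.out, he, P, (π p P).ker, hn P, inferInstance, P.2, ?_, ?_, ?_⟩
  · intro a ha b hb
    refine hcomm a b fun q Q => ?_
    by_cases hq : q = p
    · subst hq
      haveI : Subsingleton (Sylow (q : ℕ) G) := (Sylow.unique_of_normal P (hn P)).instSubsingleton
      obtain rfl := Subsingleton.elim P Q
      rw [MonoidHom.mem_ker.1 ha, MonoidHom.mem_ker.1 hb]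
    · haveI := Fact.mk (Nat.prime_of_mem_primeFactors q.2)
      rcases hkey q Q with h | ⟨f, hf⟩
      · exact h _ _
      · exfalso
        refine hq (Subtype.ext ?_)
        have hf0 : f ≠ 0 := fun e0 => by rw [e0, pow_zero] at hf; omega
        have hd : (q : ℕ) ∣ (p : ℕ) ^ e := he ▸ hf ▸ dvd_pow_self _ hf0
        exact (Nat.prime_dvd_prime_iff_eq (Nat.prime_of_mem_primeFactors q.2) hpp.out).1
          ((Nat.prime_of_mem_primeFactors q.2).dvd_of_dvd_pow hd)
  all_goals
    have hidx : (π p P).ker.index = Nat.card (P : Subgroup G) := by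
      rw [Subgroup.index_ker, MonoidHom.range_eq_top.2 (hπ p P), Subgroup.card_top]
    have hcop : (Nat.card (P : Subgroup G)).Coprime (Nat.card (π p P).ker) := by
      obtain ⟨k, hk⟩ := IsPGroup.iff_card.1 P.2
      rw [hk]
      refine (hpp.out.coprime_iff_not_dvd.2 fun h => P.not_dvd_index ?_).pow_left k
      have h1 := (π p P).ker.card_mul_index
      have h2 := (P : Subgroup G).card_mul_index
      rw [hidx] at h1
      rwa [Nat.eq_of_mul_eq_mul_left Nat.card_pos (h2.trans (h1.symm.trans (mul_comm _ _)))]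
  · exact Subgroup.inf_eq_bot_of_coprime hcop
  · refine Subgroup.eq_top_of_le_card _ (Nat.le_of_dvd Nat.card_pos ?_)
    refine (dvd_of_eq ?_).trans
      (hcop.mul_dvd_of_dvd_of_dvd (Subgroup.card_dvd_of_le le_sup_left)
        (Subgroup.card_dvd_of_le le_sup_right))
    have h1 := (π p P).ker.card_mul_index
    rw [hidx, mul_comm] at h1
    exact h1.symm

end CfsgLib.CharDegreesTheory.TwoDegreesStructure
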