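import Mathlib
import Cfsg.Agent.Lib.CharDegreesTheory.RegularLifts
import Cfsg.Agent.Lib.Blocks.Orth

/-!
# Lifting idempotents, and degree-weighted sums vanishing on singular elements
-/

set_option autoImplicit false
set_option linter.style.haveILetI false
set_option linter.unusedSectionVars false

open scoped ComplexConjugate
open Cfsg CfsgLib CfsgLib.CharTheory CfsgLib.Blocks

namespace CfsgLib.CharDegreesTheory

noncomputable section

universe u

variable {M : Ideal AlgInt} [M.IsPrime]

/-- The local ring is integrally closed in `ℂ`. -/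
theorem memLocalRing_of_root {f : Polynomial (locRing M)} (hf : f.Monic) {z : ℂ}
    (hz : (f.map (locRing M).subtype).eval z = 0) : MemLocalRing M z := by
  classical
  choose a b hb hab using fun i => (f.coeff i).2
  set n := f.natDegree with hn
  set B : AlgInt := ∏ i ∈ Finset.range n, b i with hB
  have hBM : B ∉ M := fun h => by
    obtain ⟨i, -, hi⟩ := (Ideal.IsPrime.prod_mem_iff).1 h
    exact hb i hi
  have hmon := hf.map (locRing M).subtype
  set F := f.map (locRing M).subtype with hF
  have hdeg : F.natDegree = n := hf.natDegree_map _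
  have hlift : F.scaleRoots (B : ℂ) ∈ Polynomial.lifts (algebraMap AlgInt ℂ) := by
    rw [Polynomial.lifts_iff_coeff_lifts]
    intro i
    rw [Polynomial.coeff_scaleRoots, hdeg, hF, Polynomial.coeff_map]
    rcases lt_trichotomy i n with hi | hi | hi
    · refine ⟨a i * (∏ j ∈ (Finset.range n).erase i, b j) * B ^ (n - i - 1), ?_⟩
      have h1 : (B : ℂ) = b i * (∏ j ∈ (Finset.range n).erase i, b j : AlgInt) := by
        rw [hB, ← Finset.mul_prod_erase _ _ (Finset.mem_range.2 hi)]
        simp
      have h2 : ((f.coeff i : locRing M) : ℂ) * (b i : ℂ) = a i := by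
        rw [← hab i]
        exact div_mul_cancel₀ _ (coe_ne_zero_of_notMem (hb i))
      rw [show (n - i) = (n - i - 1) + 1 by omega, pow_succ, Nat.add_sub_cancel]
      show ((a i * (∏ j ∈ (Finset.range n).erase i, b j) * B ^ (n - i - 1) : AlgInt) : ℂ) =
        ((f.coeff i : locRing M) : ℂ) * ((B : ℂ) ^ (n - i - 1) * B)
      conv_rhs => arg 2; arg 2; rw [h1]
      push_cast
      rw [← h2]
      ring
    · subst hi
      refine ⟨1, ?_⟩
      rw [hn, hf.coeff_natDegree]
      simp
    · refine ⟨0, ?_⟩
      rw [Polynomial.coeff_eq_zero_of_natDegree_lt hi]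
      simp
  have hmon' : (F.scaleRoots (B : ℂ)).Monic := (Polynomial.monic_scaleRoots_iff _).2 hmon
  obtain ⟨Q, hQ, -, hQm⟩ := Polynomial.lifts_and_degree_eq_and_monic hlift hmon'
  have hroot : Polynomial.aeval ((B : ℂ) * z) Q = 0 := by
    rw [Polynomial.aeval_def, ← Polynomial.eval_map, hQ]
    exact (Polynomial.scaleRoots_eval₂_eq_zero (RingHom.id ℂ) (s := (B : ℂ)) (r := z)
      (by simpa [Polynomial.eval₂_id] using hz))
  refine ⟨⟨(B : ℂ) * z, isIntegral_trans _ ⟨Q, hQm, hroot⟩⟩, B, hBM, ?_⟩
  exact mul_div_cancel_left₀ z (coe_ne_zero_of_notMem hBM)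

theorem exists_multiset_eq_prod {f : Polynomial (locRing M)} (hf : f.Monic) :
    ∃ s : Multiset (locRing M), f = (s.map fun r => Polynomial.X - Polynomial.C r).prod := by
  classical
  set F := f.map (locRing M).subtype with hF
  have hloc : ∀ z ∈ F.roots, MemLocalRing M z := fun z hz =>
    memLocalRing_of_root hf ((Polynomial.mem_roots (hf.map (locRing M).subtype).ne_zero).1 hz)
  let lift : {z // z ∈ F.roots} → locRing M := fun z => ⟨(z : ℂ), hloc z z.2⟩
  refine ⟨F.roots.attach.map lift, ?_⟩
  refine Polynomial.map_injective (locRing M).subtype Subtype.val_injective ?_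
  rw [Polynomial.map_multiset_prod, Multiset.map_map, Multiset.map_map, ← hF]
  have hfun : ((Polynomial.map (locRing M).subtype ∘ fun r => Polynomial.X - Polynomial.C r) ∘ lift) =
      fun z : {z // z ∈ F.roots} => Polynomial.X - Polynomial.C (z : ℂ) := funext fun z => by
    simp [lift]
  rw [hfun, Multiset.attach_map_val' F.roots fun z : ℂ => Polynomial.X - Polynomial.C z]
  exact (IsAlgClosed.splits F).eq_prod_roots_of_monic (hf.map _)

theorem isUnit_of_red_ne_zero {z : locRing M} (h : red M z ≠ 0) : IsUnit z :=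
  (isUnit_locRing_iff z).2 ((red_ne_zero_iff z).1 h)

/-- Idempotent polynomial fixing the roots `0` and `1` of a monic polynomial. -/
theorem exists_idempotent_poly {f : Polynomial (locRing M)} (hf : f.Monic) :
    ∃ P : Polynomial (locRing M), (f ∣ P * (1 - P)) ∧ (f.eval 0 = 0 → P.eval 0 = 0) ∧
      (f.eval 1 = 0 → P.eval 1 = 1) := by
  classical
  obtain ⟨s, rfl⟩ := exists_multiset_eq_prod hf
  set s₀ := s.filter fun r => red M r ≠ 1 with hs₀
  set s₁ := s.filter fun r => ¬ red M r ≠ 1 with hs₁
  let q : locRing M → Polynomial (locRing M) := fun r => Polynomial.X - Polynomial.C r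
  have hsplit : (s.map q).prod = (s₀.map q).prod * (s₁.map q).prod := by
    rw [← Multiset.prod_add, ← Multiset.map_add, hs₀, hs₁, Multiset.filter_add_not]
  have hcop : IsCoprime (s₀.map q).prod (s₁.map q).prod := by
    have key : ∀ t : Multiset (locRing M), (∀ r ∈ t, red M r ≠ 1) →
        ∀ w : Multiset (locRing M), (∀ r ∈ w, red M r = 1) →
          IsCoprime (t.map q).prod (w.map q).prod := by
      intro t ht w hw
      induction t using Multiset.induction_on with
      | empty => simpa using isCoprime_one_left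
      | cons r t iht =>
        rw [Multiset.map_cons, Multiset.prod_cons]
        refine IsCoprime.mul_left ?_ (iht fun r' hr' => ht r' (Multiset.mem_cons_of_mem hr'))
        clear iht
        induction w using Multiset.induction_on with
        | empty => simpa using isCoprime_one_right
        | cons r' w ihw =>
          rw [Multiset.map_cons, Multiset.prod_cons]
          refine IsCoprime.mul_right ?_ (ihw fun r'' h => hw r'' (Multiset.mem_cons_of_mem h))
          refine Polynomial.isCoprime_X_sub_C_of_isUnit_sub (isUnit_of_red_ne_zero ?_)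
          rw [map_sub, hw r' (Multiset.mem_cons_self _ _), sub_ne_zero]
          exact ht r (Multiset.mem_cons_self _ _)
    refine key _ (fun r hr => (Multiset.mem_filter.1 hr).2) _ fun r hr => ?_
    exact not_not.1 (Multiset.mem_filter.1 hr).2
  obtain ⟨a, b, hab⟩ := hcop
  set f₀ := (s₀.map q).prod
  set f₁ := (s₁.map q).prod
  have heval : ∀ (t : Multiset (locRing M)) (c : locRing M),
      ((t.map q).prod).eval c = (t.map fun r => c - r).prod := fun t c => by
    rw [Polynomial.eval_multiset_prod, Multiset.map_map]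
    simp [q, Function.comp_def]
  have hu : ∀ (t : Multiset (locRing M)) (c : locRing M), (∀ r ∈ t, red M r ≠ red M c) →
      IsUnit ((t.map q).prod.eval c) := fun t c h => by
    rw [heval]
    induction t using Multiset.induction_on with
    | empty => simp
    | cons r t iht =>
      rw [Multiset.map_cons, Multiset.prod_cons]
      refine IsUnit.mul (isUnit_of_red_ne_zero ?_) (iht fun r' hr' => h r' (Multiset.mem_cons_of_mem hr'))
      rw [map_sub, sub_ne_zero]
      exact (h r (Multiset.mem_cons_self _ _)).symm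
  refine ⟨a * f₀, ⟨a * b, ?_⟩, fun h => ?_, fun h => ?_⟩
  · rw [show (s.map fun r => Polynomial.X - Polynomial.C r).prod = f₀ * f₁ from hsplit]
    linear_combination -(a * f₀) * hab
  · rw [show (s.map fun r => Polynomial.X - Polynomial.C r).prod = f₀ * f₁ from hsplit,
      Polynomial.eval_mul] at h
    have h1 : IsUnit (f₁.eval 0) := hu s₁ 0 fun r hr => by
      rw [not_not.1 (Multiset.mem_filter.1 hr).2, map_zero]
      exact one_ne_zero
    rw [Polynomial.eval_mul, (h1.mul_left_eq_zero).1 h, mul_zero]
  · rw [show (s.map fun r => Polynomial.X - Polynomial.C r).prod = f₀ * f₁ from hsplit,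
      Polynomial.eval_mul] at h
    have h1 : IsUnit (f₀.eval 1) := hu s₀ 1 fun r hr => by
      rw [map_one]
      exact (Multiset.mem_filter.1 hr).2
    have h2 := congrArg (Polynomial.eval 1) hab
    rw [Polynomial.eval_add, Polynomial.eval_mul, Polynomial.eval_mul, Polynomial.eval_one,
      (h1.mul_right_eq_zero).1 h, mul_zero, add_zero] at h2
    rw [Polynomial.eval_mul, h2]

variable {G : Type u} [Group G] [Fintype G]

theorem evalAt_mul {χ : G → ℂ} (hχ : IsClassFunction G χ) {x y : MonoidAlgebra (locRing M) G}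
    {c d : ℂ} (hx : ∀ a, evalAt x χ a = c * χ a) (hy : ∀ a, evalAt y χ a = d * χ a) (a : G) :
    evalAt (x * y) χ a = c * d * χ a := by
  have hcomm : ∀ u v : G, χ (u * v) = χ (v * u) := fun u v => by
    rw [← hχ (u * v) v]
    congr 1
    group
  simp only [evalAt_apply, coeff_mul_eq_sum, AddSubmonoidClass.coe_finsetSum, MulMemClass.coe_mul,
    Finset.sum_mul]
  rw [Finset.sum_comm]
  calc ∑ h, ∑ g, (x.coeff h : ℂ) * (y.coeff (h⁻¹ * g) : ℂ) * χ (g * a)
      = ∑ h, (x.coeff h : ℂ) * evalAt y χ (a * h) := by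
        refine Finset.sum_congr rfl fun h _ => ?_
        rw [evalAt_apply, Finset.mul_sum]
        refine (Fintype.sum_equiv (Equiv.mulLeft h) _ _ fun k => ?_).symm
        rw [Equiv.coe_mulLeft, inv_mul_cancel_left, mul_assoc]
        congr 2
        show χ (k * (a * h)) = χ (h * k * a)
        rw [← mul_assoc, hcomm (k * a) h, mul_assoc]
    _ = d * evalAt x χ a := by
        rw [evalAt_apply, Finset.mul_sum]
        exact Finset.sum_congr rfl fun h _ => by rw [hy, hcomm a h]; ring
    _ = c * d * χ a := by rw [hx]; ring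

theorem evalAt_aeval {χ : G → ℂ} (hχ : IsClassFunction G χ) {x : MonoidAlgebra (locRing M) G}
    {c : locRing M} (hx : ∀ a, evalAt x χ a = (c : ℂ) * χ a) (P : Polynomial (locRing M)) :
    ∀ a, evalAt (Polynomial.aeval x P) χ a = ((P.eval c : locRing M) : ℂ) * χ a := by
  classical
  have hconst : ∀ r : locRing M, ∀ a,
      evalAt (algebraMap (locRing M) (MonoidAlgebra (locRing M) G) r) χ a = (r : ℂ) * χ a := by
    intro r a
    rw [evalAt_apply, Finset.sum_eq_single 1]
    · simp [MonoidAlgebra.coe_algebraMap]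
    · intro h _ hne
      simp [MonoidAlgebra.coe_algebraMap, Finsupp.single_apply, Ne.symm hne]
    · simp
  induction P using Polynomial.induction_on with
  | C r => intro a; rw [Polynomial.aeval_C, hconst, Polynomial.eval_C]
  | add P Q hP hQ =>
    intro a
    rw [map_add, Polynomial.eval_add, AddMemClass.coe_add, add_mul, ← hP, ← hQ, evalAt_apply,
      evalAt_apply, evalAt_apply, ← Finset.sum_add_distrib]
    exact Finset.sum_congr rfl fun h _ => by
      rw [MonoidAlgebra.coeff_add, Finsupp.add_apply, AddMemClass.coe_add]; ring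
  | monomial n r hP =>
    intro a
    rw [pow_succ, ← mul_assoc, map_mul, Polynomial.aeval_X, evalAt_mul hχ hP hx,
      Polynomial.eval_mul_X, MulMemClass.coe_mul]

/-- An idempotent of the complex group algebra killed by every central character is zero. -/
theorem idempotent_eq_zero [Fintype (IrrCharacter G)] {a : MonoidAlgebra ℂ G} (ha : a * a = a)
    (h : ∀ χ : IrrCharacter G, omega (χ : G → ℂ) a = 0) : a = 0 := by
  classical
  have h1 : a.coeff 1 = 0 := by
    have := sum_sq_mul_omega a
    simpa [h, Nat.card_pos.ne'] using this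
  set L : Matrix G G ℂ := Matrix.of fun i j => a.coeff (i * j⁻¹) with hL
  have hLL : L * L = L := Matrix.ext fun i j => by
    rw [Matrix.mul_apply]
    simp only [hL, Matrix.of_apply]
    conv_rhs => rw [← ha]
    rw [coeff_mul_eq_sum]
    refine Fintype.sum_equiv ((Equiv.inv G).trans (Equiv.mulLeft i)) _ _ fun k => ?_
    simp [mul_assoc]
  have htr : LinearMap.trace ℂ (G → ℂ) (Matrix.toLin' L) = 0 := by
    rw [Matrix.trace_toLin'_eq]
    simp [Matrix.trace, hL, h1]
  have hproj : LinearMap.IsProj (LinearMap.range (Matrix.toLin' L)) (Matrix.toLin' L) :=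
    ⟨fun v => ⟨v, rfl⟩, by
      rintro _ ⟨v, rfl⟩
      rw [← LinearMap.comp_apply, ← Matrix.toLin'_mul, hLL]⟩
  rw [hproj.trace, Nat.cast_eq_zero, Submodule.finrank_eq_zero, LinearMap.range_eq_bot] at htr
  have hL0 : L = 0 := Matrix.toLin'.injective (htr.trans (map_zero _).symm)
  refine MonoidAlgebra.ext (Finsupp.ext fun g => ?_)
  simpa [hL] using congrFun (congrFun hL0 g) 1

/-- In a `p`-solvable group, a degree-weighted sum of irreducible characters vanishing at the
`p`-singular elements belongs to a union of blocks. -/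
theorem mem_of_sameBlock_of_vanishing {G : Type u} [Group G] [Fintype G] {p : ℕ} [Fact p.Prime]
    {M : Ideal AlgInt} [M.IsPrime] (hM : IsPModular p M) (hsolv : IsPSolvable p G)
    (U : Set (IrrCharacter G))
    (hU : ∀ x : G, p ∣ orderOf x → ∑ᶠ χ ∈ U, (χ : G → ℂ) 1 * (χ : G → ℂ) x = 0)
    {χ ψ : IrrCharacter G} (hχ : χ ∈ U) (hψ : SameBlock M (χ : G → ℂ) (ψ : G → ℂ)) : ψ ∈ U := by
  classical
  have := Fintype.ofFinite (IrrCharacter G)
  obtain ⟨L, hspan, hsep⟩ := exists_lifts hM hsolv
  choose! X hXloc hX1 hX0 using hsep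
  set V := Finset.univ.filter fun φ : IrrCharacter G => φ ∈ L ∧ φ ∈ U with hV
  have hvloc : ∀ g, MemLocalRing M (∑ φ ∈ V, X φ g) := fun g =>
    memLocalRing_sum fun φ hφ => hXloc φ (Finset.mem_filter.1 hφ).2.1 g
  set x : MonoidAlgebra (locRing M) G :=
    Blocks.ofFun fun g => (⟨∑ φ ∈ V, X φ g, hvloc g⟩ : locRing M) with hx
  have hxact : ∀ φ ∈ L, ∀ a, evalAt x (φ : G → ℂ) a =
      ((if φ ∈ U then 1 else 0 : locRing M) : ℂ) * (φ : G → ℂ) a := by
    intro φ hφ a
    simp only [evalAt_apply, hx, coeff_ofFun, Finset.sum_mul]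
    rw [Finset.sum_comm]
    by_cases hφU : φ ∈ U
    · rw [Finset.sum_eq_single φ (fun φ' hφ' hne =>
        hX0 φ' (Finset.mem_filter.1 hφ').2.1 φ hφ (Ne.symm hne) a)
        (fun h => absurd (Finset.mem_filter.2 ⟨Finset.mem_univ _, hφ, hφU⟩) h), hX1 φ hφ a]
      simp [hφU]
    · rw [Finset.sum_eq_zero fun φ' hφ' => hX0 φ' (Finset.mem_filter.1 hφ').2.1 φ hφ
        (fun e => hφU (by rw [e]; exact (Finset.mem_filter.1 hφ').2.2)) a]
      simp [hφU]
  obtain ⟨f, hf, hfx⟩ : IsIntegral (locRing M) x := IsIntegral.of_finite (locRing M) x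
  obtain ⟨P, ⟨Q, hQ⟩, hP0, hP1⟩ := exists_idempotent_poly hf
  set E := Polynomial.aeval x P with hE
  have hEE : E * E = E := by
    have h := congrArg (Polynomial.aeval x) hQ
    rw [map_mul, map_mul, map_sub, map_one, ← hE,
      show Polynomial.aeval x f = 0 from hfx, zero_mul, mul_sub, mul_one, sub_eq_zero] at h
    exact h.symm
  have hEL : ∀ φ ∈ L, evalAt E (φ : G → ℂ) 1 =
      if φ ∈ U then (φ : G → ℂ) 1 else 0 := by
    intro φ hφ
    have hcls := IsIrrCharacter.isClassFunction φ.2
    have hf0 := evalAt_aeval hcls (hxact φ hφ) f 1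
    rw [show Polynomial.aeval x f = 0 from hfx, evalAt_apply] at hf0
    simp only [MonoidAlgebra.coeff_zero, Finsupp.coe_zero, Pi.zero_apply, ZeroMemClass.coe_zero,
      zero_mul, Finset.sum_const_zero] at hf0
    have hfc : f.eval (if φ ∈ U then 1 else 0 : locRing M) = 0 :=
      Subtype.ext ((mul_eq_zero.1 hf0.symm).resolve_right (apply_one_ne_zero_of_isIrr φ.2))
    rw [hE, evalAt_aeval hcls (hxact φ hφ) P 1]
    by_cases hφU : φ ∈ U
    · simp only [if_pos hφU] at hfc ⊢
      rw [hP1 hfc]
      simp
    · simp only [if_neg hφU] at hfc ⊢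
      rw [hP0 hfc]
      simp
  set c : IrrCharacter G → ℂ := fun φ =>
    evalAt E (φ : G → ℂ) 1 - if φ ∈ U then (φ : G → ℂ) 1 else 0 with hc
  have hc0 := hspan c (fun φ hφ => by rw [hc]; dsimp only; rw [hEL φ hφ, sub_self]) fun g hg => by
    simp only [hc, sub_mul, Finset.sum_sub_distrib, ite_mul, zero_mul]
    rw [sum_evalAt_mul_eq_zero hM E hEE 1 g (fun _ => by simp) (fun z m hz => by
      rw [one_pow, one_mul, mul_eq_left] at hz
      exact hg.trans (orderOf_dvd_of_pow_eq_one hz)), ← Blocks.finsum_mem_irr_eq_sum U, hU g hg,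
      sub_zero]
  set E' : MonoidAlgebra ℂ G := MonoidAlgebra.mapRingHom G (locRing M).subtype E with hE'
  have homega : ∀ φ : IrrCharacter G, omega (φ : G → ℂ) E' = if φ ∈ U then 1 else 0 := by
    intro φ
    have h1 := apply_one_ne_zero_of_isIrr φ.2
    have h2 : evalAt E (φ : G → ℂ) 1 = if φ ∈ U then (φ : G → ℂ) 1 else 0 := sub_eq_zero.1 (hc0 φ)
    rw [omega_eq_sum]
    simp only [hE', MonoidAlgebra.coeff_mapRingHom, Subring.coe_subtype]
    rw [evalAt_apply] at h2
    simp only [mul_one] at h2
    rw [h2]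
    split_ifs
    · exact div_self h1
    · exact zero_div _
  set eU := blockIdem U with heU
  have hEE' : E' * E' = E' := by rw [hE', ← map_mul, hEE]
  have hcl := isClassElem_blockIdem U
  have hcomm : eU * E' = E' * eU := (hcl.commute E').eq.symm
  have heUU : eU * eU = eU := blockIdem_mul_self U
  have h1 : (1 - eU) * E' = 0 := by
    refine idempotent_eq_zero ?_ fun φ => ?_
    · have hid : (1 - eU) * (1 - eU) = 1 - eU := by
        rw [mul_sub, sub_mul, sub_mul, one_mul, one_mul, mul_one, heUU, sub_self, sub_zero]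
      have hc' : E' * (1 - eU) = (1 - eU) * E' := by
        rw [mul_sub, sub_mul, one_mul, mul_one, hcomm]
      calc (1 - eU) * E' * ((1 - eU) * E') = (1 - eU) * (E' * (1 - eU)) * E' := by
            simp only [mul_assoc]
        _ = ((1 - eU) * (1 - eU)) * (E' * E') := by rw [hc']; simp only [mul_assoc]
        _ = (1 - eU) * E' := by rw [hid, hEE']
    · rw [sub_mul, one_mul, omega_sub, omega_mul φ.2 hcl, homega, omega_blockIdem]
      split_ifs <;> simp
  have h2 : eU * (1 - E') = 0 := by
    refine idempotent_eq_zero ?_ fun φ => ?_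
    · have hid : (1 - E') * (1 - E') = 1 - E' := by
        rw [mul_sub, sub_mul, sub_mul, one_mul, one_mul, mul_one, hEE', sub_self, sub_zero]
      have hc' : (1 - E') * eU = eU * (1 - E') := by
        rw [mul_sub, sub_mul, one_mul, mul_one, hcomm]
      calc eU * (1 - E') * (eU * (1 - E')) = eU * ((1 - E') * eU) * (1 - E') := by
            simp only [mul_assoc]
        _ = (eU * eU) * ((1 - E') * (1 - E')) := by rw [hc']; simp only [mul_assoc]
        _ = eU * (1 - E') := by rw [hid, heUU]
    · rw [omega_mul φ.2 hcl, omega_sub, omega_one (apply_one_ne_zero_of_isIrr φ.2), homega,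
        omega_blockIdem]
      split_ifs <;> simp
  rw [sub_mul, one_mul, sub_eq_zero] at h1
  rw [mul_sub, mul_one, sub_eq_zero] at h2
  have heq : E' = eU := h1.trans h2.symm
  have hloc : ∀ g, MemLocalRing M (blockCoeff U g) := fun g => by
    rw [← coeff_blockIdem, ← heU, ← heq, hE', MonoidAlgebra.coeff_mapRingHom]
    exact (E.coeff g).2
  by_contra hn
  have h3 := omegaRes_idemRes_of_mem hloc hχ
  rw [(omegaRes_eq_iff M χ ψ).2 hψ, omegaRes_idemRes_of_notMem hloc hn] at h3
  exact zero_ne_one h3

end

end CfsgLib.CharDegreesTheory
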