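import Cfsg.Agent.Lib.CharDegreesTheory.CoprimeWinter
import Cfsg.Agent.Lib.Clifford.SignCharacter
import Cfsg.Agent.Lib.CharTheory.Burnside
import Cfsg.Agent.Lib.ZerosCodegree.CentralSubgroup
import Cfsg.Agent.Lib.CharDegreesTheory.ItoSolvable
import Cfsg.Agent.Lib.CoprimeAction.Sylow
import Cfsg.Agent.Lib.PSolvable.HallHigman

/-!
# The theorems of Itô and Winter on degrees of faithful characters
-/

set_option autoImplicit false
set_option linter.style.haveILetI false
set_option linter.unusedSectionVars false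

namespace CfsgLib.CharDegreesTheory.WinterIto

open Cfsg CfsgLib.CharTheory CfsgLib.Clifford CfsgLib.CharDegreesTheory.SmallDegrees
  CfsgLib.CharDegreesTheory.CoprimeWinter
open scoped ComplexConjugate commutatorElement

universe u

/-- If no nontrivial linear character of an abelian quotient fixes `χ`, its restriction is
irreducible. -/
theorem isIrr_restrict {G : Type u} [Group G] [Fintype G] (M : Subgroup G) [M.Normal] [Fintype M]
    (hab : commutator G ≤ M) (χ : IrrCharacter G)
    (hno : ∀ μ : G ⧸ M →* ℂˣ, (∀ x : G, (χ : G → ℂ) x * (μ x : ℂ) = (χ : G → ℂ) x) → μ = 1) :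
    IsIrrCharacter M fun m : M => (χ : G → ℂ) m := by
  classical
  letI : CommGroup (G ⧸ M) :=
    { mul_comm := fun x y => by
        obtain ⟨a, rfl⟩ := QuotientGroup.mk'_surjective M x
        obtain ⟨b, rfl⟩ := QuotientGroup.mk'_surjective M y
        show ((a : G ⧸ M)) * b = b * a
        rw [← QuotientGroup.mk_mul, ← QuotientGroup.mk_mul, QuotientGroup.eq]
        have : ⁅b⁻¹, a⁻¹⁆ ∈ M := hab (by
          rw [commutator_def]
          exact Subgroup.commutator_mem_commutator (Subgroup.mem_top _) (Subgroup.mem_top _))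
        rw [show (a * b)⁻¹ * (b * a) = ⁅b⁻¹, a⁻¹⁆ by rw [commutatorElement_def]; group]
        exact this }
  haveI : Fintype (G ⧸ M →* ℂˣ) := Fintype.ofFinite _
  have hdual : Fintype.card (G ⧸ M →* ℂˣ) = M.index := by
    rw [← Nat.card_eq_fintype_card, CommGroup.card_monoidHom_of_hasEnoughRootsOfUnity,
      Subgroup.index_eq_card]
  have hsum : ∑ μ : G ⧸ M →* ℂˣ, ∑ g : G, (χ : G → ℂ) g * (μ g : ℂ) * conj ((χ : G → ℂ) g) =
      (Nat.card G : ℂ) := by
    rw [Finset.sum_eq_single (1 : G ⧸ M →* ℂˣ)]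
    · have hself := classInner_self_of_isIrr χ.2
      rw [classInner, inv_mul_eq_iff_eq_mul₀ (Nat.cast_ne_zero.2 Nat.card_pos.ne'), mul_one] at hself
      rw [← hself]
      simp
    · intro μ _ hμ
      have hirr := isIrrCharacter_linFun_mul (μ.comp (QuotientGroup.mk' M)) χ.2
      have hne : linFun (μ.comp (QuotientGroup.mk' M)) * (χ : G → ℂ) ≠ (χ : G → ℂ) := by
        intro heq
        refine hμ (hno μ fun y => ?_)
        rw [mul_comm]
        exact congrFun heq y
      have h0 := classInner_eq_zero_of_ne hirr χ.2 hne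
      rw [classInner, inv_mul_eq_iff_eq_mul₀ (Nat.cast_ne_zero.2 Nat.card_pos.ne'), mul_zero] at h0
      rw [← h0]
      refine Finset.sum_congr rfl fun g _ => ?_
      rw [Pi.mul_apply, linFun_apply, mul_comm ((χ : G → ℂ) g)]
      rfl
    · exact fun h => absurd (Finset.mem_univ _) h
  rw [Finset.sum_comm, ← Finset.sum_subset
    (Finset.subset_univ (Finset.univ.filter fun g : G => g ∈ M)) (fun g _ hg => by
      have hg' : (g : G ⧸ M) ≠ 1 := fun h => hg (Finset.mem_filter.2
        ⟨Finset.mem_univ _, (QuotientGroup.eq_one_iff g).1 h⟩)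
      obtain ⟨μ₀, hμ₀⟩ := CommGroup.exists_apply_ne_one_of_hasEnoughRootsOfUnity (G ⧸ M) ℂ hg'
      have hz : ∑ μ : G ⧸ M →* ℂˣ, (μ (g : G ⧸ M) : ℂ) = 0 := by
        have h := Fintype.sum_equiv (Equiv.mulLeft μ₀) (fun μ => ((μ₀ * μ) (g : G ⧸ M) : ℂ))
          (fun μ => (μ (g : G ⧸ M) : ℂ)) fun μ => rfl
        simp only [MonoidHom.mul_apply, Units.val_mul, ← Finset.mul_sum] at h
        exact ((mul_left_eq_self₀ (M₀ := ℂ)).1 h).resolve_left fun e1 => hμ₀ (Units.ext e1)
      simp only [← Finset.sum_mul, ← Finset.mul_sum]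
      rw [hz, mul_zero, zero_mul]),
    Finset.sum_subtype (p := fun g => g ∈ M) _ (fun g => by simp)
      (fun g => ∑ μ : G ⧸ M →* ℂˣ, (χ : G → ℂ) g * (μ g : ℂ) * conj ((χ : G → ℂ) g)),
    Finset.sum_congr rfl (g := fun n : M => (M.index : ℂ) * ((χ : G → ℂ) n * conj ((χ : G → ℂ) n)))
      (fun n _ => by
        rw [Finset.sum_congr rfl (g := fun _ => (χ : G → ℂ) n * conj ((χ : G → ℂ) n)) (fun μ _ => by
          rw [(QuotientGroup.eq_one_iff (n : G)).2 n.2, map_one, Units.val_one, mul_one]),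
          Finset.sum_const, Finset.card_univ, hdual, nsmul_eq_mul]),
    ← Finset.mul_sum, ← M.card_mul_index, Nat.cast_mul, mul_comm (Nat.card M : ℂ)] at hsum
  have h := mul_left_cancel₀ (Nat.cast_ne_zero.2 Subgroup.index_ne_zero_of_finite) hsum
  refine (isIrrCharacter_iff_norm_one (χ := fun m : M => (χ : G → ℂ) m)
    (CfsgLib.Coherence.isCharacter_comp (IsIrrCharacter.isCharacter χ.2) M.subtype)).2 ?_
  show classInner (fun m : M => (χ : G → ℂ) m) (fun m : M => (χ : G → ℂ) m) = 1
  rw [classInner, inv_mul_eq_iff_eq_mul₀ (Nat.cast_ne_zero.2 Nat.card_pos.ne'), mul_one]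
  exact h

section Conjugation

variable {G : Type u} [Group G] [Finite G]

/-- The automorphism of a normalised subgroup given by conjugation. -/
noncomputable def conjAut (M : Subgroup G) {x : G} (hx : x ∈ Subgroup.normalizer (M : Set G)) :
    MulAut M :=
  Subgroup.normalizerMonoidHom M ⟨x, hx⟩

theorem coe_conjAut (M : Subgroup G) {x : G} (hx : x ∈ Subgroup.normalizer (M : Set G)) (m : M) :
    (conjAut M hx m : G) = x * m * x⁻¹ := rfl

theorem conjAut_pow (M : Subgroup G) {x : G} (hx : x ∈ Subgroup.normalizer (M : Set G)) {k : ℕ}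
    (h : x ^ k = 1) : conjAut M hx ^ k = 1 := by
  rw [conjAut, ← map_pow,
    show (⟨x, hx⟩ : Subgroup.normalizer (M : Set G)) ^ k = 1 from Subtype.ext h, map_one]

/-- A permutation of `p`-power order of fewer than `p` points is trivial. -/
theorem perm_eq_one {X : Type*} [Finite X] {p : ℕ} [Fact p.Prime] {i : ℕ} (σ : Equiv.Perm X)
    (hσ : σ ^ p ^ i = 1) (hX : Nat.card X < p) : σ = 1 := by
  classical
  haveI := Fintype.ofFinite X
  have h := Equiv.Perm.card_compl_support_modEq hσ
  rw [Nat.card_eq_fintype_card] at hX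
  have h1 := Nat.ModEq.eq_of_lt_of_lt h (lt_of_le_of_lt (Finset.card_le_univ _) hX) hX
  rw [Finset.card_compl] at h1
  refine Equiv.Perm.support_eq_empty_iff.1 (Finset.card_eq_zero.1 ?_)
  have := Finset.card_le_univ σ.support
  omega

end Conjugation

section Ito

variable {G : Type u} [Group G] [Finite G] {p : ℕ} [hp : Fact p.Prime]

/-- A Sylow subgroup that is abelian and centralises the `p'`-core is normal in a `p`-solvable
group. -/
theorem sylow_normal_of_centralizes (hsolv : IsPSolvable p G) (P : Sylow p G)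
    (hab : ∀ a ∈ (P : Subgroup G), ∀ b ∈ (P : Subgroup G), a * b = b * a)
    (hcen : ∀ a ∈ (P : Subgroup G), ∀ n ∈ pPrimeCore p G, a * n = n * a) :
    (P : Subgroup G).Normal := by
  set N := pPrimeCore p G with hN
  set π := QuotientGroup.mk' N with hπ
  have hsurj : Function.Surjective π := QuotientGroup.mk'_surjective N
  let Q : Sylow p (G ⧸ N) := P.mapSurjective (f := π) hsurj
  have hQ : (Q : Subgroup (G ⧸ N)) = (P : Subgroup G).map π := rfl
  have hcore : pCore p (G ⧸ N) ≤ (Q : Subgroup (G ⧸ N)) :=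
    IsPGroup.le_sylow_of_normal (CfsgLib.Cores.isPGroup_pCore p _) Q
  have hle : (Q : Subgroup (G ⧸ N)) ≤ pCore p (G ⧸ N) := by
    refine le_trans ?_ (CfsgLib.PSolvable.centralizer_pCore_le
      (CfsgLib.PSolvable.isPSolvable_quotient hsolv N)
      (CfsgLib.Cores.pPrimeCore_quotient_pPrimeCore p))
    intro y hy
    refine Subgroup.mem_centralizer_iff.2 fun z hz => ?_
    have hz' : z ∈ (Q : Subgroup (G ⧸ N)) := hcore hz
    rw [hQ] at hy hz'
    obtain ⟨a, ha, rfl⟩ := hy
    obtain ⟨b, hb, rfl⟩ := hz'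
    rw [← map_mul, ← map_mul, hab b hb a ha]
  refine ⟨fun s hs g => ?_⟩
  have h1 : π (g * s * g⁻¹) ∈ pCore p (G ⧸ N) := by
    rw [map_mul, map_mul, map_inv]
    exact Subgroup.Normal.conj_mem inferInstance _ (hle ⟨s, hs, rfl⟩) _
  obtain ⟨t, ht, htg⟩ := hcore h1
  have hn : g * s * g⁻¹ * t⁻¹ ∈ N := by
    rw [← QuotientGroup.eq_one_iff]
    show π (g * s * g⁻¹ * t⁻¹) = 1
    rw [map_mul, map_inv π t, htg, mul_inv_cancel]
  set n := g * s * g⁻¹ * t⁻¹ with hndef
  have hcomm : Commute n t := (hcen t ht n hn).symm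
  obtain ⟨k, hk⟩ := IsPGroup.iff_card.1 P.2
  have hpow : ∀ u ∈ (P : Subgroup G), u ^ p ^ k = 1 := fun u hu =>
    orderOf_dvd_iff_pow_eq_one.1 (hk ▸ Subgroup.orderOf_dvd_natCard (P : Subgroup G) hu)
  have h2 : (n * t) ^ p ^ k = 1 := by
    rw [show n * t = g * s * g⁻¹ by rw [hndef, inv_mul_cancel_right], conj_pow,
      hpow s hs, mul_one, mul_inv_cancel]
  rw [hcomm.mul_pow, hpow t ht, mul_one] at h2
  have h3 : n = 1 := by
    rw [← orderOf_eq_one_iff]
    exact Nat.eq_one_of_dvd_coprimes ((CfsgLib.Cores.card_pPrimeCore_coprime p).pow_right k)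
      (Subgroup.orderOf_dvd_natCard _ hn) (orderOf_dvd_of_pow_eq_one h2)
  rw [show g * s * g⁻¹ = n * t by rw [hndef, inv_mul_cancel_right], h3, one_mul]
  exact ht

/-- The decomposition of a restricted character. -/
theorem decomp {χ : G → ℂ} (hχ : IsCharacter G χ) {n : ℕ} (hn : χ 1 = n) (H : Subgroup G)
    [Fintype H] [Fintype (IrrCharacter H)] :
    ∃ k : IrrCharacter H → ℕ,
      (∀ θ : IrrCharacter H, classInner (fun h : H => χ h) (θ : H → ℂ) = k θ) ∧
      (∀ h : H, χ h = ∑ θ : IrrCharacter H, (k θ : ℂ) * (θ : H → ℂ) h) ∧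
      n = ∑ θ : IrrCharacter H, k θ * charDegree (θ : H → ℂ) := by
  choose k hk using fun θ : IrrCharacter H =>
    IsCharacter.exists_classInner_eq_nat (CfsgLib.Coherence.isCharacter_comp hχ H.subtype) θ
  have hval : ∀ h : H, χ h = ∑ θ : IrrCharacter H, (k θ : ℂ) * (θ : H → ℂ) h := by
    intro h
    have := congrFun (eq_sum_classInner (IsCharacter.isClassFunction
      (CfsgLib.Coherence.isCharacter_comp hχ H.subtype))) h
    simp only [hk, Finset.sum_apply, Pi.smul_apply, smul_eq_mul] at this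
    exact this
  refine ⟨k, hk, hval, ?_⟩
  have h1 := hval 1
  simp only [OneMemClass.coe_one, hn, charDegree_one] at h1
  exact_mod_cast h1

/-- Itô's theorem. -/
theorem ito (hsolv : IsPSolvable p G) {χ : G → ℂ} (hχ : IsCharacter G χ)
    (hfaith : ∀ g : G, χ g = χ 1 → g = 1) {n : ℕ} (hn : χ 1 = n) (hnp : n + 1 ≤ p)
    (P : Sylow p G) (hP : ¬ (P : Subgroup G).Normal) :
    n + 1 = p ∧ (∃ k : ℕ, n = 2 ^ k) ∧ IsIrrCharacter G χ := by
  classical
  haveI := Fintype.ofFinite G
  -- the Sylow subgroup is abelian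
  have hab : ∀ a ∈ (P : Subgroup G), ∀ b ∈ (P : Subgroup G), a * b = b * a := by
    intro a ha b hb
    haveI := Fintype.ofFinite (P : Subgroup G)
    haveI := Fintype.ofFinite (IrrCharacter (P : Subgroup G))
    obtain ⟨k, -, hval, hdeg⟩ := decomp hχ hn (P : Subgroup G)
    have hlin : ∀ θ : IrrCharacter (P : Subgroup G), k θ ≠ 0 →
        (θ : ↥(P : Subgroup G) → ℂ) 1 = 1 := by
      intro θ hθ
      have h1 : k θ * charDegree (θ : ↥(P : Subgroup G) → ℂ) ≤ n :=
        hdeg ▸ Finset.single_le_sum (f := fun θ : IrrCharacter (P : Subgroup G) =>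
          k θ * charDegree (θ : ↥(P : Subgroup G) → ℂ)) (fun θ _ => Nat.zero_le _) (Finset.mem_univ θ)
      have h2 := Nat.le_mul_of_pos_left (charDegree (θ : ↥(P : Subgroup G) → ℂ)) (Nat.pos_of_ne_zero hθ)
      obtain ⟨j, hj⟩ := IsPGroup.iff_card.1 P.2
      obtain ⟨i, -, hi⟩ := (Nat.dvd_prime_pow hp.out).1
        (hj ▸ (CfsgLib.BrauerCharacters.charDegree_spec θ).2.2)
      rcases Nat.eq_zero_or_pos i with e | e
      · rw [charDegree_one, hi, e, pow_zero, Nat.cast_one]
      · have := Nat.le_self_pow e.ne' p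
        omega
    have hc : χ ((⟨a, ha⟩ * ⟨b, hb⟩ * ⟨a, ha⟩⁻¹ * ⟨b, hb⟩⁻¹ : (P : Subgroup G)) : G) = χ 1 := by
      rw [hval, ← OneMemClass.coe_one (P : Subgroup G), hval]
      refine Finset.sum_congr rfl fun θ _ => ?_
      by_cases hθ : k θ = 0
      · simp [hθ]
      · rw [CfsgLib.RealChar.commutator_kernel_of_degree_one θ.2 (hlin θ hθ), hlin θ hθ]
    have := hfaith _ hc
    simp only [Subgroup.coe_mul, Subgroup.coe_inv] at this
    rwa [mul_inv_eq_one, mul_inv_eq_iff_eq_mul] at this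
  -- an element moving an invariant `q`-subgroup
  set N := pPrimeCore p G with hN
  obtain ⟨x, hxP, n₀, hn₀, hne⟩ : ∃ x ∈ (P : Subgroup G), ∃ n₀ ∈ N, x * n₀ ≠ n₀ * x := by
    by_contra hcon
    push Not at hcon
    exact hP (sylow_normal_of_centralizes hsolv P hab hcon)
  obtain ⟨i, hi⟩ : ∃ i, x ^ p ^ i = 1 := by
    obtain ⟨i, hi⟩ := P.2 ⟨x, hxP⟩
    exact ⟨i, congrArg Subtype.val hi⟩
  set A := Subgroup.zpowers x with hA
  have hAN : A ≤ Subgroup.normalizer (N : Set G) := by
    rw [Subgroup.normalizer_eq_top_iff.2 (inferInstance : N.Normal)]; exact le_top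
  have hcop : (Nat.card A).Coprime (Nat.card N) := by
    obtain ⟨j, -, hj⟩ := (Nat.dvd_prime_pow hp.out).1 (orderOf_dvd_of_pow_eq_one hi)
    rw [hA, Nat.card_zpowers, hj]
    exact (CfsgLib.Cores.card_pPrimeCore_coprime p).symm.pow_left j
  have hsA : Group.IsSolvable A := CfsgLib.CoprimeAction.isSolvable_zpowers x
  obtain ⟨q, hq, Q, hQN, hQp, hQx, q₀, hq₀, hne'⟩ : ∃ q, q.Prime ∧ ∃ Q : Subgroup G, Q ≤ N ∧
      IsPGroup q Q ∧ x ∈ Subgroup.normalizer (Q : Set G) ∧ ∃ q₀ ∈ Q, x * q₀ ≠ q₀ * x := by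
    by_contra hcon
    push Not at hcon
    refine hne ?_
    have hdvd : Nat.card N ∣ Nat.card ((Subgroup.centralizer ({x} : Set G)).subgroupOf N) := by
      rw [Nat.dvd_iff_prime_pow_dvd_dvd]
      intro r k hr hrk
      haveI := Fact.mk hr
      obtain ⟨R, hR⟩ := CfsgLib.CoprimeAction.exists_invariant_sylow hAN hcop (Or.inl hsA) r
      refine (R.pow_dvd_card_of_pow_dvd_card hrk).trans (Subgroup.card_dvd_of_le fun u hu => ?_)
      rw [Subgroup.mem_subgroupOf, Subgroup.mem_centralizer_singleton_iff]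
      exact (hcon r hr ((R : Subgroup N).map N.subtype) (Subgroup.map_subtype_le _) (R.2.map _)
        (hR (Subgroup.mem_zpowers x)) u ⟨u, hu, rfl⟩).symm
    have htop := (Subgroup.card_eq_iff_eq_top _).1
      (Nat.dvd_antisymm (Subgroup.card_subgroup_dvd_card _) hdvd)
    have := (htop ▸ Subgroup.mem_top (⟨n₀, hn₀⟩ : N) :
      (⟨n₀, hn₀⟩ : N) ∈ (Subgroup.centralizer ({x} : Set G)).subgroupOf N)
    rw [Subgroup.mem_subgroupOf, Subgroup.mem_centralizer_singleton_iff] at this
    exact this.symm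
  haveI := Fintype.ofFinite Q
  haveI := Fintype.ofFinite (IrrCharacter Q)
  haveI : Group.IsSolvable Q := by
    haveI := Fact.mk hq
    haveI : Group.IsNilpotent Q := hQp.isNilpotent
    infer_instance
  have hQcop : ¬ p ∣ Nat.card Q := fun hd =>
    (hp.out.coprime_iff_not_dvd.1 (CfsgLib.Cores.card_pPrimeCore_coprime p).symm)
      (hd.trans (Subgroup.card_dvd_of_le hQN))
  obtain ⟨k, hk, hval, hdeg⟩ := decomp hχ hn Q
  set α := conjAut Q hQx with hα
  have hαi : α ^ p ^ i = 1 := conjAut_pow Q hQx hi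
  set C := Finset.univ.filter fun θ : IrrCharacter Q => k θ ≠ 0 with hC
  have htw : ∀ θ : IrrCharacter Q,
      k ⟨_, isIrrCharacter_comp_mulEquiv θ.2 α⟩ = k θ := by
    intro θ
    apply Nat.cast_injective (R := ℂ)
    rw [← hk, ← hk, ← Clifford.classInner_comp_mulEquiv α (fun h : Q => χ h) (θ : Q → ℂ)]
    congr 1
    funext h
    rw [coe_conjAut, IsCharacter.isClassFunction hχ (h : G) x]
  let tw : C → C := fun θ => ⟨⟨_, isIrrCharacter_comp_mulEquiv (θ : IrrCharacter Q).2 α⟩,
    Finset.mem_filter.2 ⟨Finset.mem_univ _, by rw [htw]; exact (Finset.mem_filter.1 θ.2).2⟩⟩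
  have htwinj : Function.Injective tw := fun θ θ' e => by
    refine Subtype.ext (Subtype.ext (funext fun h => ?_))
    have := congrFun (congrArg (fun ψ : C => ((ψ : IrrCharacter Q) : Q → ℂ)) e) (α.symm h)
    simpa [tw] using this
  let σ : Equiv.Perm C := Equiv.ofBijective _ (Finite.injective_iff_bijective.1 htwinj)
  have hσk : ∀ (j : ℕ) (θ : C) (h : Q),
      (((σ ^ j) θ : IrrCharacter Q) : Q → ℂ) h = ((θ : IrrCharacter Q) : Q → ℂ) ((α ^ j) h) := by
    intro j
    induction j with
    | zero => intro θ h; simp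
    | succ j ihj =>
      intro θ h
      rw [pow_succ', Equiv.Perm.mul_apply]
      show (((σ ^ j) θ : IrrCharacter Q) : Q → ℂ) (α h) = _
      rw [ihj, pow_succ, MulAut.mul_apply]
  have hCn : Nat.card C ≤ n := by
    rw [Nat.card_eq_finsetCard, hdeg, Finset.card_eq_sum_ones]
    refine (Finset.sum_le_sum fun θ hθ => ?_).trans (Finset.sum_le_univ_sum_of_nonneg fun θ => Nat.zero_le _)
    exact Nat.mul_pos (Nat.pos_of_ne_zero (Finset.mem_filter.1 hθ).2)
      (CfsgLib.BrauerCharacters.charDegree_spec θ).2.1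
  have hσ1 : σ = 1 := perm_eq_one σ (p := p) (i := i) (Equiv.ext fun θ => Subtype.ext
    (Subtype.ext (funext fun h => by rw [hσk, hαi]; rfl))) (by omega)
  have hinv : ∀ θ : IrrCharacter Q, k θ ≠ 0 → ∀ h, (θ : Q → ℂ) (α h) = (θ : Q → ℂ) h := by
    intro θ hθ h
    have h1 := hσk 1 ⟨θ, Finset.mem_filter.2 ⟨Finset.mem_univ _, hθ⟩⟩ h
    rw [hσ1, one_pow, Equiv.Perm.one_apply, pow_one] at h1
    exact h1.symm
  obtain ⟨θ, hθ, hmove⟩ : ∃ θ : IrrCharacter Q, k θ ≠ 0 ∧
      ∃ m, (θ : Q → ℂ) (m⁻¹ * α m) ≠ (θ : Q → ℂ) 1 := by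
    by_contra hcon
    push Not at hcon
    apply hne'
    have h1 : χ (((⟨q₀, hq₀⟩ : Q)⁻¹ * α ⟨q₀, hq₀⟩ : Q) : G) = χ 1 := by
      rw [hval, ← OneMemClass.coe_one Q, hval]
      refine Finset.sum_congr rfl fun θ _ => ?_
      by_cases hθ : k θ = 0
      · simp [hθ]
      · rw [hcon θ hθ]
    have := hfaith _ h1
    rw [Subgroup.coe_mul, Subgroup.coe_inv, inv_mul_eq_one, coe_conjAut, eq_mul_inv_iff_mul_eq] at this
    exact this.symm
  obtain ⟨e, hepp, hed, hcong⟩ :=
    good_degree (i := i) _ Q rfl hQcop α hαi θ (hinv θ hθ) hmove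
  have hθpos := (CfsgLib.BrauerCharacters.charDegree_spec θ).2.1
  have hθn : k θ * charDegree (θ : Q → ℂ) ≤ n :=
    hdeg ▸ Finset.single_le_sum (f := fun θ : IrrCharacter Q => k θ * charDegree (θ : Q → ℂ))
      (fun θ _ => Nat.zero_le _) (Finset.mem_univ θ)
  have hθn' := Nat.le_mul_of_pos_left (charDegree (θ : Q → ℂ)) (Nat.pos_of_ne_zero hθ)
  have hel := Nat.le_of_dvd hθpos hed
  have he2 := hepp.two_le
  have he : e + 1 = p ∧ n = e ∧ charDegree (θ : Q → ℂ) = e := by
    rcases hcong with h | h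
    · have := Int.le_of_dvd (by omega) h
      omega
    · have := Int.le_of_dvd (by omega) h
      omega
  obtain ⟨he1, hne1, hθe⟩ := he
  refine ⟨by omega, ?_, ?_⟩
  · obtain ⟨r, j, hr, hj, hrj⟩ := hepp
    have hodd : Odd p := hp.out.odd_of_ne_two (by omega)
    have h2 : 2 ∣ r ^ j := by
      rw [hrj]
      obtain ⟨a, ha⟩ := hodd
      exact ⟨a, by omega⟩
    have := (Nat.prime_dvd_prime_iff_eq Nat.prime_two hr.nat_prime).1 (Nat.prime_two.dvd_of_dvd_pow h2)
    exact ⟨j, by rw [hne1, ← hrj, this]⟩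
  · haveI := Fintype.ofFinite (IrrCharacter G)
    obtain ⟨m, hm⟩ := IsCharacter.exists_sum hχ
    obtain ⟨ψ, hψ0, hψθ⟩ : ∃ ψ : IrrCharacter G, m ψ ≠ 0 ∧
        classInner (fun h : Q => (ψ : G → ℂ) h) (θ : Q → ℂ) ≠ 0 := by
      by_contra hcon
      push Not at hcon
      refine hθ (Nat.cast_injective (R := ℂ) ?_)
      rw [← hk, show (fun h : Q => χ h) = ∑ ψ : IrrCharacter G, (m ψ : ℂ) • fun h : Q => (ψ : G → ℂ) h
        from funext fun h => by rw [hm]; simp [Finset.sum_apply], classInner_sum_left, Nat.cast_zero]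
      refine Finset.sum_eq_zero fun ψ _ => ?_
      rw [classInner_smul_left]
      by_cases h0 : m ψ = 0
      · simp [h0]
      · rw [hcon ψ h0, mul_zero]
    have hle := degree_le_of_constituent Q θ ψ hψθ
    have hsum : ∑ φ : IrrCharacter G, m φ * charDegree (φ : G → ℂ) = n := by
      have h1 := congrFun hm 1
      simp only [Finset.sum_apply, Pi.smul_apply, smul_eq_mul, hn, charDegree_one] at h1
      exact_mod_cast h1.symm
    rw [← Finset.add_sum_erase _ _ (Finset.mem_univ ψ)] at hsum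
    have hmle := Nat.le_mul_of_pos_left (charDegree (ψ : G → ℂ)) (Nat.pos_of_ne_zero hψ0)
    have hm1 : m ψ = 1 := by
      by_contra h1
      have : 2 * charDegree (ψ : G → ℂ) ≤ m ψ * charDegree (ψ : G → ℂ) :=
        Nat.mul_le_mul_right _ (by omega)
      omega
    have hrest : ∀ φ ∈ Finset.univ.erase ψ, m φ = 0 := fun φ hφ => by
      have h0 : ∑ φ ∈ Finset.univ.erase ψ, m φ * charDegree (φ : G → ℂ) = 0 := by omega
      exact (Nat.mul_eq_zero.1 (Finset.sum_eq_zero_iff.1 h0 φ hφ)).resolve_right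
        (CfsgLib.BrauerCharacters.charDegree_spec φ).2.1.ne'
    rw [hm, ← Finset.add_sum_erase _ _ (Finset.mem_univ ψ), hm1, Nat.cast_one, one_smul,
      Finset.sum_eq_zero fun φ hφ => by rw [hrest φ hφ, Nat.cast_zero, zero_smul], add_zero]
    exact ψ.2

end Ito

section Winter

/-- The index of a subgroup supplementing a normal subgroup. -/
theorem relIndex_eq_index_of_sup_eq_top {G : Type u} [Group G] [Finite G] (N S : Subgroup G)
    [N.Normal] (e : N ⊔ S = ⊤) : S.relIndex N = S.index := by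
  have hk : Nat.card (N.subgroupOf S) = Nat.card (S.subgroupOf N) := by
    rw [← Subgroup.inf_subgroupOf_right N S, ← Subgroup.inf_subgroupOf_right S N,
      Nat.card_congr (Subgroup.subgroupOfEquivOfLe (inf_le_right : N ⊓ S ≤ S)).toEquiv,
      Nat.card_congr (Subgroup.subgroupOfEquivOfLe (inf_le_right : S ⊓ N ≤ N)).toEquiv, inf_comm]
  have e1 : (N.subgroupOf S).index = N.index := by
    show N.relIndex S = N.index
    rw [← Subgroup.relIndex_sup_left S N, e, Subgroup.relIndex_top_right]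
  have h1 : Nat.card (N.subgroupOf S) * (N.subgroupOf S).index = Nat.card S :=
    Subgroup.card_mul_index _
  have h2 : Nat.card (S.subgroupOf N) * S.relIndex N = Nat.card N := Subgroup.card_mul_index _
  have h3 := S.card_mul_index
  have h4 := N.card_mul_index
  rw [e1, hk] at h1
  rw [← h4, ← h2, ← h1] at h3
  have hpos : 0 < Nat.card (S.subgroupOf N) * N.index :=
    Nat.mul_pos Nat.card_pos (Nat.pos_of_ne_zero Subgroup.index_ne_zero_of_finite)
  refine Nat.eq_of_mul_eq_mul_left hpos ?_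
  linarith [h3]

/-- A normal subgroup in which the Sylow subgroup is not normal has a constituent with a quotient
modulo the kernel of the same kind. -/
theorem exists_bad_constituent {G : Type u} [Group G] [Finite G] {p : ℕ} [hp : Fact p.Prime]
    (χ : IrrCharacter G) (hfaith : ∀ g : G, (χ : G → ℂ) g = (χ : G → ℂ) 1 → g = 1) (M : Subgroup G)
    [M.Normal] (P₀ : Sylow p M) (hP : ¬ (P₀ : Subgroup M).Normal) :
    ∃ (K : Subgroup M) (_ : K.Normal) (η : IrrCharacter (M ⧸ K)),
      charDegree (η : M ⧸ K → ℂ) ∣ charDegree (χ : G → ℂ) ∧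
      (∀ g : M ⧸ K, (η : M ⧸ K → ℂ) g = (η : M ⧸ K → ℂ) 1 → g = 1) ∧
      ∃ Q : Sylow p (M ⧸ K), ¬ (Q : Subgroup (M ⧸ K)).Normal := by
  classical
  haveI := Fintype.ofFinite G
  haveI := Fintype.ofFinite M
  haveI := Fintype.ofFinite (IrrCharacter M)
  obtain ⟨k, hk, hval, -⟩ := decomp (IsIrrCharacter.isCharacter χ.2) (charDegree_one χ) M
  choose K hKn hKmem hKmul using fun φ : IrrCharacter M =>
    exists_kernel (IsIrrCharacter.isCharacter φ.2)
  haveI := hKn
  by_contra hcon
  push Not at hcon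
  have hall : ∀ φ : IrrCharacter M, k φ ≠ 0 →
      ((P₀ : Subgroup M).map (QuotientGroup.mk' (K φ))).Normal := by
    intro φ hφ
    obtain ⟨η, hη, hηe⟩ := exists_descend φ.2 (K φ) fun g hg => (hKmem φ g).1 hg
    have h1 : η 1 = (φ : M → ℂ) 1 := (hηe 1).symm
    have hd : charDegree η = charDegree (φ : M → ℂ) := by
      have h : η 1 = (charDegree η : ℂ) := charDegree_one (⟨η, hη⟩ : IrrCharacter (M ⧸ K φ))
      rw [h1, charDegree_one] at h
      exact_mod_cast h.symm
    refine hcon (K φ) (hKn φ) ⟨η, hη⟩ (by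
      rw [hd]
      exact ItoSolvable.dvd_of_constituent M φ χ (by rw [hk]; exact Nat.cast_ne_zero.2 hφ)) ?_
      (P₀.mapSurjective (f := QuotientGroup.mk' (K φ)) (QuotientGroup.mk'_surjective (K φ)))
    intro g hg
    obtain ⟨m, rfl⟩ := QuotientGroup.mk'_surjective (K φ) g
    exact (QuotientGroup.eq_one_iff m).2 ((hKmem φ m).2
      ((hηe m).trans (hg.trans (hηe 1).symm)))
  let V : Subgroup M := ⨅ φ : {φ : IrrCharacter M // k φ ≠ 0},
    ((P₀ : Subgroup M).map (QuotientGroup.mk' (K φ))).comap (QuotientGroup.mk' (K φ))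
  have hVn : V.Normal := Subgroup.normal_iInf_normal fun φ => (hall φ φ.2).comap _
  have hPV : (P₀ : Subgroup M) ≤ V := le_iInf fun φ => Subgroup.le_comap_map _ _
  have hVp : IsPGroup p V := by
    obtain ⟨j, hj⟩ := IsPGroup.iff_card.1 P₀.2
    rintro ⟨v, hv⟩
    refine ⟨j, Subtype.ext (Subtype.ext (hfaith _ ?_))⟩
    rw [show (((⟨v, hv⟩ : V) ^ p ^ j : V) : M) = v ^ p ^ j from rfl, hval,
      show (1 : G) = ((1 : M) : G) from rfl, hval]
    refine Finset.sum_congr rfl fun φ _ => ?_
    by_cases hφ : k φ = 0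
    · simp [hφ]
    · congr 1
      refine (hKmem φ _).1 ((QuotientGroup.eq_one_iff _).1 ?_)
      obtain ⟨s, hs, hsv⟩ := Subgroup.mem_iInf.1 hv ⟨φ, hφ⟩
      show QuotientGroup.mk' (K φ) (v ^ p ^ j) = 1
      rw [map_pow, ← hsv, ← map_pow,
        orderOf_dvd_iff_pow_eq_one.1 (hj ▸ Subgroup.orderOf_dvd_natCard (P₀ : Subgroup M) hs), map_one]
  exact hP (P₀.is_maximal' hVp hPV ▸ hVn)

/-- Winter's theorem. -/
theorem winter {p : ℕ} [hp : Fact p.Prime] : ∀ (c : ℕ) (G : Type u) [Group G] [Finite G]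
    [Group.IsSolvable G], Nat.card G = c → ∀ χ : IrrCharacter G,
    (∀ g : G, (χ : G → ℂ) g = (χ : G → ℂ) 1 → g = 1) →
    ∀ P : Sylow p G, ¬ (P : Subgroup G).Normal →
    ∃ q : ℕ, IsPrimePow q ∧ q ∣ charDegree (χ : G → ℂ) ∧
      ((p : ℤ) ∣ (q : ℤ) + 1 ∨ (p : ℤ) ∣ (q : ℤ) ∨ (p : ℤ) ∣ (q : ℤ) - 1) := by
  intro c
  induction c using Nat.strong_induction_on with
  | _ c ih =>
    intro G _ _ _ hc χ hfaith P hP
    classical
    haveI := Fintype.ofFinite G
    have hgood : ∀ d, Good p d → d ∣ charDegree (χ : G → ℂ) →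
        ∃ q : ℕ, IsPrimePow q ∧ q ∣ charDegree (χ : G → ℂ) ∧
          ((p : ℤ) ∣ (q : ℤ) + 1 ∨ (p : ℤ) ∣ (q : ℤ) ∨ (p : ℤ) ∣ (q : ℤ) - 1) :=
      fun d hd hdd => by
        obtain ⟨q, hq, hqd, hc⟩ := hd.mono hdd
        exact ⟨q, hq, hqd, hc.imp id Or.inr⟩
    by_cases hpn : p ∣ charDegree (χ : G → ℂ)
    · exact ⟨p, hp.out.isPrimePow, hpn, Or.inr (Or.inl dvd_rfl)⟩
    have hdown : ∀ (M : Subgroup G) [M.Normal], M ≠ ⊤ → ∀ P₀ : Sylow p M, ¬ (P₀ : Subgroup M).Normal →
        ∃ q : ℕ, IsPrimePow q ∧ q ∣ charDegree (χ : G → ℂ) ∧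
          ((p : ℤ) ∣ (q : ℤ) + 1 ∨ (p : ℤ) ∣ (q : ℤ) ∨ (p : ℤ) ∣ (q : ℤ) - 1) := by
      intro M _ hM P₀ hP₀
      obtain ⟨K, hK, η, hdvd, hη, Q, hQ⟩ := exists_bad_constituent χ hfaith M P₀ hP₀
      haveI : Group.IsSolvable M := Group.isSolvable_of_isSolvable_injective (f := M.subtype) M.subtype_injective
      have hlt : Nat.card (M ⧸ K) < c :=
        lt_of_le_of_lt (Nat.card_le_card_of_surjective _ (QuotientGroup.mk'_surjective K))
          (hc ▸ lt_of_le_of_ne (Subgroup.card_le_card_group M)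
            fun e => hM ((Subgroup.card_eq_iff_eq_top M).mp e))
      obtain ⟨q, hq, hqd, hcg⟩ := ih _ hlt (M ⧸ K) rfl η hη Q hQ
      exact ⟨q, hq, hqd.trans hdvd, hcg⟩
    by_cases hV : ∃ V : Subgroup G, V.Normal ∧ V ≠ ⊤ ∧ (P : Subgroup G) ≤ V
    · obtain ⟨V, hVn, hV1, hPV⟩ := hV
      haveI := hVn
      refine hdown V hV1 (P.subtype hPV) fun hn => hP ?_
      haveI := hn
      haveI : ((P.subtype hPV : Sylow p V) : Subgroup V).Characteristic :=
        Sylow.characteristic_of_normal _ hn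
      rw [← Subgroup.map_subgroupOf_eq_of_le hPV, ← Sylow.coe_subtype (P := P) (h := hPV)]
      infer_instance
    push Not at hV
    haveI : Nontrivial G := by
      rcases subsingleton_or_nontrivial G with hs | hn
      · exact absurd ⟨fun a ha g => by rwa [Subsingleton.elim (g * a * g⁻¹) a]⟩ hP
      · exact hn
    obtain ⟨M, -, hMn, hMmax⟩ : ∃ M : Subgroup G, ⊥ ≤ M ∧ (M.Normal ∧ M ≠ ⊤) ∧
        ∀ U : Subgroup G, U.Normal → M ≤ U → U = M ∨ U = ⊤ := by
      obtain ⟨M, h0, ⟨⟨hn, h1⟩, hmax⟩⟩ := Finite.exists_le_maximal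
        (p := fun U : Subgroup G => U.Normal ∧ U ≠ ⊤) ⟨inferInstance, (bot_ne_top : (⊥ : Subgroup G) ≠ ⊤)⟩
      exact ⟨M, h0, ⟨hn, h1⟩, fun U hU hle => by
        by_cases hU1 : U = ⊤
        · exact Or.inr hU1
        · exact Or.inl (le_antisymm (hmax ⟨hU, hU1⟩ hle) hle)⟩
    obtain ⟨hMn, hM1⟩ := hMn
    haveI := hMn
    have hMdata : MaxData (1 : MulAut G) M := by
      obtain ⟨N, hle, hN⟩ := exists_maxData (1 : MulAut G) hMn (fun _ h => h) hM1
      rcases hMmax N hN.normal hle with e | e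
      · exact e ▸ hN
      · exact absurd e hN.ne_top
    -- an element of `P` outside `M`
    obtain ⟨x, hxP, hxM⟩ : ∃ x ∈ (P : Subgroup G), x ∉ M := by
      by_contra hcon
      push Not at hcon
      exact hV M hMn hM1 hcon
    obtain ⟨i, hi⟩ : ∃ i, x ^ p ^ i = 1 := by
      obtain ⟨i, hi⟩ := P.2 ⟨x, hxP⟩
      exact ⟨i, congrArg Subtype.val hi⟩
    -- `G` is generated by `M` and `x`
    have hgen : M ⊔ Subgroup.zpowers x = ⊤ :=
      (hMmax _ (Subgroup.Normal.of_commutator_le G (hMdata.comm.trans le_sup_left)) le_sup_left).resolve_left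
        fun e => hxM (e ▸ Subgroup.mem_sup_right (Subgroup.mem_zpowers x))
    haveI := Fintype.ofFinite M
    -- the restriction to `M` is irreducible
    have hχx : (χ : G → ℂ) x ≠ 0 := by
      intro h0
      have h := apply_pow_prime_pow_cong (IsIrrCharacter.isCharacter χ.2) x hp.out i
      rw [h0, zero_pow (pow_ne_zero _ hp.out.ne_zero), hi, charDegree_one,
        show (0 : ℂ) = ((0 : ℕ) : ℂ) by simp] at h
      exact hpn (Nat.modEq_zero_iff_dvd.1 (IntCong.modEq hp.out.ne_zero h).symm)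
    have hψ : IsIrrCharacter M fun m : M => (χ : G → ℂ) m := by
      refine isIrr_restrict M hMdata.comm χ fun μ hμ => MonoidHom.ext fun y => ?_
      have hx1 : μ x = 1 := Units.ext (mul_left_cancel₀ hχx ((hμ x).trans (mul_one _).symm))
      obtain ⟨g, rfl⟩ := QuotientGroup.mk'_surjective M y
      obtain ⟨m, hm, z, hz, rfl⟩ :=
        Subgroup.mem_sup_of_normal_left.1 (hgen ▸ Subgroup.mem_top g : g ∈ M ⊔ Subgroup.zpowers x)
      obtain ⟨t, rfl⟩ := Subgroup.mem_zpowers_iff.1 hz
      rw [map_mul (QuotientGroup.mk' M), map_mul μ,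
        show QuotientGroup.mk' M m = 1 from (QuotientGroup.eq_one_iff m).2 hm, map_one, map_zpow,
        map_zpow, show μ (QuotientGroup.mk' M x) = 1 from hx1, one_zpow, one_mul]
      rfl
    obtain ⟨P₀⟩ : Nonempty (Sylow p M) := inferInstance
    by_cases hP₀ : (P₀ : Subgroup M).Normal
    swap
    · exact hdown M hM1 P₀ hP₀
    haveI := hP₀
    haveI : (P₀ : Subgroup M).Characteristic := Sylow.characteristic_of_normal _ hP₀
    set R := (P₀ : Subgroup M).map M.subtype with hR
    haveI hRn : R.Normal := by rw [hR]; infer_instance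
    haveI hRp : IsPGroup p R := by rw [hR]; exact P₀.2.map M.subtype
    have hRM : R ≤ M := Subgroup.map_subtype_le _
    have hPMR : ∀ s ∈ (P : Subgroup G), s ∈ M → s ∈ R := by
      intro s hs hsM
      have hU : IsPGroup p ((P : Subgroup G).subgroupOf M) := P.2.comap_subtype
      have hle : (P : Subgroup G).subgroupOf M ≤ (P₀ : Subgroup M) := by
        obtain ⟨T, hT⟩ := hU.exists_le_sylow
        haveI : Subsingleton (Sylow p M) := (Sylow.unique_of_normal P₀ hP₀).instSubsingleton
        exact hT.trans (Subsingleton.elim T P₀ ▸ le_rfl)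
      exact ⟨⟨s, hsM⟩, hle (Subgroup.mem_subgroupOf.2 hs), rfl⟩
    -- the automorphism induced on `M/R`
    set π := QuotientGroup.mk' R with hπ
    set Mb := M.map π with hMb
    haveI : Mb.Normal := hMn.map π (QuotientGroup.mk'_surjective R)
    have hMbcop : ¬ p ∣ Nat.card Mb := by
      intro hd
      obtain ⟨y, hy⟩ := exists_prime_orderOf_dvd_card' (G := Mb) p hd
      obtain ⟨m, hm, hmy⟩ := y.2
      obtain ⟨j, k', hk', hjk⟩ := Nat.exists_eq_pow_mul_and_not_dvd (orderOf_pos m).ne' p hp.out.ne_one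
      have h1 : m ^ k' ∈ R := by
        have hp' : IsPGroup p (Subgroup.zpowers (⟨m, hm⟩ ^ k' : M)) := by
          refine IsPGroup.of_card (n := j) ?_
          rw [Nat.card_zpowers, orderOf_pow, Subgroup.orderOf_mk, hjk,
            Nat.gcd_eq_right (dvd_mul_left k' (p ^ j)), Nat.mul_div_cancel _ (Nat.pos_of_ne_zero
              fun e => hk' (by rw [e]; exact dvd_zero p))]
        obtain ⟨T, hT⟩ := hp'.exists_le_sylow
        haveI : Subsingleton (Sylow p M) := (Sylow.unique_of_normal P₀ hP₀).instSubsingleton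
        exact ⟨_, (Subsingleton.elim T P₀ ▸ hT) (Subgroup.mem_zpowers _), by simp⟩
      have h2 : (y : G ⧸ R) ^ k' = 1 := by
        rw [← hmy, ← map_pow]
        exact (QuotientGroup.eq_one_iff _).2 h1
      have h3 := orderOf_dvd_of_pow_eq_one h2
      rw [Subgroup.orderOf_coe, hy] at h3
      exact hk' h3
    haveI : Group.IsSolvable Mb := Group.isSolvable_of_isSolvable_injective (f := Mb.subtype) Mb.subtype_injective
    have hxb : π x ∈ Subgroup.normalizer (Mb : Set (G ⧸ R)) := by
      rw [Subgroup.normalizer_eq_top_iff.2 (inferInstance : Mb.Normal)]; exact Subgroup.mem_top _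
    set α := conjAut Mb hxb with hα
    have hαi : α ^ p ^ i = 1 := conjAut_pow Mb hxb (by rw [← map_pow, hi, map_one])
    -- the displacements generate `M/R`
    have hD : dispGroup α = ⊤ := by
      by_contra hD
      obtain ⟨W, hle, hW⟩ := exists_maxData α (dispGroup_normal α) (dispGroup_inv α) hD
      set U := (W.map Mb.subtype).comap π with hU
      have hUM : ∀ u ∈ U, u ∈ M := by
        rintro u ⟨w, hw, hwu⟩
        obtain ⟨m, hm, hmw⟩ := w.2
        have h1 : m⁻¹ * u ∈ M := hRM ((QuotientGroup.eq).1 (hmw.trans hwu))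
        simpa using M.mul_mem hm h1
      have hdispU : ∀ m ∈ M, ∀ y : G, (π y = π x ∨ y ∈ M) → ⁅m, y⁆ ∈ U := by
        intro m hm y hy
        set mb : Mb := ⟨π m, m, hm, rfl⟩
        show π ⁅m, y⁆ ∈ W.map Mb.subtype
        rcases hy with hy | hy
        · refine ⟨mb * α mb⁻¹, ?_, ?_⟩
          · have := hle (disp_mem α mb⁻¹)
            rwa [inv_inv] at this
          · show ((mb * α mb⁻¹ : Mb) : G ⧸ R) = π ⁅m, y⁆
            rw [Subgroup.coe_mul, coe_conjAut, Subgroup.coe_inv, map_commutatorElement, hy,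
              commutatorElement_def]
            simp [mb, mul_assoc]
        · set yb : Mb := ⟨π y, y, hy, rfl⟩
          refine ⟨⁅mb, yb⁆, hW.comm ?_, ?_⟩
          · rw [commutator_def]
            exact Subgroup.commutator_mem_commutator (Subgroup.mem_top _) (Subgroup.mem_top _)
          · rw [map_commutatorElement Mb.subtype, map_commutatorElement]
            rfl
      have hRU : R ≤ U := fun r hr => by
        show π r ∈ W.map Mb.subtype
        rw [show π r = 1 from (QuotientGroup.eq_one_iff r).2 hr]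
        exact Subgroup.one_mem _
      set V := U ⊔ (P : Subgroup G) with hV'
      have hPV : ∀ s ∈ (P : Subgroup G), s ∈ V := fun s hs => Subgroup.mem_sup_right hs
      have hMnorm : ∀ m ∈ M, ∀ v ∈ V, m * v * m⁻¹ ∈ V := by
        intro m hm v hv
        refine (show V ≤ V.comap (MulAut.conj m).toMonoidHom from sup_le (fun u hu => ?_) fun s hs => ?_) hv
        · show m * u * m⁻¹ ∈ V
          have h1 := Subgroup.mem_sup_left (T := (P : Subgroup G)) (hdispU m hm u (Or.inr (hUM u hu)))
          rw [commutatorElement_def] at h1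
          simpa using V.mul_mem h1 (Subgroup.mem_sup_left (T := (P : Subgroup G)) hu)
        · show m * s * m⁻¹ ∈ V
          -- `s = r x ^ t`
          obtain ⟨m', hm', z, hz, rfl⟩ :=
            Subgroup.mem_sup_of_normal_left.1 (hgen ▸ Subgroup.mem_top s : s ∈ M ⊔ Subgroup.zpowers x)
          obtain ⟨t, rfl⟩ := Subgroup.mem_zpowers_iff.1 hz
          have hm'R : m' ∈ R := hPMR m' (by
            simpa using (P : Subgroup G).mul_mem hs ((P : Subgroup G).inv_mem
              ((P : Subgroup G).zpow_mem hxP t))) hm'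
          have hc : m * x * m⁻¹ ∈ V := by
            have h1 := Subgroup.mem_sup_left (T := (P : Subgroup G)) (hdispU m hm x (Or.inl rfl))
            rw [commutatorElement_def] at h1
            simpa using V.mul_mem h1 (hPV x hxP)
          rw [show m * (m' * x ^ t) * m⁻¹ = m * m' * m⁻¹ * (m * x * m⁻¹) ^ t by rw [conj_zpow]; group]
          exact V.mul_mem (Subgroup.mem_sup_left (hRU (hRn.conj_mem m' hm'R m))) (V.zpow_mem hc t)
      have hVn : V.Normal := by
        refine ⟨fun v hv g => ?_⟩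
        obtain ⟨m, hm, z, hz, rfl⟩ :=
          Subgroup.mem_sup_of_normal_left.1 (hgen ▸ Subgroup.mem_top g : g ∈ M ⊔ Subgroup.zpowers x)
        have hzP : z ∈ (P : Subgroup G) := Subgroup.zpowers_le.2 hxP hz
        rw [show m * z * v * (m * z)⁻¹ = m * (z * v * z⁻¹) * m⁻¹ by group]
        exact hMnorm m hm _ (V.mul_mem (V.mul_mem (hPV z hzP) hv) (V.inv_mem (hPV z hzP)))
      refine hV V hVn ?_ le_sup_right
      intro htop
      refine hW.ne_top (eq_top_iff.2 fun w _ => ?_)
      obtain ⟨m, hm, hmw⟩ := w.2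
      have hnorm : (P : Subgroup G) ≤ Subgroup.normalizer (U : Set G) := by
        refine fun s hs => CfsgLib.CoprimeAction.mem_normalizer_of_conj_mem fun u hu => ?_
        obtain ⟨m', hm', z, hz, rfl⟩ :=
          Subgroup.mem_sup_of_normal_left.1 (hgen ▸ Subgroup.mem_top s : s ∈ M ⊔ Subgroup.zpowers x)
        have h1 : ∀ g : G, g ∈ M ∨ π g = π x → g * u * g⁻¹ ∈ U := fun g hg => by
          have h2 : ⁅u, g⁆ ∈ U := hdispU u (hUM u hu) g hg.symm
          rw [commutatorElement_def] at h2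
          have h3 := U.mul_mem (U.inv_mem h2) hu
          simpa [mul_assoc] using h3
        have h2 : Subgroup.zpowers x ≤ Subgroup.normalizer (U : Set G) := Subgroup.zpowers_le.2
          (CfsgLib.CoprimeAction.mem_normalizer_of_conj_mem fun v hv => by
            have h3 : ⁅v, x⁆ ∈ U := hdispU v (hUM v hv) x (Or.inl rfl)
            rw [commutatorElement_def] at h3
            have h4 := U.mul_mem (U.inv_mem h3) hv
            simpa [mul_assoc] using h4)
        have h5 := (Subgroup.mem_normalizer_iff.1 (h2 hz) u).1 hu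
        rw [show m' * z * u * (m' * z)⁻¹ = m' * (z * u * z⁻¹) * m'⁻¹ by group]
        have h6 : ⁅z * u * z⁻¹, m'⁆ ∈ U := hdispU _ (hUM _ h5) m' (Or.inr hm')
        rw [commutatorElement_def] at h6
        have h7 := U.mul_mem (U.inv_mem h6) h5
        simpa [mul_assoc] using h7
      have hm' : m ∈ ((U ⊔ (P : Subgroup G) : Subgroup G) : Set G) := by
        rw [← hV', htop]; exact Subgroup.mem_top m
      rw [Subgroup.coe_mul_of_right_le_normalizer_left U (P : Subgroup G) hnorm] at hm'
      obtain ⟨u, hu, s, hs, hus⟩ := hm'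
      have hsM : s ∈ M := by
        rw [show s = u⁻¹ * m by rw [← hus]; simp]
        exact M.mul_mem (M.inv_mem (hUM u hu)) hm
      obtain ⟨w', hw', hw'e⟩ : π m ∈ W.map Mb.subtype := by
        rw [← hus, map_mul, show π s = 1 from (QuotientGroup.eq_one_iff s).2 (hPMR s hs hsM), mul_one]
        exact hu
      rwa [show w = w' from Subtype.ext (hmw.symm.trans hw'e.symm)]
    -- the linear constituents on `R`
    haveI := Fintype.ofFinite R
    haveI := Fintype.ofFinite (IrrCharacter R)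
    set n := charDegree (χ : G → ℂ) with hn
    obtain ⟨k, hk, hval, hdeg⟩ := decomp (IsIrrCharacter.isCharacter χ.2) (charDegree_one χ) R
    have hlin : ∀ φ : IrrCharacter R, k φ ≠ 0 → charDegree (φ : R → ℂ) = 1 := by
      intro φ hφ
      have h1 := ItoSolvable.dvd_of_constituent R φ χ (by rw [hk]; exact Nat.cast_ne_zero.2 hφ)
      obtain ⟨j, hj⟩ := IsPGroup.iff_card.1 hRp
      obtain ⟨l, -, hl⟩ := (Nat.dvd_prime_pow hp.out).1
        (hj ▸ (CfsgLib.BrauerCharacters.charDegree_spec φ).2.2)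
      rcases Nat.eq_zero_or_pos l with e | e
      · rw [hl, e, pow_zero]
      · exact absurd ((dvd_pow_self p e.ne').trans (hl ▸ h1)) hpn
    obtain ⟨φ₁, hφ₁⟩ : ∃ φ, k φ ≠ 0 := by
      by_contra hcon
      push Not at hcon
      rw [Finset.sum_eq_zero fun φ _ => by rw [hcon φ, zero_mul]] at hdeg
      exact (CfsgLib.BrauerCharacters.charDegree_spec χ).2.1.ne' hdeg
    have horb : ∀ φ : IrrCharacter R, k φ ≠ 0 →
        (conjOrbit R (φ : R → ℂ)).card ∣ n := by
      intro φ hφ
      have h1 := Clifford.apply_one_eq R χ.2 φ.2 (by rw [hk]; exact Nat.cast_ne_zero.2 hφ)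
      rw [hk, charDegree_one, charDegree_one, hlin φ hφ, Nat.cast_one, mul_one] at h1
      exact ⟨k φ, by rw [mul_comm]; exact_mod_cast h1⟩
    set O := conjOrbit R (φ₁ : R → ℂ) with hO
    have hOmem : ∀ f ∈ O, ∀ g, conjChar R f g ∈ O := by
      intro f hf g
      obtain ⟨g₀, rfl⟩ := (mem_conjOrbit R).1 hf
      rw [conjChar_conjChar]
      exact (mem_conjOrbit R).2 ⟨_, rfl⟩
    let σ : Equiv.Perm O :=
      { toFun := fun f => ⟨conjChar R f x, hOmem f f.2 x⟩
        invFun := fun f => ⟨conjChar R f x⁻¹, hOmem f f.2 x⁻¹⟩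
        left_inv := fun f => Subtype.ext (by
          show conjChar R (conjChar R f x) x⁻¹ = f
          rw [conjChar_conjChar, mul_inv_cancel, conjChar_one])
        right_inv := fun f => Subtype.ext (by
          show conjChar R (conjChar R f x⁻¹) x = f
          rw [conjChar_conjChar, inv_mul_cancel, conjChar_one]) }
    have hσk : ∀ (j : ℕ) (f : O), ((σ ^ j) f : R → ℂ) = conjChar R f (x ^ j) := by
      intro j
      induction j with
      | zero => intro f; simp [conjChar_one]
      | succ j ihj =>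
        intro f
        rw [pow_succ', Equiv.Perm.mul_apply]
        show conjChar R ((σ ^ j) f : R → ℂ) x = _
        rw [ihj, conjChar_conjChar, pow_succ]
    obtain ⟨⟨f, hf⟩, hfix⟩ := exists_fixed σ (p := p) (i := i) (Equiv.ext fun f => Subtype.ext (by
      rw [hσk, hi, conjChar_one]; rfl)) (by
      rw [Nat.card_eq_finsetCard]
      exact fun hd => hpn (hd.trans (horb φ₁ hφ₁)))
    have hfx : conjChar R f x = f := congrArg Subtype.val hfix
    obtain ⟨g₀, rfl⟩ := (mem_conjOrbit R).1 hf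
    set φ : IrrCharacter R := ⟨_, isIrrCharacter_conjChar R φ₁.2 g₀⟩ with hφ
    have hkφ : k φ ≠ 0 := fun h0 => hφ₁ (Nat.cast_injective (R := ℂ) (by
      have h := hk φ
      rw [hφ, classInner_conjChar R (IsIrrCharacter.isClassFunction χ.2), hk] at h
      rw [h]
      exact_mod_cast h0))
    let T : Subgroup G :=
      { carrier := {g | conjChar R (φ : R → ℂ) g = (φ : R → ℂ)}
        one_mem' := conjChar_one R _
        mul_mem' := fun {a b} ha hb => by
          show conjChar R (φ : R → ℂ) (a * b) = (φ : R → ℂ)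
          rw [← conjChar_conjChar]
          exact (congrArg (fun f => conjChar R f b) ha).trans hb
        inv_mem' := fun {a} ha => by
          show conjChar R (φ : R → ℂ) a⁻¹ = (φ : R → ℂ)
          conv_lhs => rw [← ha]
          rw [conjChar_conjChar, mul_inv_cancel, conjChar_one] }
    have hxT : x ∈ T := hfx
    have hRT : R ≤ T := fun g hg => funext fun r => by
      rw [conjChar_apply]
      exact IsIrrCharacter.isClassFunction φ.2 r ⟨g, hg⟩
    set S := (T.map π).subgroupOf Mb with hS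
    by_cases hmoved : ∃ w, w⁻¹ * α w ∉ S
    · refine hgood S.index (good_index _ Mb rfl hMbcop α hαi S ?_ hmoved) ?_
      · intro w hw
        rw [hS, Subgroup.mem_subgroupOf, coe_conjAut]
        exact (T.map π).mul_mem ((T.map π).mul_mem ⟨x, hxT, rfl⟩ (Subgroup.mem_subgroupOf.1 hw))
          ((T.map π).inv_mem ⟨x, hxT, rfl⟩)
      · refine dvd_trans ?_ (horb φ hkφ)
        rw [card_conjOrbit R (φ : R → ℂ) T fun g => Iff.rfl,
          ← Subgroup.index_map_eq (H := T) (f := π) (QuotientGroup.mk'_surjective R)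
            (by rw [QuotientGroup.ker_mk']; exact hRT)]
        refine dvd_of_eq (relIndex_eq_index_of_sup_eq_top Mb (T.map π) ?_)
        rw [hMb, ← Subgroup.map_sup, eq_top_iff,
          ← Subgroup.map_top_of_surjective π (QuotientGroup.mk'_surjective R), ← hgen]
        exact Subgroup.map_mono (sup_le_sup le_rfl (Subgroup.zpowers_le.2 hxT))
    push Not at hmoved
    have hMT : M ≤ T := by
      intro m hm
      have h1 : dispGroup α ≤ S := (Subgroup.closure_le _).2 (by rintro _ ⟨w, rfl⟩; exact hmoved w)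
      rw [hD] at h1
      obtain ⟨t, ht, htm⟩ := Subgroup.mem_subgroupOf.1 (h1 (Subgroup.mem_top ⟨π m, m, hm, rfl⟩))
      have := T.mul_mem ht (hRT ((QuotientGroup.eq).1 htm : t⁻¹ * m ∈ R))
      simpa using this
    have hTtop : T = ⊤ := by
      rw [eq_top_iff, ← hgen]
      exact sup_le hMT (Subgroup.zpowers_le.2 hxT)
    have hres := res_eq_of_invariant R χ.2 φ.2 (fun g => (hTtop ▸ Subgroup.mem_top g : g ∈ T))
      (by rw [hk]; exact Nat.cast_ne_zero.2 hkφ)
    have hRc : R ≤ Subgroup.center G := by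
      intro r hr
      obtain ⟨d, ρ, hρ, hρχ⟩ := id χ.2
      have hd : Module.finrank ℂ (Fin d → ℂ) = n := by
        have h := congrFun hρχ 1
        rw [Representation.char_one, charDegree_one] at h
        exact_mod_cast h
      obtain ⟨μ, hμ⟩ := exists_hom_of_degree_one φ.2 (by rw [charDegree_one, hlin φ hkφ, Nat.cast_one])
      have hnorm : ‖ρ.character r‖ = (Module.finrank ℂ (Fin d → ℂ) : ℝ) := by
        have e1 : (χ : G → ℂ) r = (k φ : ℂ) * (μ ⟨r, hr⟩ : ℂ) := by
          have := congrFun hres ⟨r, hr⟩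
          rw [hk, Pi.smul_apply, smul_eq_mul, hμ] at this
          exact this
        have e2 : (n : ℂ) = (k φ : ℂ) := by
          have := congrFun hres 1
          rw [hk, Pi.smul_apply, smul_eq_mul, hμ] at this
          simp only [map_one, Units.val_one, mul_one, OneMemClass.coe_one, charDegree_one] at this
          exact this
        have h1 : ‖((μ ⟨r, hr⟩ : ℂˣ) : ℂ)‖ = 1 := ZerosCodegree.norm_hom_eq_one μ _
        rw [hρχ, e1, ← e2, norm_mul, h1, mul_one, Complex.norm_natCast, hd]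
      obtain ⟨ω, hω⟩ := (norm_character_eq_iff ρ r).1 hnorm
      refine Subgroup.mem_center_iff.2 fun y => mul_inv_eq_one.1 (hfaith _ ?_)
      have he : ρ (y * r) = ρ (r * y) := by
        rw [map_mul, map_mul, hω, mul_smul_comm, smul_mul_assoc]; rfl
      rw [← hρχ]
      show LinearMap.trace ℂ _ (ρ (y * r * (r * y)⁻¹)) = LinearMap.trace ℂ _ (ρ 1)
      rw [map_mul, he, ← map_mul, mul_inv_cancel]
    -- the normal `p`-complement of `M`
    have hnc : Subgroup.normalizer ((P₀ : Subgroup M) : Set M) ≤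
        Subgroup.centralizer ((P₀ : Subgroup M) : Set M) := fun m _ =>
      Subgroup.mem_centralizer_iff.2 fun r hr => Subtype.ext
        (Subgroup.mem_center_iff.1 (hRc ⟨r, hr, rfl⟩) m).symm
    set H := (MonoidHom.transferSylow P₀ hnc).ker with hH
    have hcompl := MonoidHom.ker_transferSylow_isComplement' P₀ hnc
    have hHcop : ¬ p ∣ Nat.card H := MonoidHom.not_dvd_card_ker_transferSylow P₀ hnc
    haveI : Group.IsSolvable M := Group.isSolvable_of_isSolvable_injective (f := M.subtype) M.subtype_injective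
    haveI : Group.IsSolvable H := Group.isSolvable_of_isSolvable_injective (f := H.subtype) H.subtype_injective
    have hHmem : ∀ m : M, m ∈ H ↔ ¬ p ∣ orderOf m := by
      intro m
      constructor
      · exact fun hm hd => hHcop (hd.trans (Subgroup.orderOf_dvd_natCard H hm))
      · intro hd
        rw [hH, MonoidHom.mem_ker, ← orderOf_eq_one_iff]
        obtain ⟨j, hj⟩ := IsPGroup.iff_card.1 P₀.2
        exact Nat.eq_one_of_dvd_coprimes ((hp.out.coprime_iff_not_dvd.2 hd).pow_left j)
          (hj ▸ orderOf_dvd_natCard _) (orderOf_map_dvd _ m)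
    haveI : H.Characteristic := Subgroup.characteristic_iff_comap_eq.2 fun e => Subgroup.ext fun m => by
      rw [Subgroup.mem_comap, hHmem, hHmem, MulEquiv.coe_toMonoidHom, e.orderOf_eq]
    set HG := H.map M.subtype with hHG
    haveI : HG.Normal := by rw [hHG]; infer_instance
    haveI := Fintype.ofFinite H
    haveI := Fintype.ofFinite HG
    haveI : Group.IsSolvable HG := Group.isSolvable_of_isSolvable_injective (f := HG.subtype) HG.subtype_injective
    have hHGcop : ¬ p ∣ Nat.card HG := by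
      rwa [hHG, ← Nat.card_congr (Subgroup.equivMapOfInjective H _ M.subtype_injective).toEquiv]
    -- the restriction to the complement is irreducible
    set ψ : IrrCharacter M := ⟨_, hψ⟩ with hψdef
    have hψH : IsIrrCharacter H fun h : H => (ψ : M → ℂ) h := by
      refine (isIrrCharacter_iff_norm_one (χ := fun h : H => (ψ : M → ℂ) h)
        (CfsgLib.Coherence.isCharacter_comp (IsIrrCharacter.isCharacter ψ.2) H.subtype)).2 ?_
      obtain ⟨ω, hω⟩ := ZerosCodegree.exists_centralHom ψ.2 (N := (P₀ : Subgroup M))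
        (fun r hr => Subgroup.mem_center_iff.2 fun m => Subtype.ext
          (Subgroup.mem_center_iff.1 (hRc ⟨r, hr, rfl⟩) m))
      have hself := classInner_self_of_isIrr ψ.2
      rw [classInner, inv_mul_eq_iff_eq_mul₀ (Nat.cast_ne_zero.2 Nat.card_pos.ne'), mul_one,
        ← Fintype.sum_equiv (Equiv.ofBijective _ hcompl) (fun z => (ψ : M → ℂ) (z.1 * z.2) *
          conj ((ψ : M → ℂ) (z.1 * z.2))) _ (fun z => rfl), Fintype.sum_prod_type,
        Finset.sum_congr rfl (g := fun h : H => (Nat.card (P₀ : Subgroup M) : ℂ) *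
          ((ψ : M → ℂ) h * conj ((ψ : M → ℂ) h))) (fun h _ => by
          rw [Finset.sum_congr rfl (g := fun _ => (ψ : M → ℂ) h * conj ((ψ : M → ℂ) h)) (fun r _ => by
            rw [hω, map_mul, mul_mul_mul_comm, Complex.mul_conj', ZerosCodegree.norm_hom_eq_one,
              Complex.ofReal_one, one_pow, one_mul]),
            Finset.sum_const, Finset.card_univ, ← Nat.card_eq_fintype_card, nsmul_eq_mul]
          rfl),
        ← Finset.mul_sum, ← hcompl.card_mul_card, Nat.cast_mul,
        mul_comm (Nat.card H : ℂ)] at hself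
      show classInner (fun h : H => (ψ : M → ℂ) h) (fun h : H => (ψ : M → ℂ) h) = 1
      rw [classInner, inv_mul_eq_iff_eq_mul₀ (Nat.cast_ne_zero.2 Nat.card_pos.ne'), mul_one]
      exact mul_left_cancel₀ (Nat.cast_ne_zero.2 Nat.card_pos.ne') hself
    let eH : HG ≃* H := (Subgroup.equivMapOfInjective H _ M.subtype_injective).symm
    have heH : ∀ h : HG, (((eH h : H) : M) : G) = (h : G) := fun h => by
      conv_rhs => rw [← (Subgroup.equivMapOfInjective H _ M.subtype_injective).apply_symm_apply h]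
      rfl
    have hθirr : IsIrrCharacter HG fun h : HG => (χ : G → ℂ) h := by
      have h1 := isIrrCharacter_comp_mulEquiv hψH eH
      rwa [show (fun h : HG => (ψ : M → ℂ) (eH h)) = fun h : HG => (χ : G → ℂ) h from
        funext fun h => congrArg (χ : G → ℂ) (heH h)] at h1
    have hxH : x ∈ Subgroup.normalizer (HG : Set G) := by
      rw [Subgroup.normalizer_eq_top_iff.2 (inferInstance : HG.Normal)]; exact Subgroup.mem_top _
    have hθdeg : charDegree (fun h : HG => (χ : G → ℂ) h) = n := by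
      have h := charDegree_one (⟨_, hθirr⟩ : IrrCharacter HG)
      simp only [OneMemClass.coe_one, charDegree_one] at h
      exact_mod_cast h.symm
    refine hgood _ (good_degree _ HG rfl hHGcop (conjAut HG hxH) (conjAut_pow HG hxH hi)
      ⟨_, hθirr⟩ (fun h => IsIrrCharacter.isClassFunction χ.2 (h : G) x) ?_) (dvd_of_eq hθdeg)
    by_contra hcon
    push Not at hcon
    -- then `x` centralises `M`
    have hxc : ∀ m ∈ M, x * m = m * x := by
      intro m hm
      obtain ⟨⟨h, r⟩, hhr⟩ := hcompl.2 (⟨m, hm⟩ : M)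
      have hm' : m = ((h : M) : G) * ((r : M) : G) := (congrArg Subtype.val hhr).symm
      set a : G := ((h : M) : G) with ha
      have h1 : a⁻¹ * (x * a * x⁻¹) = 1 := hfaith _ (by
        have := hcon (⟨a, (h : M), h.2, rfl⟩ : HG)
        exact this)
      rw [inv_mul_eq_one, eq_mul_inv_iff_mul_eq] at h1
      have h2 : Commute x ((h : M) : G) := h1.symm
      have h3 : Commute x ((r : M) : G) := Subgroup.mem_center_iff.1 (hRc ⟨_, r.2, rfl⟩) x
      rw [hm']
      exact h2.mul_right h3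
    refine hP (Subgroup.normalizer_eq_top_iff.1 (eq_top_iff.2 ?_))
    rw [← hgen]
    refine sup_le (fun m hm => ?_) (Subgroup.zpowers_le.2 (Subgroup.le_normalizer hxP))
    refine Subgroup.centralizer_le_normalizer _ (Subgroup.mem_centralizer_iff.2 fun s hs => ?_)
    obtain ⟨m', hm', z, hz, rfl⟩ :=
      Subgroup.mem_sup_of_normal_left.1 (hgen ▸ Subgroup.mem_top s : s ∈ M ⊔ Subgroup.zpowers x)
    obtain ⟨t, rfl⟩ := Subgroup.mem_zpowers_iff.1 hz
    have hm'R : m' ∈ R := hPMR m' (by
      simpa using (P : Subgroup G).mul_mem hs ((P : Subgroup G).inv_mem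
        ((P : Subgroup G).zpow_mem hxP t))) hm'
    have h2 : Commute m (x ^ t) := (show Commute m x from (hxc m hm).symm).zpow_right t
    have h3 : Commute m m' := Subgroup.mem_center_iff.1 (hRc hm'R) m
    exact (h3.mul_right h2).symm

end Winter

end CfsgLib.CharDegreesTheory.WinterIto
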